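import Cfsg.Agent.SporChar.CoSuz
import Cfsg.Agent.SporChar.HJWrap
import Cfsg.Agent.Class.Triangle
import Cfsg.Agent.Trans.Component
import Cfsg.Agent.S1720
import Cfsg.Agent.S1721
import Cfsg.Agent.S1620

/-!
The centraliser `5 × 2.J2` of a fixed point free element of order 5 in `Co0`.
-/

set_option autoImplicit false
set_option maxRecDepth 100000

namespace Cfsg.Lib.SporChar.CL

open Cfsg Cfsg.Lib.Local Cfsg.Lib.Spor Cfsg.Lib.Spor.CK Cfsg.Lib.SporChar.Co Subgroup MulAction Matrix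
open Bulk (wv gL)

attribute [local irreducible] mmul app tr cId cNeg cZero isSh isCo0 cm pk ip gFL mW mZ mN gM gWw gZz gS

/-- An element of order 5 without fixed vectors. -/
noncomputable def zet : Co0 := el mZ

theorem cm_zet : cm zet = mZ := (reps_all _ (by simp)).cm_el

theorem zet_pow : zet ^ 5 = 1 := cm_inj (by
  rw [pow_succ', pow_succ', pow_succ', pow_succ', pow_one, ← mmul_cm, ← mmul_cm, ← mmul_cm, ← mmul_cm,
    cm_zet, cm_one, chkZ.1])

theorem orderOf_zet : orderOf zet = 5 :=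
  haveI : Fact (Nat.Prime 5) := ⟨Nat.prime_five⟩
  orderOf_eq_prime zet_pow fun h => chkZ.2.1 (by rw [← cm_zet, h, cm_one])

theorem odd_zet : Odd (orderOf zet) := by rw [orderOf_zet]; decide

theorem acts_zet : F0.Acts zet kZ := acts0 cm_zet chkZ.2.2.2.1

theorem comm_zet {g : Co0} (h : cm g ∈ mN :: gZz) : g ∈ Cx zet :=
  mem_cent_zpowers.2 (comm_of_comB cm_zet rfl (allL_iff.1 chkZ.2.2.2.2.1 _ h))

theorem gm_mem_zet {l : ℕ} (hl : l < 6) : gm l ∈ Cx zet :=
  mem_cent_zpowers.2 (comm_of_comB cm_zet (cm_gm l) (allLT_iff.1 chkZ.2.2.2.2.2.1 l hl))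

theorem omega4 : (Omega (ZMod 2) (quadFormMinus 1 (ZMod 2) 1 1)).index = 2 ∧
    pCore 2 (Omega (ZMod 2) (quadFormMinus 1 (ZMod 2) 1 1)) = ⊥ := by
  obtain ⟨e⟩ := Cfsg.Agent.S0824.result (F := ZMod 2) (ZMod.card 2)
  have h1 := (Omega (ZMod 2) (quadFormMinus 1 (ZMod 2) 1 1)).card_mul_index
  rw [HJ.card_Omega, Nat.card_congr e.toEquiv, Nat.card_perm, Nat.card_fin] at h1
  refine ⟨by norm_num [Nat.factorial] at h1; omega, ?_⟩
  have : IsSimpleGroup (Omega (ZMod 2) (quadFormMinus 1 (ZMod 2) 1 1)) :=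
    ((e.subgroupMap _).trans (MulEquiv.subgroupCongr (by
      rw [_root_.map_commutator_eq, MonoidHom.range_eq_top.2 e.surjective, ← _root_.commutator_def,
        alternatingGroup.commutator_perm_eq (by simp)]))).isSimpleGroup
  refine (IsSimpleGroup.eq_bot_or_eq_top_of_normal _ inferInstance).resolve_right fun h => ?_
  obtain ⟨n, hn⟩ := IsPGroup.iff_card.1 (Solv.pCore_isPGroup 2
    (Omega (ZMod 2) (quadFormMinus 1 (ZMod 2) 1 1)))
  rw [h, card_top, HJ.card_Omega] at hn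
  exact absurd (Nat.prime_three.dvd_of_dvd_pow (hn ▸ by norm_num : 3 ∣ 2 ^ n)) (by norm_num)

/-- A basis of the fixed space of `zet`. -/
def cZ : (Fin 1 ⊕ Fin 1) ⊕ Fin 2 → ℕ := Sum.elim (Sum.elim ![12] ![75]) ![46, 218]

/-- The projection onto the fixed space of `zet`. -/
def pZ : Matrix ((Fin 1 ⊕ Fin 1) ⊕ Fin 2) (Fin 4 ⊕ Fin 4) (ZMod 2) := Matrix.of fun j s =>
  ((nth 0 [4, 8, 5, 4, 1, 13, 10, 15] (pos8 s) /
    2 ^ Sum.elim (Sum.elim ![0] ![1]) ![2, 3] j : ℕ) : ZMod 2)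

theorem psiZ : PsiData kZ 5 (quadFormMinus 1 (ZMod 2) 1 1) cZ pZ ∧
    ∀ v ∈ vZz, (Em cZ * pZ) *ᵥ vec v = vec v :=
  ⟨⟨by decide +kernel, by decide +kernel, by decide +kernel, by decide +kernel, by decide +kernel⟩,
    by decide +kernel⟩

theorem lx_zet : LX (px zet ⟨F0.z, mem_cent_zpowers.2 acts_zet.comm_z.symm⟩) 5
    (Omega (ZMod 2) (quadFormMinus 1 (ZMod 2) 1 1)) := by
  obtain ⟨ψ, h1, h2, h3⟩ := exists_omega psiZ.1 acts_zet (C := Cx zet) (fun _ => mem_cent_zpowers)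
    orderOf_zet (by decide) omega4.1 (fun μ hμ => by
      obtain ⟨g, a, b⟩ := acts_pair (T := gZz) (fun A h => by simp [h]) rfl (fun i hi => (chkA.1 i hi).2)
        (by decide +kernel) μ hμ
      exact ⟨g, comm_zet (by simp [a]), b⟩) psiZ.2 chkZz.1 chkZz.2.1 chkZz.2.2.1
    (HJ.card_Omega.trans chkZz.2.2.2.symm) (by
      rw [chkZz.2.2.2]
      exact card_le_of_chain (invL_240 inf_le_left)
        (.cons cm_zet (fun g hg => mem_cent_zpowers.1 hg.2) (comL_nil _)) (fixL_nil _) chkDz)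
  exact lx_sec odd_zet acts_zet (fun _ => mem_cent_zpowers) (QuotientGroup.mk'_surjective _) px_eq_one
    (by norm_num) chkZ.2.2.2.2.2.2.2.1 omega4.2 ψ h1 h2 h3
    (mem_cent_zpowers.1 (comm_zet (by simp [cm_nwE]))) (by norm_num) (by norm_num)
    chkZ.2.2.2.2.2.2.1 nwE_z

theorem j2_sec : Spor.IsoJ2 (Sx zet) ∧ Nat.card (Sx zet) = 604800 := by
  obtain ⟨hz, Q, _, hF, hQ, hc, ⟨e⟩, hw⟩ := lx_zet
  have h4 : gm 4 * gm 4 = co0Neg := cm_inj (by
    rw [← mmul_cm, cm_gm, cm_neg, chkZ.2.2.2.2.2.2.2.2.2.2.1])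
  have key : ∀ c ∈ Zx zet, c * c ≠ co0Neg := fun c hc h => by
    rcases pm_of_mem_Zx odd_zet hc (k := 1) (by
      rw [show 2 ^ (1 + 1) = 2 * 2 from rfl, pow_mul, sq, sq, h, co0Neg_mul_self]) with rfl | rfl
    exacts [co0Neg_ne_one (h.symm.trans (one_mul _)), co0Neg_ne_one (h.symm.trans co0Neg_mul_self)]
  have hcl : ∃ x y : Sx zet, orderOf x = 2 ∧ orderOf y = 2 ∧ ¬ IsConj x y := by
    refine ⟨_, px zet ⟨gm 4, gm_mem_zet (by norm_num)⟩, hz, orderOf_eq_prime ?_ fun h =>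
      key _ ((px_eq_one _).1 h) h4, fun h => ?_⟩
    · rw [sq, ← map_mul, px_eq_one]
      exact (h4 ▸ neg_mem_Zx zet : gm 4 * gm 4 ∈ Zx zet)
    · obtain ⟨g, hg⟩ := isConj_iff.1 h
      obtain ⟨g, rfl⟩ := QuotientGroup.mk'_surjective _ g
      rw [← map_inv, ← map_mul, ← map_mul, ← inv_mul_eq_one, ← map_inv, ← map_mul, px_eq_one] at hg
      obtain ⟨c, hc⟩ : ∃ c, ((g : Co0) * F0.z * (g : Co0)⁻¹)⁻¹ * gm 4 = c := ⟨_, rfl⟩
      replace hg : c ∈ Zx zet := hc ▸ hg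
      rw [inv_mul_eq_iff_eq_mul] at hc
      have h5 := comm_of_mem_Zx hg (mem_cent_zpowers.1 (gm_mem_zet (l := 4) (by norm_num)))
      refine key c hg ?_
      rw [← h4]
      nth_rewrite 1 [hc]
      rw [mul_assoc, ← h5, hc, ← mul_assoc, ← mul_assoc, conj_mul, F0.zz]
      simp
  exact ⟨Cfsg.Agent.S1720.result _ hz Q hF hQ hc e hw hcl,
    Cfsg.Agent.S1721.result _ hz Q hF hQ hc e hw hcl⟩

theorem not_comm_J2 : ¬ IsMulCommutative Spor.J2 := fun h => by
  obtain ⟨a, b, k⟩ := Cfsg.Agent.S1620.result.2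
  exact k (h.is_comm.comm a b)

/-- The subgroup `J2` of `Co1`. -/
noncomputable abbrev MJ : Subgroup Spor.Co1 := gL (fun l => toCo1 (gm l)) [1, 2, 3, 4, 5]

theorem MJ_le_omg : MJ ≤ centralizer (zpowers (toCo1 omg) : Set Spor.Co1) :=
  Bulk.gL_le fun l _ => toCo1_mem_Cb (gm_mem l)

theorem MJ_le_zet : MJ ≤ centralizer (zpowers (toCo1 zet) : Set Spor.Co1) :=
  Bulk.gL_le fun l hl => toCo1_mem_Cb (gm_mem_zet (by revert l; decide))

theorem le_card_MJ : 604800 ≤ Nat.card MJ := by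
  obtain ⟨π, -, -, h, -⟩ := exists_suz
  let g : ℕ → centralizer (zpowers (toCo1 omg) : Set Spor.Co1) := fun l => ⟨_, toCo1_mem_Cb (gm_mem l)⟩
  rw [show MJ = (gL g [1, 2, 3, 4, 5]).map (Subgroup.subtype _) from
    (Bulk.map_gL (g := g) (f := Subgroup.subtype _) (k := 8) (Ls := [1, 2, 3, 4, 5]) (fun _ _ => rfl)
      (by decide +kernel)).symm,
    card_map_of_injective (subtype_injective _)]
  refine SuzP.low_abcde.trans ?_
  rw [← Bulk.map_gL (g := g) (f := SuzP.ρ.comp π) (k := 8) (fun l hl => by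
    rw [← SuzP.ρ_g0 l hl, ← h l hl]; rfl) (by decide +kernel)]
  exact Nat.le_of_dvd Nat.card_pos (card_map_dvd _ _)

theorem orderOf_toCo1 {x : Co0} {p : ℕ} [Fact p.Prime] (hp : Odd p) (h : orderOf x = p) :
    orderOf (toCo1 x) = p := orderOf_eq_prime (by rw [← map_pow, ← h, pow_orderOf_eq_one, map_one])
  fun e => by
    rw [← map_one toCo1, toCo1_eq_iff, mul_one] at e
    have : x ^ 2 = 1 := by rcases e with rfl | rfl; exacts [one_pow _, (sq _).trans co0Neg_mul_self]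
    exact (Fact.out : p.Prime).one_lt.ne' (Nat.eq_one_of_dvd_coprimes (Nat.coprime_two_right.2 hp)
      dvd_rfl (h ▸ orderOf_dvd_of_pow_eq_one this))

theorem disjoint_MJ : Disjoint (zpowers (toCo1 zet)) MJ := by
  have : Fact (Nat.Prime 5) := ⟨Nat.prime_five⟩
  have h1 : Nat.card (zpowers (toCo1 zet)) = 5 :=
    (Nat.card_zpowers _).trans (orderOf_toCo1 (by decide) orderOf_zet)
  rcases Nat.prime_five.eq_one_or_self_of_dvd _
    (h1 ▸ card_dvd_of_le (inf_le_left : _ ⊓ MJ ≤ _)) with h | h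
  · exact disjoint_iff.2 (card_eq_one.1 h)
  · have h2 := (eq_of_le_of_card_ge inf_le_left (h1.trans h.symm).le).ge (mem_zpowers _)
    have h3 := comm_of_trc (cm_omg ▸ chkW.2.2.1) (mem_cent_zpowers.1 (MJ_le_omg h2.2))
    have h4 := chkZ.2.2.2.2.2.2.2.2.2.1
    rw [comB, ← cm_omg, ← cm_zet, mmul_cm, mmul_cm, h3, Nat.beq_refl] at h4
    exact absurd h4 (by decide)

theorem layer_zet : Spor.IsoJ2 MJ ∧
    (layer (centralizer (zpowers (toCo1 zet) : Set Spor.Co1))).map (Subgroup.subtype _) = MJ := by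
  obtain ⟨π, -, h2, -, -⟩ := exists_bar (x := zet) (cm_zet ▸ chkZ.2.2.1)
  have hb : Function.Bijective (π.comp (inclusion MJ_le_zet)) :=
    Function.Injective.bijective_of_nat_card_le ((injective_iff_map_eq_one _).2 fun a ha =>
      Subtype.ext (disjoint_def.1 disjoint_MJ ((h2 _).1 ha) a.2)) (j2_sec.2 ▸ le_card_MJ)
  obtain ⟨e⟩ := j2_sec.1
  replace e := (MulEquiv.ofBijective _ hb).trans e
  refine ⟨⟨e⟩, ?_⟩
  have hc : commutator _ ≤ MJ.subgroupOf (centralizer (zpowers (toCo1 zet) : Set Spor.Co1)) := by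
    have : ∀ y : centralizer (zpowers (toCo1 zet) : Set Spor.Co1), ∃ a ∈ MJ.subgroupOf _,
        ∃ c ∈ center _, a * c = y := fun y => by
      obtain ⟨a, ha⟩ := hb.2 (π y)
      refine ⟨inclusion MJ_le_zet a, a.2, _, mem_center_iff.2 fun g => Subtype.ext (g.2 _
        ((h2 _).1 ?_)).symm, mul_inv_cancel_left _ _⟩
      rw [map_mul, map_inv, ← ha]; exact inv_mul_cancel _
    refine commutator_le.2 fun x _ y _ => ?_
    obtain ⟨a, ha, c, hc, rfl⟩ := this x
    obtain ⟨b, hb, d, hd, rfl⟩ := this y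
    rw [commutatorElement_def, show a * c * (b * d) * (a * c)⁻¹ * (b * d)⁻¹ =
      a * (c * (b * (d * (c⁻¹ * a⁻¹)) * d⁻¹)) * b⁻¹ by group, ← mem_center_iff.1 hd,
      mul_assoc b, mul_inv_cancel_right, ← mem_center_iff.1 hc, mul_assoc b, mul_assoc c⁻¹,
      mem_center_iff.1 hc, inv_mul_cancel_left, ← mul_assoc]
    exact mul_mem (mul_mem (mul_mem ha hb) (inv_mem ha)) (inv_mem hb)
  have hn : (MJ.subgroupOf (centralizer (zpowers (toCo1 zet) : Set Spor.Co1))).Normal :=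
    Normal.of_commutator_le _ hc
  have := Cfsg.Agent.S1620.result.1
  have hl : layer _ = MJ.subgroupOf (centralizer (zpowers (toCo1 zet) : Set Spor.Co1)) :=
    le_antisymm ((Trans.layer_perfect _).ge.trans ((commutator_mono le_top le_top).trans hc))
      (Trans.IsComponent.le_layer (Trans.isComponent_of_normal (Trans.IsQuasisimple.of_mulEquiv
        (Trans.isQuasisimple_of_isSimpleGroup not_comm_J2)
        ((subgroupOfEquivOfLe MJ_le_zet).trans e).symm)))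
  rw [hl, subgroupOf_map_subtype, inf_eq_left.2 MJ_le_zet]

theorem cent_MJ : Nonempty (centralizer (MJ : Set Spor.Co1) ≃* alternatingGroup (Fin 5)) := by
  have : Fact (Nat.Prime 3) := Nat.fact_prime_three
  obtain ⟨e⟩ := Class.Tri.closure_equiv_A5 (a := toCo1 omg * toCo1 zet) (b := (toCo1 omg)⁻¹)
    (by rw [← map_mul, ← map_mul, show omg * zet * (omg * zet) = co0Neg from cm_inj (by
      rw [← mmul_cm, ← mmul_cm, cm_omg, cm_zet, cm_neg, chkZ.2.2.2.2.2.2.2.2.1]), toCo1_neg])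
    (by rw [inv_pow, ← map_pow, omg_pow, map_one, inv_one])
    (by rw [conj_pow, ← map_pow, zet_pow]; simp) (fun h => by
      have := orderOf_toCo1 (by decide) orderOf_omg
      rw [inv_eq_one.1 h, orderOf_one] at this
      omega)
  have m1 : toCo1 omg ∈ centralizer (MJ : Set Spor.Co1) := fun y hy =>
    mem_cent_zpowers.1 (MJ_le_omg hy)
  have m2 : toCo1 zet ∈ centralizer (MJ : Set Spor.Co1) := fun y hy =>
    mem_cent_zpowers.1 (MJ_le_zet hy)
  refine ⟨(MulEquiv.subgroupCongr (eq_of_le_of_card_ge ((closure_le _).2 ?_) ?_)).symm.trans e⟩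
  · rintro _ (rfl | rfl)
    exacts [mul_mem m1 m2, inv_mem m1]
  have hw : ∀ w : List ℕ, (∀ l ∈ w, l ∈ [1, 2, 3, 4, 5]) → trP (wvM gM w) ≠ 192 →
      ∀ g ∈ (centralizer (MJ : Set Spor.Co1)).comap toCo1, g * wv gm w = wv gm w * g :=
    fun w h ht g hg => comm_of_trc (cm_wv cm_gm w ▸ ht) (hg _ (by
      rw [Bulk.map_wv]
      exact Bulk.wv_mem _ fun l hl => subset_closure ⟨l, h l hl, rfl⟩)).symm
  obtain ⟨a1, a2, a3, a4⟩ := chkZ.2.2.2.2.2.2.2.2.2.2.2
  have h := card_le_of_chain' (H := (centralizer (MJ : Set Spor.Co1)).comap toCo1)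
    (invL_240 fun g hg => toCo1_mem_cent.1 (mem_centralizer_singleton_iff.2
      (hg _ (subset_closure ⟨1, by simp, (congrArg toCo1 gm_one).trans F1_z.symm⟩)).symm))
    (show ComL _ [nth cId gL7 0, nth cId gL7 1] from
      .cons ((cm_wv cm_gm _).trans a1) (hw _ (by decide) (a1 ▸ a2))
        (.cons ((cm_wv cm_gm _).trans a3) (hw _ (by decide) (a3 ▸ a4)) (comL_nil _)))
    (fixL_nil _) chkCM
  rw [card_comap] at h
  rw [Nat.card_congr e.toEquiv, HJ.card_A5]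
  omega

theorem acts_mu5 : ∀ m ∈ [(idK, idK), kS.getD 2 (0, 0)], comp m.1 m.2 = idK ∧ ∃ g, F0.Acts g m.1 := by
  simp only [List.forall_mem_cons, List.not_mem_nil, false_imp_iff, implies_true, and_true]
  exact ⟨⟨by decide +kernel, 1, F0.acts_one⟩, acts_gS (by norm_num)⟩

theorem sylow5 : ∀ x ∈ C0, x ^ 5 = 1 → ∃ c ∈ C0, ∃ κ ∈ s25, F0.Acts (c * x * c⁻¹) κ := fun x hx h =>
  haveI : Fact (Nat.Prime 5) := ⟨Nat.prime_five⟩
  exists_conj_acts (fun μ hμ => by
    simp only [k25, List.mem_cons, List.not_mem_nil, or_false] at hμ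
    rcases hμ with rfl | rfl
    · exact ⟨_, acts_zet⟩
    · obtain ⟨g, j, -, -, k⟩ := exists_of_cjL acts_zet acts_mu5 (ν := 3970439058450566082041)
        (by rw [chkS5.2.2.2.2.2.1]; decide)
      exact ⟨_, k⟩) chkS5.1 chkS5.2.1 chkS5.2.2.1 chkS5.2.2.2.1 chkS5.2.2.2.2.1 (by norm_num) hx h

theorem reduce_five {G : Type*} [Group G] [Finite G] {z : G}
    {Q : Subgroup (centralizer ({z} : Set G))} [Q.Normal] (hG : Nonempty (G ≃* Spor.Co1))
    (hz : orderOf z = 2) (hcard : Nat.card Q = 2 ^ 9) (e : centralizer ({z} : Set G) ⧸ Q ≃* Om8)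
    {X : Subgroup (centralizer ({z} : Set G))} (hX : Nat.card X = 5)
    (hQX : Nat.card ↥(Q ⊓ centralizer (X : Set (centralizer ({z} : Set G)))) = 32) :
    ∃ f : G ≃* Spor.Co1,
      (X.map (Subgroup.subtype _)).map (f : G →* Spor.Co1) = zpowers (toCo1 zet) := by
  have : Fact (Nat.Prime 5) := ⟨Nat.prime_five⟩
  obtain ⟨f, hf, y, rfl, x, hy, h3, h1, κ, hκ, hx⟩ := reduce_p hG hz hcard e (by decide) sylow5 hX
  have h := allL_iff.1 chkS5.2.2.2.2.2.2 κ hκ
  rw [Bool.or_eq_true, memL_iff] at h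
  refine h.elim (fun h => exists_equiv_of_cjL acts_zet acts_mu5 (chkS5.2.2.2.2.2.1 ▸ h)
    Nat.prime_five (by decide) orderOf_zet hx h3 f hy) fun h => ?_
  rw [← F1.card_filter (fun q => q * toCo1 x = toCo1 x * q) _ fun i hi => by
    rw [eq_comm, ← mul_inv_eq_iff_eq_mul, (acts1 hx).conj, F1.fr_eq_iff (ev_lt _ _) hi, Nat.beq_eq],
    ← hQX, Nat.card_eq_of_bijective (β := {q : F1.sub // q * toCo1 x = toCo1 x * q})
      (fun q : ↥(Q ⊓ centralizer (zpowers y : Set (centralizer ({z} : Set G)))) =>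
        ⟨⟨f q, (reduce_Q hcard hf _).2 q.2.1⟩, by
          rw [← hy, ← map_mul, ← map_mul]
          exact congrArg (fun a : centralizer ({z} : Set G) => f a) (mem_cent_zpowers.1 q.2.2)⟩)
      ⟨fun a b k => Subtype.ext (Subtype.ext (f.injective (congrArg (·.1.1) k))), ?_⟩, Nat.beq_refl] at h
  · exact absurd h (by decide)
  · rintro ⟨⟨q, hq⟩, k⟩
    obtain ⟨q, rfl⟩ := f.surjective q
    have hq' := (mem_C1 hf).1 (F1.sub_le_cent hq)
    refine ⟨⟨⟨q, hq'⟩, (reduce_Q hcard hf ⟨q, hq'⟩).1 hq, mem_cent_zpowers.2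
      (Subtype.ext (f.injective ?_))⟩, rfl⟩
    rw [← hy, ← map_mul, ← map_mul] at k
    exact k

theorem cent_five {G : Type*} [Group G] {X : Subgroup G} (f : G ≃* Spor.Co1)
    (hf : X.map (f : G →* Spor.Co1) = zpowers (toCo1 zet)) :
    Spor.IsoJ2 (layer (centralizer (X : Set G))) ∧
    Nonempty (centralizer ((layer (centralizer (X : Set G))).map (Subgroup.subtype _) : Set G) ≃*
      alternatingGroup (Fin 5)) := by
  have h := Trans.map_layer_subtype_map_of_injective (f : G →* Spor.Co1) f.injective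
    (centralizer (X : Set G))
  rw [map_cent, hf, layer_zet.2] at h
  obtain ⟨e⟩ := layer_zet.1
  obtain ⟨e'⟩ := cent_MJ
  exact ⟨⟨(equivMapOfInjective _ _ (subtype_injective _)).trans ((f.subgroupMap _).trans
    ((MulEquiv.subgroupCongr h).trans e))⟩,
    ⟨(f.subgroupMap _).trans ((MulEquiv.subgroupCongr ((map_cent f _).trans (by rw [h]))).trans e')⟩⟩

end Cfsg.Lib.SporChar.CL
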