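import Cfsg.Agent.SporChar.J4DC
import Cfsg.Agent.Ngrp.GL23Rec

/-! Groups of type `J₄`: `GL₂(3)` in the normalizer of a Sylow 11-subgroup. -/

set_option autoImplicit false
set_option maxRecDepth 100000

namespace Cfsg.Lib.SporChar.J4D.El

open Subgroup Equiv Cfsg.Lib.Spor Cfsg.Lib.Spor.MP Cfsg.Lib.SporChar.J4 Cfsg.Lib.Solv
  Cfsg.Lib.Solv.Count J4B J4C MulAction Cfsg.Lib.Local
open scoped Pointwise

variable {G : Type*} [Group G] [Finite G] {z x g w : G} {Q U : Subgroup G} {p ρ : G → Perm GolayPt}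
  {v : Finset GolayPt → G} {κ : M24 →* G} (h : El z x g w Q U p v ρ κ)
include h

theorem exists_cent_z {t : G} (h1 : orderOf t = 2)
    (h2 : ∀ c ∈ centralizer ({g} : Set G), ∃ k ∈ centralizer ({g} : Set G),
      k * z * k⁻¹ = t * (c * z * c⁻¹) * t⁻¹) :
    ∃ c ∈ centralizer ({g} : Set G), c⁻¹ * t * c ∈ centralizer ({z} : Set G) := by
  have h3 := cnt_conj_mul (centralizer ({g} : Set G)) z
  have h4 := cnt_modEq Nat.prime_two h1
    (P := fun y => ∃ k ∈ centralizer ({g} : Set G), k * z * k⁻¹ = y) (by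
      rintro _ ⟨c, hc, rfl⟩; exact h2 c hc)
  rw [inf_comm, h.card_CH h.gx h.g11, h.cg] at h3
  by_contra! h5
  rw [cnt_eq_zero (P := fun y => _ ∧ y ∈ centralizer ({t} : Set G)) (by
    rintro _ ⟨⟨c, hc, rfl⟩, e⟩; exact h5 c hc (cent_conj_mem (cent_symm e)))] at h4
  omega

theorem conj_z {t : G} (h1 : orderOf t = 2) (h2 : t ∈ centralizer ({g} : Set G)) :
    ∃ c ∈ centralizer ({g} : Set G), c * z * c⁻¹ = t := by
  obtain ⟨c, hc, e⟩ := h.exists_cent_z h1 fun c hc => ⟨t * c, mul_mem h2 hc, by group⟩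
  have h3 : orderOf (c⁻¹ * t * c) = 2 := by rw [Local.orderOf_conj', h1]
  refine ⟨c, hc, ?_⟩
  rw [← eq_of_two h.pre.ord (h.uniq h.gx h.g11 (mul_mem (mul_mem (inv_mem hc) h2) hc) e
    (by rw [← pow_two, ← h3, pow_orderOf_eq_one])) fun e1 => by simp [e1] at h3]
  group

theorem N_le : normalizer (U : Set G) ≤ normalizer (centralizer ({g} : Set G) : Set G) := by
  rw [← h.norm_eq, ← Known.SC.centralizer_zpowers]
  exact normalizer_le_normalizer_centralizer _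

theorem inv_g {s : G} (h1 : s ∈ centralizer ({w} : Set G)) (h2 : orderOf s = 2) :
    s * g * s⁻¹ = g⁻¹ := by
  refine (h.inv_or (h.cnt_w.2 h1) (by rw [← pow_two, ← h2, pow_orderOf_eq_one])).resolve_left
    fun e => ?_
  obtain ⟨c, -, e1⟩ := h.conj_z h2 (mem_cent.2 e)
  exact (h.t_spec (a := none) (b := some 0) (by simp)).2.2
    ((isConj_iff.2 ⟨c, e1⟩).trans (h.conj_d h1 h2).symm)

theorem exists_inv : ∃ t ∈ centralizer ({z} : Set G), orderOf t = 2 ∧ t * g * t⁻¹ = g⁻¹ := by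
  obtain ⟨s, h1, h2⟩ := exists_order Nat.prime_two
    (show _ ∣ Nat.card (centralizer ({w} : Set G)) by rw [h.cw]; norm_num)
  obtain ⟨c, hc, e⟩ := h.exists_cent_z h2 fun c hc => h.conj_z
    (by rw [J4C.orderOf_conj', J4C.orderOf_conj', h.pre.ord])
    (conj_mem_of_mem_normalizer (h.N_le (h.cnt_w.2 h1))
      (mul_mem (mul_mem hc (cent_symm (h.cent_x h.gx))) (inv_mem hc)))
  refine ⟨_, e, by rw [Local.orderOf_conj', h2], ?_⟩
  calc _ = c⁻¹ * (s * (c * g * c⁻¹) * s⁻¹) * c := by group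
    _ = (c⁻¹ * g * c⁻¹⁻¹)⁻¹ := by rw [mem_cent.1 hc, h.inv_g h1 h2]; group
    _ = _ := by rw [mem_cent.1 (inv_mem hc)]

omit [Finite G] in
theorem pow_four {q : G} (hq : q ∈ Q) : q ^ 4 = 1 := by
  rw [show q ^ 4 = (q * q) ^ 2 by rw [← pow_two, ← pow_mul], ← orderOf_dvd_iff_pow_eq_one, ← h.pre.ord]
  exact orderOf_dvd_of_mem_zpowers (h.pre.sq_mem q hq)

theorem equiv_R : Nonempty (↥(Q ⊓ centralizer ({g} : Set G)) ≃* QuaternionGroup 2) := by
  have h1 := h.card_R h.gx h.g11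
  rcases Perm.isCyclic_or_quaternion_of_unique (IsPGroup.of_card (n := 3) h1)
    (fun a b ha hb e1 e2 => Subtype.ext ((eq_of_two h.pre.ord (h.uniq h.gx h.g11 a.2.2 (h.QH a.2.1)
      (by rw [← pow_two]; exact congrArg Subtype.val e1)) fun e => ha (Subtype.ext e)).trans
      (eq_of_two h.pre.ord (h.uniq h.gx h.g11 b.2.2 (h.QH b.2.1)
      (by rw [← pow_two]; exact congrArg Subtype.val e2)) fun e => hb (Subtype.ext e)).symm)) with
    e | ⟨n, ⟨e⟩⟩
  · obtain ⟨a, ha⟩ := e.exists_ofOrder_eq_natCard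
    have h2 : orderOf a ∣ 4 := orderOf_dvd_of_pow_eq_one (Subtype.ext (h.pow_four a.2.1))
    rw [ha, h1] at h2
    norm_num at h2
  · have h2 := Nat.card_congr e.toEquiv
    rw [h1, Nat.card_eq_fintype_card, QuaternionGroup.card] at h2
    obtain rfl : n = 0 := by
      have := Nat.pow_right_injective le_rfl (show 2 ^ (n + 1) = 2 ^ 1 by omega)
      omega
    exact ⟨e⟩

theorem mem_Q_of_cent {c : G} (h1 : c ∈ centralizer ({g} : Set G) ⊓ (Q ⊔ zpowers x))
    (h2 : Q ⊓ centralizer ({g} : Set G) ≤ centralizer ({c} : Set G)) : c ∈ Q := by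
  have h3 := sup_le h.QH (zpowers_le.2 h.xH) h1.2
  have h4 : (c ^ 4) ^ 3 = 1 := by
    rw [← pow_mul, mul_comm, pow_mul]
    exact h.pow_four (h.ab.pow_three_mem (n := ⟨c, h3⟩) ((h.p_eq_one c h3).2 h1.2))
  refine h.mem_R h.gx h.g11 ⟨h3, h1.1⟩ (n := 2) ?_
  by_contra e
  have : Fact (Nat.Prime 3) := ⟨Nat.prime_three⟩
  exact h.not_cent_R h.gx h.g11 (pow_mem h1 4) (orderOf_eq_prime h4 e)
    fun r hr => cent_symm (pow_mem (cent_symm (h2 hr)) 4)

theorem not_cent {c : G} (h1 : c ∈ centralizer ({z} : Set G)) (h2 : c * g * c⁻¹ = g⁻¹) :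
    ¬ Q ⊓ centralizer ({g} : Set G) ≤ centralizer ({c} : Set G) := fun h3 => by
  obtain ⟨q, hq, k, hk, e | e, rfl⟩ := h.frattini h1
  · refine not_inv_eleven (h.inner g (h.cent_x h.gx) (mem_cent.1 h.gx)) (h.ord_p h.gx h.g11)
      (h.inner k hk e) ?_
    rw [← h.p_inv (h.cent_x h.gx), ← h2, h.p_conj h1 (h.cent_x h.gx), h.p_mul q (h.QH hq) k hk,
      h.p_Q hq, one_mul]
  have h4 : q * k ∈ normalizer (centralizer ({g} : Set G) : Set G) :=
    h.N_le (h.norm_eq.le (mem_norm_zp (h2 ▸ inv_mem (mem_zpowers g))))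
  have h5 : x⁻¹ * (q * k * x * (q * k)⁻¹) = x⁻¹ * q * x * x * q⁻¹ := by
    calc _ = x⁻¹ * q * (k * x * k⁻¹) * q⁻¹ * 1 := by group
      _ = x⁻¹ * q * x⁻¹ * x ^ 3 * q⁻¹ := by rw [e, h.cube]; group
      _ = _ := by simp only [pow_succ, pow_zero, one_mul, mul_assoc, inv_mul_cancel_left]
  have h6 := inv_conj_mem_of_mem_normalizer (h.pre.norm h.xH) hq
  have h7 := h.mem_Q_of_cent (c := x⁻¹ * (q * k * x * (q * k)⁻¹)) (mem_inf.2 ⟨mul_mem
    (inv_mem (cent_symm h.gx)) (conj_mem_of_mem_normalizer h4 (cent_symm h.gx)), by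
      rw [h5]
      exact mul_mem (mul_mem (mem_sup_left h6) (mem_sup_right (mem_zpowers x)))
        (mem_sup_left (inv_mem hq))⟩) fun r hr => by
    have l1 := mem_cent.1 (cent_symm (h3 (conj_mem_of_mem_normalizer (le_normalizer_inf
      (zpowers_le.2 (h.pre.norm h.xH)) ((zpowers_le.2 (cent_symm h.gx)).trans le_normalizer)
      (mem_zpowers x)) hr)))
    have l2 := mem_cent.1 (inv_mem (cent_symm (h3 hr)))
    refine cent_symm (mem_cent.2 ?_)
    generalize q * k = c at *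
    calc _ = x⁻¹ * (c * (x * (c⁻¹ * r * c⁻¹⁻¹) * x⁻¹) * c⁻¹) * x := by group
      _ = _ := by rw [l2, l1]; group
  rw [h5, mul_mem_cancel_right (inv_mem hq), mul_mem_cancel_left h6] at h7
  exact absurd h.x3 (by simp [h.toSet0.eq_one_of_mem (mem_zpowers x) h7])

theorem exists_GL : ∃ K ≤ normalizer (U : Set G), Nonempty (K ≃* GL (Fin 2) (ZMod 3)) := by
  obtain ⟨t, h1, h2, h3⟩ := h.exists_inv
  obtain ⟨e⟩ := h.equiv_R
  have h4 : t ∈ normalizer (U : Set G) := h.norm_eq.le (mem_norm_zp (h3 ▸ inv_mem (mem_zpowers g)))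
  have h5 := sup_le h.QH (zpowers_le.2 h.xH)
  have h6 : zpowers t ≤ normalizer ((centralizer ({g} : Set G) ⊓ (Q ⊔ zpowers x) : Subgroup G) :
      Set G) := le_normalizer_inf (zpowers_le.2 (h.N_le h4)) (zpowers_le.2
    (mem_normalizer_of_conj_mem fun n hn => (h.p_eq_one _ (mul_mem (mul_mem h1 (h5 hn))
      (inv_mem h1))).1 (by rw [h.p_conj h1 (h5 hn), (h.p_eq_one n (h5 hn)).2 hn]; group)))
  have h7 : Q ⊓ centralizer ({g} : Set G) ≤
      centralizer ({g} : Set G) ⊓ (Q ⊔ zpowers x) ⊔ zpowers t :=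
    (le_inf inf_le_right (inf_le_left.trans le_sup_left)).trans le_sup_left
  have h8 : centralizer ({g} : Set G) ⊓ (Q ⊔ zpowers x) ⊔ zpowers t ≤ normalizer (U : Set G) :=
    sup_le (inf_le_left.trans h.normU) (zpowers_le.2 h4)
  have := (normal_subgroupOf_iff_le_normalizer h7).2 (le_normalizer_inf
    ((sup_le (inf_le_right.trans h5) (zpowers_le.2 h1)).trans h.pre.norm) (h8.trans h.N_le))
  refine ⟨_, h8, Nonempty.map (·.trans Ngrp.G48.equivGL) <| Ngrp.nonempty_equiv_G48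
    ((subgroupOfEquivOfLe h7).trans e) (fun c hc => ?_)
    (h.x3 ▸ orderOf_dvd_card' (mem_sup_left ⟨cent_symm h.gx, mem_sup_right (mem_zpowers x)⟩))
    (v := ⟨t, mem_sup_right (mem_zpowers t)⟩)
    (Subtype.ext (show t * t = 1 by rw [← pow_two, ← h2, pow_orderOf_eq_one])) fun k => ?_⟩
  · have k1 : Q ⊓ centralizer ({g} : Set G) ≤ centralizer ({(c : G)} : Set G) := fun r hr =>
      mem_centralizer_singleton_iff.2 (congrArg Subtype.val (hc ⟨r, h7 hr⟩ hr))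
    obtain ⟨a, ha, b, hb, e1⟩ := (mem_sup_of_le_normalizer h6).1 c.2
    by_cases e2 : b = 1
    · rw [e2, mul_one] at e1
      rw [e1] at ha
      exact ⟨h.mem_Q_of_cent ha k1, ha.1⟩
    · obtain rfl := eq_of_two h2 hb e2
      refine absurd k1 (h.not_cent (e1 ▸ mul_mem (h5 ha.2) h1) ?_)
      calc _ = a * (b * g * b⁻¹) * a⁻¹ := by rw [← e1]; group
        _ = _ := by rw [h3, ← conj_inv, mem_cent.1 ha.1]
  · have k1 : t * g * t⁻¹ = g := mem_cent.1 k.2
    rw [h3, inv_eq_iff_mul_eq_one, ← pow_two, ← orderOf_dvd_iff_pow_eq_one, h.g11] at k1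
    norm_num at k1

theorem sylow (P : Sylow 11 G) :
    IsExtraspecial 11 (P : Subgroup G) ∧ Nat.card (P : Subgroup G) = 11 ^ 3 ∧
    Monoid.exponent (P : Subgroup G) = 11 ∧
    Nat.card (normalizer ((P : Subgroup G) : Set G)) = 2 ^ 4 * 3 * 5 * 11 ^ 3 ∧
    ∃ K : Subgroup G, K ≤ normalizer ((P : Subgroup G) : Set G) ∧
      Nonempty (K ≃* GL (Fin 2) (ZMod 3)) := by
  have : Fact (Nat.Prime 11) := ⟨by norm_num⟩
  obtain ⟨k, rfl⟩ := MulAction.exists_smul_eq G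
    ((IsPGroup.of_card h.cardU).toSylow (h.not_dvd_index h.cardU)) P
  rw [coe_sylow_smul, IsPGroup.toSylow_coe]
  obtain ⟨K, h1, ⟨e⟩⟩ := h.exists_GL
  have f := U.equivSMul (MulAut.conj k)
  have h2 := (card_conj_smul k U).trans h.cardU
  refine ⟨Fus.Ess.isExtraspecial_of_card_cube h2 fun e1 => h.not_comm fun a b => f.injective (by
    rw [map_mul, map_mul, e1]), h2, (Monoid.exponent_eq_of_mulEquiv f).symm.trans h.exp, ?_,
    MulAut.conj k • K, ?_, ⟨(K.equivSMul (MulAut.conj k)).symm.trans e⟩⟩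
  · rw [← conj_smul_normalizer, card_conj_smul, h.cardN]; norm_num
  · rw [← conj_smul_normalizer]; exact conj_smul_mono k h1

theorem two_eleven : ∃ a b : G, orderOf a = 11 ∧ orderOf b = 11 ∧ ¬ IsConj a b ∧
    ∀ c : G, orderOf c = 11 → IsConj c a ∨ IsConj c b :=
  ⟨w, g, h.w11, h.g11, h.not_mem_zp (mem_zpowers g) h.g_ne, fun c hc => ((h.classes
    (IsPGroup.of_card (n := 1) (by rw [Nat.card_zpowers, hc, pow_one]))).resolve_left
      fun e => by simp [e] at hc).symm.imp IsConj.symm IsConj.symm⟩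

end Cfsg.Lib.SporChar.J4D.El
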