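import Cfsg.Agent.SporChar.J4CD

/-! Groups of type `J₄`: the statements about `E_{2^10}` in final form. -/

set_option autoImplicit false

namespace Cfsg.Lib.SporChar.J4C

open Subgroup Equiv Cfsg.Lib.Spor Cfsg.Lib.Spor.MP Cfsg.Lib.SporChar.J4 Cfsg.Lib.Solv
  Cfsg.Lib.Solv.Count J4B MulAction
open scoped Pointwise

variable {G : Type*} [Group G]

theorem ea_iff {A : Subgroup G} : IsElementaryAbelian 2 A ↔ ∀ a ∈ A, a * a = 1 :=
  ⟨fun h a ha => by rw [← pow_two]; exact h.2 a ha, fun h =>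
    ⟨⟨⟨fun a b => Subtype.ext (comm_of_sq h a.2 b.2)⟩⟩, fun a ha => by rw [pow_two]; exact h a ha⟩⟩

theorem ncard_conj (g a : G) (N : Subgroup G) :
    {y | ∃ n ∈ MulAut.conj g • N, n * (g * a * g⁻¹) * n⁻¹ = y}.ncard =
      cnt fun y => ∃ n ∈ N, n * a * n⁻¹ = y := by
  rw [← Nat.card_coe_set_eq]
  refine (cnt_congr_equiv (MulAut.conj g).toEquiv fun y => ?_).symm
  constructor
  · rintro ⟨n, hn, rfl⟩
    exact ⟨_, conj_mem_conj_smul g hn, by simp [mul_assoc]⟩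
  · rintro ⟨_, hn, e⟩
    obtain ⟨n, hn', rfl⟩ := mem_conj_smul_iff_exists.1 hn
    refine ⟨n, hn', (MulAut.conj g).injective (Eq.trans ?_ e)⟩
    simp [mul_assoc]

namespace Tw

variable {z : G} {V : Subgroup G} {v : Finset GolayPt → G} {ρ : G → Perm GolayPt} {κ : M24 →* G}
  (h : Tw z V v ρ κ) [Finite G]
include h

theorem two_ten : (∃ A : Subgroup G, IsElementaryAbelian 2 A ∧ Nat.card A = 2 ^ 10 ∧
      centralizer (A : Set G) = A) ∧
    (∀ A A' : Subgroup G, IsElementaryAbelian 2 A → Nat.card A = 2 ^ 10 →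
      centralizer (A : Set G) = A → IsElementaryAbelian 2 A' → Nat.card A' = 2 ^ 10 →
      centralizer (A' : Set G) = A' → ∃ g : G, A' = A.map (MulAut.conj g).toMonoidHom) ∧
    ∀ A : Subgroup G, IsElementaryAbelian 2 A → Nat.card A = 2 ^ 10 → centralizer (A : Set G) = A →
      (∃ B : Subgroup G, B ≤ normalizer (A : Set G) ∧ B ⊓ A = ⊥ ∧ B ⊔ A = normalizer (A : Set G) ∧
        Nonempty (B ≃* Matrix.SpecialLinearGroup (Fin 5) (ZMod 2))) ∧
      ∀ W : Subgroup G, W ≤ A → normalizer (A : Set G) ≤ normalizer (W : Set G) → W = ⊥ ∨ W = A := by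
  refine ⟨⟨h.A0, ea_iff.2 h.sq_A0, h.card_A0, h.cent_A0⟩, fun A A' h1 h2 h3 h4 h5 h6 => ?_,
    fun A h1 h2 h3 => ?_⟩
  · obtain ⟨g, rfl⟩ := h.classify (ea_iff.1 h1) h2 h3
    obtain ⟨k, rfl⟩ := h.classify (ea_iff.1 h4) h5 h6
    exact ⟨k * g⁻¹, by rw [map_conj_eq_smul, ← conj_mul_smul, inv_mul_cancel_right]⟩
  obtain ⟨g, rfl⟩ := h.classify (ea_iff.1 h1) h2 h3
  obtain ⟨B, k1, k2, k3, ⟨e⟩⟩ := h.exists_compl
  rw [← conj_smul_normalizer]
  refine ⟨⟨MulAut.conj g • B, conj_smul_mono g k1, by rw [← smul_inf, k2, smul_bot],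
    by rw [← smul_sup, k3], ⟨(conjEquiv g B).symm.trans e⟩⟩, fun W k4 k5 => ?_⟩
  refine (h.irred (W := MulAut.conj g⁻¹ • W) (conj_smul_le_iff_le_conj_inv_smul.2 (by rwa [inv_inv]))
    (by rw [← conj_smul_normalizer]; exact conj_smul_le_iff_le_conj_inv_smul.1 k5)).imp
    conj_smul_eq_bot_iff.1 fun e => by rw [← e, conj_smul_conj_inv_smul]

theorem orbits {A : Subgroup G} (h1 : IsElementaryAbelian 2 A) (h2 : Nat.card A = 2 ^ 10)
    (h3 : centralizer (A : Set G) = A) : ∃ a b : G, a ∈ A ∧ b ∈ A ∧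
    Set.ncard {y : G | ∃ n ∈ normalizer (A : Set G), n * a * n⁻¹ = y} = 155 ∧
    Set.ncard {y : G | ∃ n ∈ normalizer (A : Set G), n * b * n⁻¹ = y} = 868 := by
  obtain ⟨g, rfl⟩ := h.classify (ea_iff.1 h1) h2 h3
  obtain ⟨a, ha, k1, -⟩ := exists_third 1
  refine ⟨_, _, conj_mem_conj_smul g (h.κ_mem_A0 (a := ⟨a, (mem_E0.1 ha).1⟩) ha),
    conj_mem_conj_smul g (h.C6_le_A0 h.d0_mem), ?_, ?_⟩ <;>
    rw [← conj_smul_normalizer, ncard_conj]
  · rw [cnt_congr fun _ => h.trans_Z ha k1, h.cnt_types.1]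
  · rw [cnt_congr fun _ => h.conjT_iff, h.cnt_types.2.1]

end Tw

end Cfsg.Lib.SporChar.J4C
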