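import Cfsg.Agent.SporChar.J4DC
import Cfsg.Agent.SporChar.J4CE
import Cfsg.Agent.SporChar.J4PMain
import Cfsg.Agent.S5563
import Cfsg.Agent.S5564
import Cfsg.Agent.Gate.S1703
import Cfsg.Agent.Gate.S5629

/-! Simple groups of type `J₄` have the order and the 11-local structure of `J₄`. -/

set_option autoImplicit false

namespace Cfsg.Lib.SporChar.J4D

open Subgroup Cfsg.Lib.Spor Cfsg.Lib.SporChar.J4 Cfsg.Lib.SporChar.J4B Cfsg.Lib.Local Cfsg.Agent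
  MulAction

universe u

variable {G : Type u} [Group G] [Finite G] [IsSimpleGroup G] {z : G} {P : Subgroup G}

theorem exists_tri (h : IsOfJankoFourTypeWith z P) :
    ∃ x p v ρ κ t, P = zpowers x ∧ J4P.Tri z x (qOf z) p v ρ κ t :=
  have : Gate.S5563.{u} := ⟨@S5563.result.{u}⟩
  have : Gate.S5564.{u} := ⟨@S5564.result.{u}⟩
  J4P.exists_tri' h

theorem exists_dt [Gate.S1703] [Gate.S5629.{u}] (h : IsOfJankoFourTypeWith z P) :
    ∃ x p v ρ κ t, J4P.Tri z x (qOf z) p v ρ κ t ∧ Dt z x (qOf z) p v ρ κ := by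
  obtain ⟨x, p, v, ρ, κ, t, -, h1⟩ := exists_tri h
  have := Gate.S1703.out.1
  obtain ⟨-, c, -, h2, h3⟩ := Gate.S5629.out (J4P.not_comm h1.toFr) z ⟨P, h⟩ h1.toFr.V
    (J4C.ea_iff.2 h1.coc.sqV) h1.coc.cardV
  refine ⟨x, p, v, ρ, κ, t, h1, h1.toSp,
    (Nat.card_eq_of_bijective _ h1.iso).symm.trans Gate.S1703.out.2, c 0, c 6, fun q => ?_⟩
  obtain ⟨i, hi⟩ := h2 q
  simp only [List.ofFn_succ, List.ofFn_zero, List.cons.injEq] at h3
  obtain ⟨k0, k1, k2, k3, k4, k5, -⟩ := h3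
  rw [orbit_eq_iff.2 hi]
  fin_cases i
  · obtain ⟨a, e⟩ := Set.ncard_eq_one.1 k0
    exact Or.inl ((e.le hi).trans (e.le (mem_orbit_self _)).symm)
  · exact Or.inr (Or.inr (k1 ▸ by norm_num))
  · exact Or.inr (Or.inr (k2 ▸ by norm_num))
  · exact Or.inr (Or.inr (k3 ▸ by norm_num))
  · exact Or.inr (Or.inr (k4 ▸ by norm_num))
  · exact Or.inr (Or.inr (k5 ▸ by norm_num))
  · exact Or.inr (Or.inl hi)

theorem exists_el [Gate.S1703] [Gate.S5629.{u}] (h : IsOfJankoFourType G) :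
    ∃ (z x g w : G), ∃ U p v ρ κ t, J4P.Tri z x (qOf z) p v ρ κ t ∧
      El z x g w (qOf z) U p v ρ κ := by
  obtain ⟨z, P, h⟩ := h
  obtain ⟨x, p, v, ρ, κ, t, h1, h2⟩ := exists_dt h
  obtain ⟨g, w, U, h3⟩ := h2.exists_el
  exact ⟨z, x, g, w, U, p, v, ρ, κ, t, h1, h3⟩

end Cfsg.Lib.SporChar.J4D
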