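import Cfsg.Agent.SporChar.J4DC

/-! Groups of type `J₄`: the Sylow subgroups for the primes 23, 29, 31, 37, 43. -/

set_option autoImplicit false
set_option maxRecDepth 100000

namespace Cfsg.Lib.SporChar.J4D

open Subgroup Equiv Cfsg.Lib.Spor Cfsg.Lib.Spor.MP Cfsg.Lib.SporChar.J4 Cfsg.Lib.Solv
  Cfsg.Lib.Solv.Count J4B J4C MulAction Cfsg.Lib.Local
open scoped Pointwise

variable {G : Type*} [Group G] [Finite G] {z x g w : G} {Q U : Subgroup G} {p ρ : G → Perm GolayPt}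
  {v : Finset GolayPt → G} {κ : M24 →* G}

/-- The large primes. -/
def bigP : List ℕ := [23, 29, 31, 37, 43]

theorem bigP_prime : ∀ r ∈ bigP, r.Prime ∧ r ∣ 86775571046077562880 ∧
    ¬ r ^ 2 ∣ 86775571046077562880 ∧ ¬ r ∣ 2 ^ 21 * 10395 ∧ ¬ r ∣ 31944 ∧ ¬ r ∣ 242 := by
  simp only [bigP, List.forall_mem_cons]; norm_num

/-- Solutions of the Sylow congruences. -/
def opts : List (ℕ × ℕ × ℕ) := [(23, 23, 22), (23, 20677, 11), (23, 30659, 1), (23, 1061197, 22),
  (29, 29, 28), (29, 899, 14), (29, 1247, 2), (29, 38657, 1), (31, 31, 10), (31, 1333, 6),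
  (31, 49321, 1), (31, 1430309, 15), (31, 32897107, 2), (37, 37, 12), (37, 1591, 2), (37, 24679, 12),
  (37, 46139, 9), (37, 49321, 12), (37, 1061197, 2), (37, 32897107, 12), (43, 43, 14), (43, 1247, 42),
  (43, 1333, 6), (43, 49321, 42)]

theorem mem_opts {r c m n : ℕ} (hr : r ∈ bigP) (h1 : c ∣ 23 * (29 * (31 * (37 * 43)))) (h2 : r ∣ c)
    (h3 : m ∣ r - 1) (h4 : n % r = 1) (h5 : c * m * n = 86775571046077562880) :
    (r, c, m) ∈ opts := by
  have k1 : ∀ r ∈ bigP, ∀ a ∈ [1, 23], ∀ b ∈ [1, 29], ∀ c ∈ [1, 31], ∀ d ∈ [1, 37], ∀ e ∈ [1, 43],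
      ∀ m < 43, r ∣ a * (b * (c * (d * e))) → m ∣ r - 1 →
      86775571046077562880 / (a * (b * (c * (d * e))) * m) % r = 1 →
      (r, a * (b * (c * (d * e))), m) ∈ opts := by decide +kernel
  have k2 : ∀ {q a : ℕ}, q.Prime → a ∣ q → a ∈ [1, q] := fun hq e => by
    simpa using (Nat.dvd_prime hq).1 e
  obtain ⟨a, _, ha, l1, rfl⟩ := Nat.dvd_mul.1 h1
  obtain ⟨b, _, hb, l2, rfl⟩ := Nat.dvd_mul.1 l1
  obtain ⟨c, _, hc, l3, rfl⟩ := Nat.dvd_mul.1 l2
  obtain ⟨d, e, hd, he, rfl⟩ := Nat.dvd_mul.1 l3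
  have k3 : 0 < r - 1 ∧ r - 1 < 43 := (by decide : ∀ r ∈ bigP, 0 < r - 1 ∧ r - 1 < 43) r hr
  refine k1 r hr a (k2 (by norm_num) ha) b (k2 (by norm_num) hb) c (k2 (by norm_num) hc) d
    (k2 (by norm_num) hd) e (k2 (by norm_num) he) m ((Nat.le_of_dvd k3.1 h3).trans_lt k3.2) h2 h3 ?_
  rwa [← h5, Nat.mul_div_cancel_left _ (Nat.pos_of_ne_zero fun e => by simp [e] at h5)]

/-- The Sylow congruence inside a subgroup. -/
theorem sub_cong {K : Subgroup G} {a : G} {r m : ℕ} (hr : r.Prime) (ha : a ∈ K) (e : orderOf a = r)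
    (h1 : Nat.card K = r * m) (h2 : ¬ r ∣ m) : ∃ t n, t ∣ Nat.card (normalizer (zpowers a : Set G)) ∧
      n % r = 1 ∧ t * n = r * m := by
  obtain ⟨n, h3, h4⟩ := sylow_cong (P := zpowers (⟨a, ha⟩ : K)) (k := 1) hr
    (by rw [Nat.card_zpowers, ← Subgroup.orderOf_coe, e, pow_one]) (by rw [h1, pow_one]) h2
  refine ⟨_, n, ?_, h3, h4.trans h1⟩
  rw [← card_map_subtype, map_subtype_normalizer, MonoidHom.map_zpowers]
  exact card_dvd_of_le inf_le_right

namespace El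

variable (h : El z x g w Q U p v ρ κ)
include h

theorem big_data {a : G} {r : ℕ} (hr : r ∈ bigP) (e : orderOf a = r) : ∃ m,
    (r, Nat.card (centralizer ({a} : Set G)), m) ∈ opts ∧
    Nat.card (normalizer (zpowers a : Set G)) = Nat.card (centralizer ({a} : Set G)) * m := by
  obtain ⟨h1, ⟨k, h2⟩, h3, h4, h5, h6⟩ := bigP_prime r hr
  obtain ⟨m, h7, h8⟩ := card_norm_zp h1 e
  obtain ⟨n, h9, k1⟩ := sylow_cong (P := zpowers a) (k := 1) (m := k) h1
    (by rw [Nat.card_zpowers, e, pow_one]) (by rw [h.card, h2, pow_one]) fun e1 =>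
      h3 (by rw [h2, pow_two]; exact Nat.mul_dvd_mul_left r e1)
  refine ⟨m, mem_opts hr ?_ (e ▸ orderOf_dvd_card' (mem_cent.2 (by group))) h7 h9
    (by rw [← h8, k1, h.card]), h8⟩
  have k2 : ∀ q, q = 2 ∨ q = 3 ∨ q = 5 ∨ q = 7 → ¬ q ∣ Nat.card (centralizer ({a} : Set G)) :=
    fun q hq e1 => h4 (e ▸ (h.dvd_small hq e1).1)
  have k3 : ¬ 11 ∣ Nat.card (centralizer ({a} : Set G)) := fun e1 => by
    obtain ⟨b, hb, e2⟩ := exists_order (by norm_num) e1
    have := e ▸ orderOf_dvd_card' (cent_symm hb)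
    rcases h.classes (IsPGroup.of_card (n := 1) (G := zpowers b)
      (by rw [Nat.card_zpowers, e2, pow_one])) with e3 | e3 | e3
    · simp [e3] at e2
    · exact h5 (by rwa [card_cent_of_conj e3, h.cg] at this)
    · exact h6 (by rwa [card_cent_of_conj e3, h.cw] at this)
  have k4 : ∀ q : ℕ, q.Prime → ¬ q ∣ Nat.card (centralizer ({a} : Set G)) → ∀ i,
      (Nat.card (centralizer ({a} : Set G))).Coprime (q ^ i) := fun q hq e1 i =>
    ((hq.coprime_iff_not_dvd.2 e1).symm).pow_right i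
  have k5 := h.dvd (centralizer ({a} : Set G))
  rw [show (86775571046077562880 : ℕ) = 2 ^ 21 * (3 ^ 3 * (5 ^ 1 * (7 ^ 1 * (11 ^ 3 * (23 * (29 * (31 *
    (37 * 43)))))))) by norm_num] at k5
  exact (k4 11 (by norm_num) k3 3).dvd_of_dvd_mul_left ((k4 7 (by norm_num) (k2 7 (by simp))
    1).dvd_of_dvd_mul_left ((k4 5 (by norm_num) (k2 5 (by simp)) 1).dvd_of_dvd_mul_left
    ((k4 3 (by norm_num) (k2 3 (by simp)) 3).dvd_of_dvd_mul_left
    ((k4 2 (by norm_num) (k2 2 (by simp)) 21).dvd_of_dvd_mul_left k5))))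

theorem big_conj {a b : G} {r : ℕ} (hr : r ∈ bigP) (e1 : orderOf a = r) (e2 : orderOf b = r) :
    ∃ k : G, MulAut.conj k • zpowers a = zpowers b :=
  exists_conj_zp (bigP_prime r hr).1 (h.card ▸ (bigP_prime r hr).2.2.1)
    (by rw [Nat.card_zpowers, e2]) e1

theorem big_sub {K : Subgroup G} {a : G} {r m : ℕ} (hr : r ∈ bigP) (e : orderOf a = r)
    (h1 : Nat.card K = r * m) : ∃ t n, t ∣ Nat.card (normalizer (zpowers a : Set G)) ∧
      n % r = 1 ∧ t * n = r * m := by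
  obtain ⟨h2, -, h3, -⟩ := bigP_prime r hr
  obtain ⟨b, hb, e1⟩ := exists_order h2 (Dvd.intro _ h1.symm)
  obtain ⟨k, hk⟩ := h.big_conj hr e1 e
  rw [← hk, ← conj_smul_normalizer, card_conj_smul]
  exact sub_cong h2 hb e1 h1 fun e2 => h3 (.trans (by
    rw [h1, pow_two]; exact Nat.mul_dvd_mul_left r e2) (h.dvd K))

theorem big_symm {a b : G} {r s : ℕ} (hs : s ∈ bigP) (e1 : orderOf a = r) (e2 : orderOf b = s)
    (h1 : s ∣ Nat.card (centralizer ({a} : Set G))) : r ∣ Nat.card (centralizer ({b} : Set G)) := by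
  obtain ⟨c, hc, e3⟩ := exists_order (bigP_prime s hs).1 h1
  obtain ⟨k, hk⟩ := h.big_conj hs e3 e2
  rw [card_cent_of_zp hk, ← e1]
  exact orderOf_dvd_card' (cent_symm hc)

theorem big_all {a b c d e : G} (ha : orderOf a = 23) (hb : orderOf b = 29) (hc : orderOf c = 31)
    (hd : orderOf d = 37) (he : orderOf e = 43) :
    Nat.card (centralizer ({a} : Set G)) = 23 ∧ Nat.card (centralizer ({b} : Set G)) = 29 ∧
    Nat.card (centralizer ({c} : Set G)) = 31 ∧ Nat.card (centralizer ({d} : Set G)) = 37 ∧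
    Nat.card (centralizer ({e} : Set G)) = 43 := by
  obtain ⟨ma, a1, -⟩ := h.big_data (by decide) ha
  obtain ⟨mb, b1, b2⟩ := h.big_data (by decide) hb
  obtain ⟨mc, c1, c2⟩ := h.big_data (by decide) hc
  obtain ⟨md, d1, -⟩ := h.big_data (by decide) hd
  obtain ⟨me, e1, e2⟩ := h.big_data (by decide) he
  have k1 : ∀ {t n N m r : ℕ}, t ∣ N → t * n = m → n % r = 1 → t ∣ N.gcd m ∧ m / t % r = 1 ∨ m = 0 :=
    fun {t n N m r} l1 l2 l3 => or_iff_not_imp_right.2 fun l4 => ⟨Nat.dvd_gcd l1 (Dvd.intro _ l2), by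
      rwa [← l2, Nat.mul_div_cancel_left _ (Nat.pos_of_ne_zero fun l5 => by simp [← l2, l5] at l4)]⟩
  have k2 : ∀ {t N : ℕ} {P : ℕ → Prop}, t ∣ N → 0 < N → (∀ s ≤ N, s ∣ N → P s) → P t :=
    fun l1 l2 l3 => l3 _ (Nat.le_of_dvd l2 l1) l1
  have c3 : Nat.card (centralizer ({c} : Set G)) = 31 := by
    obtain ⟨t, n, l1, l2, l3⟩ := h.big_sub (K := normalizer (h.fw.toTw.A0 : Set G)) (r := 31)
      (m := 330301440) (by decide) hc (by rw [h.fw.toTw.card_N])
    replace l1 := (k1 l1 l3 l2).resolve_right (by norm_num)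
    rw [c2] at l1
    simp only [opts, List.mem_cons, Prod.mk.injEq, List.not_mem_nil] at c1 e1
    norm_num at c1 e1
    rcases c1 with l4 | l4 | l4 | l4 | l4
    · exact l4.1
    · rw [l4.1, l4.2] at l1
      exact absurd l1.2 (k2 (P := fun t => ¬ 31 * 330301440 / t % 31 = 1) l1.1 (by norm_num)
        (by norm_num; decide +kernel))
    · rw [l4.1, l4.2] at l1
      exact absurd l1.2 (k2 (P := fun t => ¬ 31 * 330301440 / t % 31 = 1) l1.1 (by norm_num)
        (by norm_num; decide +kernel))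
    · obtain ⟨t, n, l1, l2, l3⟩ := h.big_sub (K := centralizer ({c} : Set G)) (r := 43)
        (m := 33263) (by decide) he (by rw [l4.1])
      have l5 : t ∣ 43 * (31 * 37) := by
        refine ((k1 l1 l3 l2).resolve_right (by norm_num)).1.trans ?_
        rw [e2]
        rcases e1 with l6 | l6 | l6 | l6 <;> rw [l6.1, l6.2] <;> norm_num
        have := h.big_symm (by decide) hc he (by rw [l4.1]; norm_num)
        rw [l6.1] at this
        norm_num at this
      exact absurd ((k1 l1 l3 l2).resolve_right (by norm_num)).2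
        (k2 (P := fun t => ¬ 43 * 33263 / t % 43 = 1) l5 (by norm_num) fun s l6 l7 l8 => by
          simpa [Nat.mod_eq_zero_of_dvd l7, l8] using allLT_iff.1 (by decide +kernel : allLT 49322
            (fun s => !(Nat.beq (43 * (31 * 37) % s) 0) || !(Nat.beq (43 * 33263 / s % 43) 1)) = true)
            s (by omega))
    · rw [l4.1, l4.2] at l1
      exact absurd l1.2 (k2 (P := fun t => ¬ 31 * 330301440 / t % 31 = 1) l1.1 (by norm_num)
        (by norm_num; decide +kernel))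
  have n1 := fun l => h.big_symm (r := 23) (by decide) ha hc l
  have n2 := fun l => h.big_symm (r := 29) (by decide) hb hc l
  have n3 := fun l => h.big_symm (r := 37) (by decide) hd hc l
  have n4 := fun l => h.big_symm (r := 43) (by decide) he hc l
  have n5 := fun l => h.big_symm (r := 23) (by decide) ha hb l
  have n6 := fun l => h.big_symm (r := 37) (by decide) hd hb l
  have n7 := fun l => h.big_symm (r := 37) (by decide) hd he l
  have n8 := fun l => h.big_symm (r := 29) (by decide) hb he l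
  have n9 := fun l => h.big_symm (r := 43) (by decide) he hb l
  have k3 : ¬ (Nat.card (centralizer ({b} : Set G)) * mb = 2494 ∧
      Nat.card (centralizer ({e} : Set G)) * me = 52374) := fun l => by
    obtain ⟨t, n, l1, l2, l3⟩ := h.big_sub (K := normalizer (zpowers e : Set G)) (r := 29)
      (m := 1806) (by decide) hb (by rw [e2, l.2])
    rw [b2, l.1] at l1
    exact absurd ((k1 l1 l3 l2).resolve_right (by norm_num)).2
      (k2 (P := fun t => ¬ 29 * 1806 / t % 29 = 1) l1 (by norm_num) (by decide +kernel))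
  rw [c3] at n1 n2 n3 n4
  clear b2 c1 c2 e2 k1 k2
  generalize Nat.card (centralizer ({a} : Set G)) = A at *
  generalize Nat.card (centralizer ({b} : Set G)) = B at *
  generalize Nat.card (centralizer ({d} : Set G)) = D at *
  generalize Nat.card (centralizer ({e} : Set G)) = E at *
  simp only [opts, List.mem_cons, Prod.mk.injEq, List.not_mem_nil] at a1 b1 d1 e1
  norm_num at a1 b1 d1 e1 n1 n2 n3 n4
  have b3 : B = 29 ∧ E = 43 := by
    rcases b1 with ⟨rfl, rfl⟩ | ⟨rfl, rfl⟩ | ⟨rfl, rfl⟩ | ⟨rfl, rfl⟩ <;>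
    rcases e1 with ⟨rfl, rfl⟩ | ⟨rfl, rfl⟩ | ⟨rfl, rfl⟩ | ⟨rfl, rfl⟩ <;> simp_all
  obtain ⟨rfl, rfl⟩ := b3
  refine ⟨?_, rfl, c3, ?_, rfl⟩
  · rcases a1 with ⟨rfl, rfl⟩ | ⟨rfl, rfl⟩ | ⟨rfl, rfl⟩ | ⟨rfl, rfl⟩ <;> simp_all
  · rcases d1 with ⟨rfl, rfl⟩ | ⟨rfl, rfl⟩ | ⟨rfl, rfl⟩ | ⟨rfl, rfl⟩ | ⟨rfl, rfl⟩ | ⟨rfl, rfl⟩ |
      ⟨rfl, rfl⟩ <;> simp_all

theorem exists_big {r : ℕ} (hr : r ∈ bigP) : ∃ a : G, orderOf a = r :=
  have : Fact r.Prime := ⟨(bigP_prime r hr).1⟩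
  exists_prime_orderOf_dvd_card' r (h.card ▸ (bigP_prime r hr).2.1)

theorem big_cent {a : G} {r : ℕ} (hr : r ∈ bigP) (e : orderOf a = r) :
    centralizer ({a} : Set G) = zpowers a := by
  refine (eq_of_le_of_card_ge (zpowers_le.2 (mem_cent.2 (by group))) (le_of_eq ?_)).symm
  obtain ⟨a1, e1⟩ := h.exists_big (r := 23) (by decide)
  obtain ⟨a2, e2⟩ := h.exists_big (r := 29) (by decide)
  obtain ⟨a3, e3⟩ := h.exists_big (r := 31) (by decide)
  obtain ⟨a4, e4⟩ := h.exists_big (r := 37) (by decide)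
  obtain ⟨a5, e5⟩ := h.exists_big (r := 43) (by decide)
  rw [Nat.card_zpowers, e]
  simp only [bigP, List.mem_cons, List.not_mem_nil, or_false] at hr
  rcases hr with rfl | rfl | rfl | rfl | rfl
  · exact (h.big_all e e2 e3 e4 e5).1
  · exact (h.big_all e1 e e3 e4 e5).2.1
  · exact (h.big_all e1 e2 e e4 e5).2.2.1
  · exact (h.big_all e1 e2 e3 e e5).2.2.2.1
  · exact (h.big_all e1 e2 e3 e4 e).2.2.2.2

theorem big_norm {a : G} {r m : ℕ} (hr : r ∈ bigP) (hm : (r, r, m) ∈ opts) (e : orderOf a = r) :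
    Nat.card (normalizer (zpowers a : Set G)) = r * m := by
  obtain ⟨n, h1, h2⟩ := h.big_data hr e
  rw [h.big_cent hr e, Nat.card_zpowers, e] at h1 h2
  rw [h2, show n = m from (by decide : ∀ a ∈ opts, ∀ b ∈ opts, a.1 = b.1 → a.2.1 = b.2.1 →
    a.2.2 = b.2.2) _ h1 _ hm rfl rfl]

theorem big_sylow {r m : ℕ} (hr : r ∈ bigP) (hm : (r, r, m) ∈ opts) (P : Sylow r G) :
    centralizer ((P : Subgroup G) : Set G) = (P : Subgroup G) ∧
      Nat.card (normalizer ((P : Subgroup G) : Set G)) = r * m := by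
  obtain ⟨h1, ⟨k, h2⟩, h3, -⟩ := bigP_prime r hr
  have : Fact r.Prime := ⟨h1⟩
  obtain ⟨a, e⟩ := h.exists_big hr
  obtain ⟨c, hc⟩ := exists_conj_zp h1 (h.card ▸ h3) ((Known.SC.sylow_card_eq_pow P (k := 1) (m := k)
    (by rw [h.card, h2, pow_one]) fun e1 => h3 (by
      rw [h2, pow_two]; exact Nat.mul_dvd_mul_left r e1)).trans (pow_one r)) e
  have e1 : orderOf (c * a * c⁻¹) = r := by rw [J4C.orderOf_conj', e]
  rw [← hc, conj_smul_zpowers, Known.SC.centralizer_zpowers]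
  exact ⟨h.big_cent hr e1, h.big_norm hr hm e1⟩

end El

end Cfsg.Lib.SporChar.J4D
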