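import Cfsg.Agent.SporChar.Singular
import Cfsg.Agent.Solv.ElemAb

/-! The normalizer of a singular subgroup whose centralizer is `2`-group by simple. -/

set_option autoImplicit false

namespace Cfsg.Lib.Local

open Subgroup Cfsg.Lib.Solv
open scoped Pointwise commutatorElement

variable {G : Type*} [Group G] [Finite G] {V : Subgroup G}

theorem Singular.trans (h : Singular V) {a b : G} (ha : a ∈ V) (hb : b ∈ V) (h1 : a ≠ 1) (h2 : b ≠ 1) :
    ∃ g ∈ normalizer (V : Set G), g * a * g⁻¹ = b :=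
  (h.exists_move bot_le ha hb h1 h2).imp fun _ hg => ⟨h.iSup_le_normalizer hg.1.1, hg.2⟩

theorem Singular.quot_prod (h : Singular V) (hV : V ≠ ⊥) {A : Type*} [Group A]
    (hA : ∀ N : Subgroup A, N.Normal → IsPGroup 2 N → N = ⊥) (hZ : center A = ⊥)
    {ρ : centralizer (V : Set G) →* A} (hρ : Function.Surjective ρ) (h2 : IsPGroup 2 ρ.ker) :
    ∃ θ : normalizer (V : Set G) →* MulAut V × A, Function.Surjective θ ∧
      θ.ker = pCore 2 (normalizer (V : Set G)) ∧
      θ.ker.map (normalizer (V : Set G)).subtype = ρ.ker.map (centralizer (V : Set G)).subtype := by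
  let C := centralizer (V : Set G)
  let ψ : normalizer (V : Set G) →* MulAut C :=
    C.normalizerMonoidHom.comp (inclusion (normalizer_le_normalizer_centralizer V))
  obtain ⟨K, hK⟩ := exists_commSubgroup (ρ.ker.map C.subtype) C
  have hL : (⨆ u ∈ ((V : Set G) \ {1}), qOf u) ≤ K := iSup₂_le fun u hu q hq => by
    have hp := h.pre u hu.1 hu.2
    have h3 : C ≤ normalizer (qOf u : Set G) := fun c hc =>
      hp.norm (mem_centralizer_singleton_iff.2 (hc u hu.1).symm)
    have h4 := (Subgroup.map_eq_bot_iff _).1 (hA (((qOf u).subgroupOf C).map ρ)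
      ((normal_subgroupOf_of_le_normalizer h3).map ρ hρ) (hp.isPGroup.comap_subtype.map ρ))
    have h5 : ∀ c ∈ C, q * c * q⁻¹ * c⁻¹ ∈ ρ.ker.map C.subtype := fun c hc =>
      ⟨⟨_, mul_mem (conj_mem_of_mem_normalizer (normalizer_le_normalizer_centralizer V
        (h.qOf_le_normalizer hu.1 hu.2 hq)) hc) (inv_mem hc)⟩, h4 (by
          simpa [mem_subgroupOf, mul_assoc] using
            mul_mem hq (conj_mem_of_mem_normalizer (h3 hc) (inv_mem hq))), rfl⟩
    exact (hK q).2 ⟨mem_normalizer_of_conj_mem fun r hr => by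
      simpa using mul_mem (h5 r (map_subtype_le _ hr)) hr, h5⟩
  let P : normalizer (V : Set G) → A → Prop := fun n a => ∀ c, ρ (ψ n c) = a * ρ c * a⁻¹
  have P1 : ∀ {n a b}, P n a → P n b → a = b := fun {n a b} ha hb => (inv_mul_eq_one.1
    ((eq_bot_iff_forall _).1 hZ (b⁻¹ * a) (mem_center_iff.2 fun g => by
      obtain ⟨c, rfl⟩ := hρ g
      calc _ = b⁻¹ * (b * ρ c * b⁻¹) * a := by group
        _ = _ := by rw [← hb, ha]; group))).symm
  have P2 : ∀ {n m a b}, P n a → P m b → P (n * m) (a * b) := fun ha hb c => by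
    rw [map_mul, MulAut.mul_apply, ha, hb]; group
  have P3 : ∀ c : C, P ⟨c, centralizer_le_normalizer _ c.2⟩ (ρ c) := fun c d => by
    rw [← map_inv, ← map_mul, ← map_mul]; rfl
  have P4 : ∀ φ : MulAut V, ∃ l, V.normalizerMonoidHom l = φ ∧ P l 1 := fun φ => by
    obtain ⟨l, hl, e⟩ := h.exists_induces φ
    refine ⟨⟨l, h.iSup_le_normalizer hl⟩, MulEquiv.ext fun u => Subtype.ext (e u), fun c => ?_⟩
    obtain ⟨r, hr, e⟩ := ((hK l).1 (hL hl)).2 c c.2
    rw [one_mul, inv_one, mul_one, ← mul_inv_eq_one, ← map_inv, ← map_mul]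
    exact (congrArg ρ (Subtype.ext e.symm)).trans hr
  have ker : ∀ n, V.normalizerMonoidHom n = 1 ↔ (n : G) ∈ C := fun n =>
    SetLike.ext_iff.1 V.normalizerMonoidHom_ker n
  choose β hβ using fun n => show ∃ a, P n a by
    obtain ⟨l, e, hl⟩ := P4 (V.normalizerMonoidHom n)
    exact ⟨_, mul_inv_cancel_left l n ▸ P2 hl (P3 ⟨_, (ker (l⁻¹ * n)).1 (by
      rw [map_mul, map_inv, e, inv_mul_cancel])⟩)⟩
  let β' : normalizer (V : Set G) →* A := MonoidHom.mk' β fun a b => P1 (hβ _) (P2 (hβ a) (hβ b))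
  have s : Function.Surjective (V.normalizerMonoidHom.prod β') := fun ⟨φ, a⟩ => by
    obtain ⟨l, rfl, hl⟩ := P4 φ
    obtain ⟨c, rfl⟩ := hρ a
    refine ⟨l * ⟨c, centralizer_le_normalizer _ c.2⟩, Prod.ext ((map_mul _ _ _).trans (by
      rw [(ker ⟨c, _⟩).2 c.2, mul_one])) ?_⟩
    exact (P1 (hβ _) (P2 hl (P3 c))).trans (one_mul _)
  have k : (V.normalizerMonoidHom.prod β').ker.map (normalizer (V : Set G)).subtype =
      ρ.ker.map C.subtype := le_antisymm (by
    rintro _ ⟨n, hn, rfl⟩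
    have := (ker n).1 (congrArg Prod.fst hn)
    exact ⟨⟨n, this⟩, (P1 (P3 ⟨n, this⟩) (hβ n)).trans (congrArg Prod.snd hn), rfl⟩) (by
    rintro _ ⟨c, hc, rfl⟩
    exact ⟨⟨c, centralizer_le_normalizer _ c.2⟩, Prod.ext ((ker _).2 c.2)
      ((P1 (hβ _) (P3 c)).trans hc), rfl⟩)
  refine ⟨_, s, le_antisymm (le_pCore inferInstance ((k ▸ h2.map _).of_equiv
    (equivMapOfInjective _ _ (subtype_injective _)).symm)) fun o ho => Prod.ext ((ker o).2 fun v hv => ?_)
    ((Subgroup.map_eq_bot_iff _).1 (hA ((pCore 2 _).map β') (Normal.map inferInstance _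
      (Prod.snd_surjective.comp s)) ((pCore_isPGroup 2 _).map _)) ho), k⟩
  obtain ⟨c, hc, h3, -, h4⟩ := PG.exists_mem_centralizer_orderOf_eq
    (isPGroup_map_pCore 2 (normalizer (V : Set G))) (fun a => ⟨1, Subtype.ext ((pow_two (a : G)).trans (h.sq a a.2))⟩) (map_subtype_le _) hV
  by_cases e : v = 1
  · simp [e]
  obtain ⟨g, hg, rfl⟩ := h.trans hc hv (fun e => by simp [e] at h4) e
  exact (conj_mem_of_mem_normalizer (normalizer_le_normalizer_centralizer _
    (le_normalizer_map_subtype _ hg)) h3 o ⟨o, ho, rfl⟩).symm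

theorem Singular.nonempty_aut_equiv (h : Singular V) {n : ℕ} (hV : Nat.card V = 2 ^ n) :
    Nonempty (MulAut V ≃* Matrix.SpecialLinearGroup (Fin n) (ZMod 2)) := by
  have : ElemAb 2 V := ⟨fun a b => Subtype.ext (h.comm a.2 b.2),
    fun a => Subtype.ext ((pow_two (a : G)).trans (h.sq a a.2))⟩
  obtain ⟨e⟩ := Vec.nonempty_autEquivGL (p := 2) hV
  exact ⟨e.trans (MulEquiv.ofBijective Matrix.SpecialLinearGroup.toGL
    ⟨Matrix.SpecialLinearGroup.toGL_injective, fun g => ⟨⟨g.1, congrArg Units.val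
      (Subsingleton.elim (Matrix.GeneralLinearGroup.det g) 1)⟩, Units.ext rfl⟩⟩).symm⟩

end Cfsg.Lib.Local
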