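import Cfsg.Agent.SporChar.J4CS
import Cfsg.Agent.Fus.TwoInvol

/-! Groups of type `J₄`: the normalizer of a subgroup of order five. -/

set_option autoImplicit false
set_option maxRecDepth 100000

namespace Cfsg.Lib.SporChar.J4C

open Subgroup Equiv Cfsg.Lib.Spor Cfsg.Lib.Spor.MP Cfsg.Lib.SporChar.J4 Cfsg.Lib.Solv
  Cfsg.Lib.Solv.Count J4B MulAction Cfsg.Lib.Local
open scoped Pointwise

variable {G : Type*} [Group G]

theorem mem_of_cnt_le {α : Type*} [Finite α] {P R : α → Prop} (h : ∀ x, R x → P x)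
    (hc : cnt P ≤ cnt R) {x : α} (hx : P x) : R x := by
  by_contra h1
  have : Nonempty {x // P x ∧ ¬ R x} := ⟨⟨x, hx, h1⟩⟩
  have h2 : 0 < cnt (fun x => P x ∧ ¬ R x) := Nat.card_pos
  rw [cnt_add P R, cnt_congr (P := fun x => P x ∧ R x) (Q := R)
    fun y => ⟨fun e => e.2, fun e => ⟨h y e, e⟩⟩] at hc
  omega

theorem exists_sub_card [Finite G] {K : Subgroup G} {n : ℕ} (h : 2 ^ n ∣ Nat.card K) :
    ∃ P ≤ K, Nat.card P = 2 ^ n := by
  obtain ⟨P, e⟩ := Sylow.exists_subgroup_card_pow_prime 2 h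
  exact ⟨P.map K.subtype, map_subtype_le P, (card_map_subtype P).trans e⟩

/-- A non-split extension `2^3·L₃(2)`, in ambient terms. -/
def NS5 (J U : Subgroup G) : Prop :=
  (∀ u ∈ U, u * u = 1) ∧ Nat.card U = 8 ∧ J ≤ normalizer (U : Set G) ∧
    J ⊓ centralizer (U : Set G) = U ∧ Nat.card J = 8 * 168 ∧ ∀ P ≤ J, Nat.card P = 8 → P ⊓ U ≠ ⊥

theorem NS5.conj {J U : Subgroup G} (h : NS5 J U) (k : G) :
    NS5 (MulAut.conj k • J) (MulAut.conj k • U) := by
  obtain ⟨h1, h2, h3, h4, h5, h6⟩ := h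
  refine ⟨fun a ha => ?_, by rwa [card_conj_smul], conj_smul_normalizer k U ▸ conj_smul_mono k h3,
    by rw [← conj_smul_centralizer, ← smul_inf, h4], by rwa [card_conj_smul], fun P h7 h8 e =>
    h6 _ (conj_smul_le_iff_le_conj_inv_smul.2 (by rwa [inv_inv])) ((card_conj_smul k⁻¹ P).trans h8)
      (by rw [← conj_smul_eq_bot_iff (g := k), smul_inf, conj_smul_conj_inv_smul, e])⟩
  obtain ⟨u, hu, rfl⟩ := mem_conj_smul_iff_exists.1 ha
  rw [conj_mul, h1 u hu, mul_one, mul_inv_cancel]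

theorem NS5.out [Finite G] {J U : Subgroup G} (h : NS5 J U) : ∃ (E : Subgroup J) (_ : E.Normal),
    IsElementaryAbelian 2 E ∧ Nat.card E = 8 ∧
      Nonempty (J ⧸ E ≃* Matrix.SpecialLinearGroup (Fin 3) (ZMod 2)) ∧
      ∀ K : Subgroup J, ¬ E.IsComplement' K := by
  obtain ⟨h1, h2, h3, h4, h5, h6⟩ := h
  let ψ := U.normalizerMonoidHom.comp (inclusion h3)
  have k1 : ψ.ker = U.subgroupOf J := by
    ext g
    rw [← MonoidHom.comap_ker, normalizerMonoidHom_ker, mem_subgroupOf]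
    exact ⟨fun e => h4.le ⟨g.2, e⟩, fun e => (h4.ge e).2⟩
  have k2 : Nat.card ψ.ker = 8 := by rw [k1, card_subgroupOf_of_le (h4.ge.trans inf_le_left), h2]
  have : ElemAb 2 U := ⟨fun a b => Subtype.ext (comm_of_sq h1 a.2 b.2),
    fun a => Subtype.ext (by rw [Subgroup.coe_pow, pow_two, h1 _ a.2]; rfl)⟩
  obtain ⟨e⟩ := aut_equiv_SL3 h2
  have k3 := card_eq_card_quotient_mul_card_subgroup ψ.ker
  rw [k2, h5] at k3
  refine ⟨ψ.ker, inferInstance, ⟨⟨⟨fun a b => Subtype.ext (Subtype.ext (comm_of_sq h1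
    (k1.le a.2) (k1.le b.2)))⟩⟩, fun a ha => Subtype.ext (by
      rw [Subgroup.coe_pow, pow_two]; exact h1 _ (k1.le ha))⟩, k2,
    ⟨(MulEquiv.ofBijective (QuotientGroup.kerLift ψ) ((Nat.bijective_iff_injective_and_card _).2
      ⟨QuotientGroup.kerLift_injective ψ, by
        rw [Nat.card_congr e.toEquiv, PK.card_SL32]; omega⟩)).trans e⟩, fun K hK => ?_⟩
  have k4 := hK.card_mul_card
  rw [k2, h5, mul_right_inj' (by norm_num)] at k4
  obtain ⟨P, l1, l2⟩ := exists_sub_card (K := K.map J.subtype) (n := 3)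
    (by rw [card_map_subtype, k4]; norm_num)
  refine h6 P (l1.trans (map_subtype_le _)) l2 (eq_bot_iff.2 fun g hg => ?_)
  obtain ⟨a, ha, rfl⟩ := l1 hg.1
  rw [mem_bot.1 (hK.disjoint.le_bot ⟨k1.ge hg.2, ha⟩)]
  exact one_mem _

/-- An element of order five of the subgroup `S₅`. -/
structure IsF {v : Finset GolayPt → G} (κ : M24 →* G)
    (φ : normalizer (pU v : Set G) →* Perm (Fin 5)) (f : G) : Prop where
  mem : f ∈ pI v κ
  eq : φ ⟨f, pI_le mem⟩ = c5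

namespace Pw

variable {z x : G} {Q V : Subgroup G} {p ρ : G → Perm GolayPt} {v : Finset GolayPt → G}
  {κ : M24 →* G} {φ : normalizer (pU v : Set G) →* Perm (Fin 5)} [Finite G]
  (h : Pw z x Q V p v ρ κ φ)
include h

theorem inv_card {W : Subgroup G} (h1 : W ≤ pL φ) (hy : y0 κ ∈ normalizer (W : Set G))
    (h2 : Nat.card W % 5 = 3) : Nat.card W = 8 ∨ W = pL φ := by
  have k1 := card_modEq (by norm_num) h.orderOf_y hy
  rw [eq_bot_iff.2 ((inf_le_inf_right _ h1).trans h.L_inf.le), Subgroup.card_bot] at k1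
  obtain ⟨k, k2, e⟩ := (Nat.dvd_prime_pow Nat.prime_two).1 (h.card_L ▸ card_dvd_of_le h1)
  rw [e] at k1 h2
  have : k = 3 ∨ k = 15 := by interval_cases k <;> omega
  rcases this with rfl | rfl
  exacts [Or.inl e, Or.inr (eq_of_le_of_card_ge h1 (by rw [e, h.card_L]))]

theorem exists_duad_L : ∃ D : Finset GolayPt, D.card = 2 ∧ v D ∈ pL φ := by
  have k1 : evS (synd 3) = true := by decide +kernel
  obtain ⟨D, h1, h2⟩ := (h.toCoc.w_duad (s := J4B.act py (synd 3) ^^^ synd 3) (by decide +kernel)).1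
    (by decide +kernel)
  refine ⟨D, h1, h.V_le_CU (h.toCoc.v_mem (h1 ▸ even_two)), ?_⟩
  rw [h2, h.toCoc.w_xor, ← h.toCoc.conj_w h.y_N h.rep_y k1]
  have := comm_mem_left h.y_K (norm_kerG (h.V_NU (h.toCoc.w_mem k1)))
  rwa [h.toCoc.invV (h.toCoc.w_mem k1)] at this

theorem exists_f : ∃ f, IsF κ φ f := by
  obtain ⟨e, he⟩ := h.exists_eI
  exact ⟨_, (e.symm c5).2, (he _).symm.trans (e.apply_symm_apply _)⟩

variable {f : G} (hc : IsF κ φ f)
include hc

theorem ord_f : orderOf f = 5 := by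
  obtain ⟨e, he⟩ := h.exists_eI
  rw [← orderOf_c5, ← hc.2, ← he ⟨f, hc.1⟩, MulEquiv.orderOf_eq, ← Subgroup.orderOf_coe]

omit h [Finite G] in
theorem φ_cent {g : G} (hg : g ∈ normalizer (pU v : Set G)) (h1 : g ∈ centralizer ({f} : Set G)) :
    ∃ i : ℕ, φ ⟨g, hg⟩ = c5 ^ i := by
  obtain ⟨i, -, e⟩ := S5_cent (φ ⟨g, hg⟩) (by
    rw [← hc.2, ← map_mul, ← map_mul]
    exact congrArg φ (Subtype.ext (mem_centralizer_singleton_iff.1 h1)))
  exact ⟨i, e⟩

omit h [Finite G] in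
theorem dec_X {g : G} (hg : g ∈ normalizer (pU v : Set G)) (h1 : g ∈ centralizer ({f} : Set G)) :
    ∃ i : ℕ, g * (f ^ i)⁻¹ ∈ kerG φ := by
  obtain ⟨i, e⟩ := φ_cent hc hg h1
  exact ⟨i, (mem_kerG (⟨g, hg⟩ * (⟨f, pI_le hc.1⟩ ^ i)⁻¹)).1 (by
    rw [map_mul, map_inv, map_pow, hc.2, e, mul_inv_cancel])⟩

omit h [Finite G] in
theorem two_K {g : G} (hg : g ∈ normalizer (pU v : Set G)) (h1 : g ∈ centralizer ({f} : Set G))
    (h2 : g ^ 4 = 1) : g ∈ kerG φ := by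
  obtain ⟨i, e⟩ := φ_cent hc hg h1
  exact mem_kerG_of_pow hg (n := 5) (by norm_num) h2 (by
    rw [e, ← pow_mul, ← orderOf_dvd_iff_pow_eq_one, orderOf_c5]; exact dvd_mul_left 5 i)

omit h [Finite G] in
theorem U_le_Cf : pU v ≤ centralizer {f} := fun u hu => mem_centralizer_singleton_iff.2 (hc.1.1 u hu)

omit h [Finite G] in
theorem y_norm_Cf : y0 κ ∈ normalizer (centralizer ({f} : Set G) : Set G) :=
  le_normalizer (cent_symm hc.1.2)

theorem CL_f : pL φ ⊓ centralizer {f} = pU v := by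
  have k1 := card_modEq (by norm_num) (h.ord_f hc) (norm_pL (φ := φ) (pI_le hc.1))
  rw [h.card_L] at k1
  rcases h.inv_card inf_le_left (zpowers_le.1 (le_normalizer_inf (zpowers_le.2 (norm_pL h.y_NU))
    (zpowers_le.2 (y_norm_Cf hc)))) k1.symm with e | e
  · exact (eq_of_le_of_card_ge (le_inf h.U_le_L (U_le_Cf hc)) (by rw [e, h.card_U])).symm
  · obtain ⟨D, h1, h2⟩ := h.exists_duad_L
    exact absurd (h.ord_f hc) (h.not_five ⟨h.cent_duad D h1 (cent_symm (e.ge h2).2), hc.1.1⟩)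

theorem inv_sub {W : Subgroup G} (h1 : pU v ≤ W) (h2 : W ≤ pL φ)
    (h3 : normalizer (pU v : Set G) ≤ normalizer (W : Set G)) : W = pU v ∨ W = pL φ := by
  have k1 := card_modEq (by norm_num) (h.ord_f hc) (h3 (pI_le hc.1))
  rw [le_antisymm ((inf_le_inf_right _ h2).trans (h.CL_f hc).le) (le_inf h1 (U_le_Cf hc)),
    h.card_U] at k1
  exact (h.inv_card h2 (h3 h.y_NU) k1).imp_left fun e =>
    (eq_of_le_of_card_ge h1 (by rw [e, h.card_U])).symm

theorem exists_J (α : MulAut (pU v)) : ∃ j : normalizer (pU v : Set G),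
    (j : G) ∈ kerG φ ⊓ centralizer {f} ∧ (pU v).normalizerMonoidHom j = α := by
  obtain ⟨g, hg, e⟩ := h.sing.exists_induces α
  obtain ⟨ε, he⟩ := h.exists_eI
  let n : normalizer (pU v : Set G) := ⟨g, h.sing.iSup_le_normalizer hg⟩
  let k := ε.symm (φ n)⁻¹
  have k1 : (k : G) * g ∈ kerG φ := (mem_kerG (⟨k, pI_le k.2⟩ * n)).1 (by
    rw [map_mul, ← he k, ε.apply_symm_apply, inv_mul_cancel])
  obtain ⟨l, hl, e1⟩ := exists_cent (g := k * g) (by rw [h.ord_f hc]; decide) h.isPGroup_L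
    (norm_pL (pI_le hc.1)) ⟨comm_mem_left hc.1.1 (normalizer_le_normalizer_centralizer _ (kerG_le k1)),
      comm_mem_right k1 (norm_kerG (pI_le hc.1))⟩
  refine ⟨⟨_, kerG_le (mul_mem hl.2 k1)⟩, ⟨mul_mem hl.2 k1, e1⟩,
    MulEquiv.ext fun u => Subtype.ext ?_⟩
  rw [normalizerMonoidHom_apply_apply_coe]
  calc l * (k * g) * u * (l * (k * g))⁻¹ = l * k * (g * u * g⁻¹) * (l * k)⁻¹ := by group
    _ = _ := by rw [e u, mul_inv_eq_iff_eq_mul, mul_mem hl.1 k.2.1 _ (α u).2]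

theorem J_inf : kerG φ ⊓ centralizer {f} ⊓ centralizer (pU v : Set G) = pU v := by
  rw [inf_right_comm, inf_comm (kerG φ)]; exact h.CL_f hc

theorem card_J : Nat.card ↥(kerG φ ⊓ centralizer {f}) = 8 * 168 := by
  rw [card_eq_mul_map (pU v).normalizerMonoidHom (inf_le_left.trans kerG_le)
    (R := centralizer (pU v : Set G)) fun g => by
      rw [← MonoidHom.mem_ker, normalizerMonoidHom_ker, mem_subgroupOf], h.J_inf hc, h.card_U,
    ← h.card_aut, ← card_top (G := MulAut _)]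
  congr 3
  exact eq_top_iff.2 fun α _ => h.exists_J hc α

theorem J_inf_f : kerG φ ⊓ centralizer {f} ⊓ zpowers f = ⊥ :=
  inf_eq_bot_of_coprime_card (by rw [h.card_J hc, Nat.card_zpowers, h.ord_f hc]; norm_num)

omit h [Finite G] in
theorem X_eq : normalizer (pU v : Set G) ⊓ centralizer {f} = kerG φ ⊓ centralizer {f} ⊔ zpowers f := by
  have k1 : f ∈ centralizer ({f} : Set G) := mem_cent.2 (by simp)
  refine le_antisymm (fun g hg => ?_) (sup_le (inf_le_inf_right _ kerG_le)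
    (zpowers_le.2 ⟨pI_le hc.1, k1⟩))
  obtain ⟨i, e⟩ := dec_X hc hg.1 hg.2
  simpa using mul_mem (mem_sup_left (show _ ∈ kerG φ ⊓ centralizer {f} from ⟨e, mul_mem
    (mem_inf.1 hg).2 (Subgroup.inv_mem _ (pow_mem k1 i))⟩)) (mem_sup_right (pow_mem (mem_zpowers f) i))

theorem card_X : Nat.card ↥(normalizer (pU v : Set G) ⊓ centralizer {f}) = 6720 := by
  rw [X_eq hc, card_sup_zp inf_le_right (h.J_inf_f hc), h.card_J hc, h.ord_f hc]

theorem cent_z_f : centralizer {z} ⊓ centralizer {f} ≤ normalizer (pU v : Set G) ∧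
    32 ≤ Nat.card ↥(Q ⊓ centralizer ({f} : Set G)) := by
  have hz := cent_symm (U_le_Cf hc h.z_U)
  have k1 := cnt_conj_mul (normalizer (pU v : Set G) ⊓ centralizer {f}) z
  have k2 := cnt_compl (bot_le : ⊥ ≤ pU v)
  rw [cnt_congr (Q := fun u => u ∈ pU v ∧ u ∉ (⊥ : Subgroup G)) (fun u => ⟨by
    rintro ⟨k, hk, rfl⟩
    exact ⟨conj_mem_of_mem_normalizer hk.1 h.z_U, by simpa using h.set.pre.ne_one⟩, fun hu => by
      obtain ⟨i, e⟩ := h.trans_U hu.1 hu.2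
      exact ⟨_, pow_mem (mem_inf.2 ⟨h.y_NU, cent_symm hc.1.2⟩) i, e⟩⟩),
    h.card_X hc] at k1
  rw [Subgroup.card_bot, h.card_U] at k2
  have k3 := h.card_z_le hz (Or.inl rfl) (h.ord_f hc)
  have k4 := (h.five hz (h.ord_f hc)).1
  have k5 : normalizer (pU v : Set G) ⊓ centralizer {f} ⊓ centralizer {z} ≤
      centralizer {z} ⊓ centralizer {f} := fun g hg => ⟨hg.2, hg.1.2⟩
  have k6 := card_le_of_le k5
  rw [show cnt (fun u => u ∈ pU v ∧ u ∉ (⊥ : Subgroup G)) = 7 by omega] at k1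
  exact ⟨(eq_of_le_of_card_ge k5 (by omega)).ge.trans (inf_le_left.trans inf_le_left), by omega⟩

theorem cent_u_f {u g : G} (hu : u ∈ pU v) (h1 : u ≠ 1) (h2 : g ∈ centralizer ({u} : Set G))
    (h3 : g ∈ centralizer ({f} : Set G)) : g ∈ normalizer (pU v : Set G) := by
  obtain ⟨i, rfl⟩ := h.trans_U hu h1
  have k1 := pow_mem h.y_NU i
  simpa [mul_assoc] using mul_mem (mul_mem k1 ((h.cent_z_f hc).1 ⟨Tw.conj_back h2,
    inv_conj_mem_of_mem_normalizer (pow_mem (y_norm_Cf hc) i) h3⟩)) (inv_mem k1)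

theorem claimC {k : G} (h1 : k ∈ normalizer (pU v : Set G)) (h2 : k ∈ centralizer ({f} : Set G))
    (h3 : IsConj z k) : k ∈ pU v := by
  have S := h.set.pre.toSympPair
  have hz := cent_symm (U_le_Cf hc h.z_U)
  have k0 : k * k = 1 := by
    obtain ⟨g, rfl⟩ := isConj_iff.1 h3
    rw [conj_mul, S.mul_self, mul_one, mul_inv_cancel]
  have k1 := two_K hc h1 h2 (by
    rw [show k ^ 4 = k * k * (k * k) by simp [pow_succ, mul_assoc], k0, mul_one])
  by_contra h4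
  obtain ⟨q, hq, h5⟩ : ∃ q ∈ Q ⊓ centralizer ({f} : Set G), q ∉ pU v :=
    SetLike.not_le_iff_exists.1 fun e => by
      have := (h.cent_z_f hc).2.trans (card_le_of_le e)
      rw [h.card_U] at this
      omega
  have k2 := two_K hc (h.Q_NU hq.1) hq.2 (by
    rw [show q ^ 4 = q * q * (q * q) by simp [pow_succ, mul_assoc]]
    rcases S.mem_iff.1 (S.sq_mem q hq.1) with e | e <;> rw [e]
    exacts [mul_one 1, S.mul_self])
  obtain ⟨ε⟩ := h.equiv_aut
  have k3 : ∀ g : normalizer (pU v : Set G), ε ((pU v).normalizerMonoidHom g) = 1 ↔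
      (g : G) ∈ centralizer (pU v : Set G) := fun g => by
    rw [map_eq_one_iff ε ε.injective, ← MonoidHom.mem_ker, normalizerMonoidHom_ker, mem_subgroupOf]
  obtain ⟨β, e⟩ := isConj_iff.1 (SL3_conj (a := ε ((pU v).normalizerMonoidHom ⟨k, h1⟩))
    (b := ε ((pU v).normalizerMonoidHom ⟨q, h.Q_NU hq.1⟩))
    (by rw [← map_mul, ← map_mul, k3]; exact (show k * k ∈ _ from k0.symm ▸ one_mem _))
    (fun e => h4 ((h.J_inf hc).le ⟨⟨k1, h2⟩, (k3 _).1 e⟩))
    (by rw [← map_mul, ← map_mul, k3]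
        exact zpowers_le.2 (h.V_le_CU h.zV) (S.sq_mem q hq.1))
    (fun e => h5 ((h.J_inf hc).le ⟨⟨k2, hq.2⟩, (k3 _).1 e⟩)))
  obtain ⟨j, hj, e1⟩ := h.exists_J hc (ε.symm β)
  have k4 : (j : G) * k * (j : G)⁻¹ ∈ kerG φ ⊓ centralizer {f} :=
    mul_mem (mul_mem hj ⟨k1, h2⟩) (inv_mem hj)
  have k5 : (j : G) * k * (j : G)⁻¹ ∈ Q := (Q.mul_mem_cancel_right (inv_mem hq.1)).1 (h.U_le_Q
    ((h.J_inf hc).le ⟨mul_mem k4 ((kerG φ ⊓ centralizer {f}).inv_mem ⟨k2, hq.2⟩),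
      (k3 (j * ⟨k, h1⟩ * j⁻¹ * ⟨q, h.Q_NU hq.1⟩⁻¹)).1 (by
        simp only [map_mul, map_inv, e1, ε.apply_symm_apply, e, mul_inv_cancel])⟩))
  refine h4 ((mem_normalizer_iff.1 j.2 k).2 ?_)
  rcases eq_or_ne ((j : G) * k * (j : G)⁻¹) z with e2 | e2
  · exact e2 ▸ h.z_U
  have k6 := cnt_compl (zpowers_le.2 h.z_U)
  rw [Nat.card_zpowers, S.ord, h.card_U] at k6
  exact (mem_of_cnt_le (R := fun u => u ∈ pU v ∧ u ∉ zpowers z) (fun u hu =>
    have l1 := not_or.1 (S.mem_iff.not.1 hu.2)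
    ⟨⟨h.U_le_Q hu.1, l1.2, h.conj_U hu.1 l1.1⟩, U_le_Cf hc hu.1⟩)
    ((h.five hz (h.ord_f hc)).2.1.trans (by omega))
    ⟨⟨k5, e2, h3.trans (isConj_iff.2 ⟨j, rfl⟩)⟩, k4.2⟩).1

theorem z_types {s : G} (h1 : s ∈ centralizer ({f} : Set G)) (h2 : IsConj z s) : s ∈ pU v := by
  obtain ⟨t, k1, k2, k3, k4⟩ := (h.five (cent_symm (U_le_Cf hc h.z_U)) (h.ord_f hc)).2.2
  have k5 : ∀ g ∈ centralizer ({t} : Set G), g ∈ centralizer ({f} : Set G) →
      g ∈ normalizer (pU v : Set G) := fun g l1 l2 => (h.cent_z_f hc).1 ⟨k4 ⟨l1, l2⟩, l2⟩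
  obtain ⟨w, l1, l2, l3, l4⟩ := exists_invol_commute_of_not_isConj (u := s) (by
    obtain ⟨g, rfl⟩ := isConj_iff.1 h2
    rw [orderOf_conj', h.z2]) k2 fun e => k3 (h2.trans e)
  have l5 : w ∈ centralizer ({f} : Set G) := zpowers_le.2 (mul_mem h1 k1) l1
  have l6 := mem_centralizer_singleton_iff.2 l3.eq
  have l7 := mem_centralizer_singleton_iff.2 l4.eq
  refine h.claimC hc ?_ h1 h2
  by_cases l8 : IsConj z w
  · exact h.cent_u_f hc (h.claimC hc (k5 w (cent_symm l7) l5) l5 l8) (h.ne_one_of_conj l8) l6 h1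
  obtain ⟨s', m1, m2, m3⟩ := h.exists_z l2 l8 (cent_symm l5) (h.ord_f hc)
  exact h.cent_u_f hc (h.claimC hc (k5 s' (cent_symm (m3 ⟨l7, k1⟩)) m1) m1 m2)
    (h.ne_one_of_conj m2) (m3 ⟨l6, h1⟩) h1

theorem norm_f_le : normalizer (zpowers f : Set G) ≤ normalizer (pU v : Set G) := fun g hg =>
  mem_normalizer_of_conj_mem fun u hu => by
    rcases eq_or_ne u 1 with rfl | h1
    · simp
    refine h.z_types hc ?_ ((h.conj_U hu h1).trans (isConj_iff.2 ⟨g, rfl⟩))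
    rw [← centralizer_zpowers_eq_sing]
    exact conj_mem_of_mem_normalizer (normalizer_le_normalizer_centralizer _ hg)
      ((centralizer_zpowers_eq_sing f).ge (U_le_Cf hc hu))

theorem cent_f : normalizer (pU v : Set G) ⊓ centralizer {f} = centralizer {f} :=
  inf_eq_right.2 ((centralizer_zpowers_eq_sing f).ge.trans
    ((centralizer_le_normalizer _).trans (h.norm_f_le hc)))

theorem card_norm_f {X : Subgroup G} (h1 : X ≤ normalizer (zpowers f : Set G))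
    (h2 : pI v κ ⊓ normalizer (zpowers f : Set G) ≤ X) :
    Nat.card X = 4 * Nat.card ↥(X ⊓ centralizer {f}) := by
  refine card_eq_mul_cent (S := {1, 2, 3, 4}) (by rw [h.ord_f hc]; decide) (fun g hg => ?_)
    fun i hi => ?_
  · obtain ⟨i, hi, e⟩ := exists_pow_of_mem (conj_mem_of_mem_normalizer (h1 hg) (mem_zpowers _))
    refine ⟨i, ?_, e⟩
    have k2 : i ≠ 0 := by
      rintro rfl
      have := h.ord_f hc
      rw [← orderOf_conj' g, e] at this
      simp at this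
    rw [h.ord_f hc] at hi
    interval_cases i <;> simp_all
  · obtain ⟨ε, he⟩ := h.exists_eI
    have k1 : (ε.symm r5 : G) * f * (ε.symm r5 : G)⁻¹ = f ^ 2 := by
      have := congrArg (fun σ => (ε.symm σ : G)) S5_r5
      simpa [← hc.2, ← he ⟨f, hc.1⟩] using this
    obtain ⟨j, -, rfl⟩ := (by decide : ∀ i ∈ ({1, 2, 3, 4} : Finset ℕ), ∃ j < 4, 2 ^ j % 5 = i) i hi
    exact ⟨_, pow_mem (h2 ⟨(ε.symm r5).2, mem_norm_zp (k1 ▸ pow_mem (mem_zpowers f) 2)⟩) j,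
      by rw [conj_pow' k1, ← h.ord_f hc, pow_mod_orderOf]⟩

theorem card_N_f : Nat.card (normalizer (zpowers f : Set G)) = 4 * 6720 := by
  rw [h.card_norm_f hc le_rfl inf_le_right, inf_eq_right.2 ((centralizer_zpowers_eq_sing f).ge.trans
    (centralizer_le_normalizer _)), ← h.cent_f hc, h.card_X hc]

theorem not_25 : ¬ 5 ^ 2 ∣ Nat.card G :=
  not_sq_dvd (by norm_num) ((Nat.card_zpowers _).trans (h.ord_f hc))
    (by rw [h.card_N_f hc]; norm_num)

theorem R_inf : pI v κ ⊓ normalizer (zpowers f : Set G) ⊓ centralizer {f} = zpowers f := by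
  refine le_antisymm (fun g hg => ?_) (zpowers_le.2 ⟨⟨hc.1, le_normalizer (mem_zpowers f)⟩,
    mem_cent.2 (by simp)⟩)
  obtain ⟨i, e⟩ := dec_X hc (pI_le hg.1.1) hg.2
  rw [mul_inv_eq_one.1 (mem_bot.1 (h.I_inf.le ⟨mul_mem hg.1.1 ((pI v κ).inv_mem (pow_mem hc.1 i)), e⟩))]
  exact pow_mem (mem_zpowers f) i

theorem no_compl {P : Subgroup G} (h1 : P ≤ centralizer {f}) (h2 : Nat.card P = 8) :
    P ⊓ pU v ≠ ⊥ := fun h3 => by
  have k0 := h1.trans ((h.cent_f hc).ge.trans inf_le_left)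
  obtain ⟨c, k1, k2, k3⟩ := Fus.Grp.exists_central_invol (S := P) (IsPGroup.of_card (n := 3) h2)
    le_rfl (fun e => by simp [e] at h2) fun s hs x hx => mul_mem (mul_mem hs hx) (inv_mem hs)
  have k4 := (h.card_t k2 (fun e => by
    simp [mem_bot.1 (h3.le ⟨k1, h.z_types hc (h1 k1) e⟩)] at k2) (cent_symm (h1 k1))).1 (h.ord_f hc)
  have k5 := card_le_sq h.sqU (k0 k1) (by rw [← pow_two, ← k2, pow_orderOf_eq_one])
  have k6 : P ≤ centralizer {c} := fun s hs => mem_centralizer_singleton_iff.2 (k3 s hs)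
  have k7 := card_le_of_le (show pU v ⊓ centralizer {c} ⊔ P ⊔ zpowers f ≤
      centralizer {c} ⊓ centralizer {f} from sup_le (sup_le (fun u hu => ⟨hu.2, U_le_Cf hc hu.1⟩)
    (le_inf k6 h1)) (zpowers_le.2 ⟨cent_symm (h1 k1), mem_cent.2 (by simp)⟩))
  have k8 := card_sup_of_disjoint_of_le_normalizer (le_normalizer_inf k0 (k6.trans le_normalizer))
    (eq_bot_iff.2 fun g hg => h3.le ⟨hg.2, hg.1.1⟩)
  have k9 := card_dvd_of_le (inf_le_left : pU v ⊓ centralizer {c} ≤ _)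
  rw [h.card_U] at k5 k9
  rw [card_sup_zp (sup_le (inf_le_left.trans (U_le_Cf hc)) h1) (inf_eq_bot_of_coprime_card (by
    rw [k8, h2, Nat.card_zpowers, h.ord_f hc]
    exact Nat.Coprime.mul_left (Nat.Coprime.coprime_dvd_left k9 (by norm_num)) (by norm_num))),
    k8, h2, h.ord_f hc] at k7
  nlinarith

omit hc in
theorem five' {S : Subgroup G} (hS : Nat.card S = 5) : ¬ (25 ∣ Nat.card G) ∧
    (∃ J : Subgroup G, IsInternalDirectProduct S J (centralizer (S : Set G)) ∧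
      ∃ (E : Subgroup J) (_ : E.Normal), IsElementaryAbelian 2 E ∧ Nat.card E = 8 ∧
        Nonempty (J ⧸ E ≃* Matrix.SpecialLinearGroup (Fin 3) (ZMod 2)) ∧
        ∀ K : Subgroup J, ¬ E.IsComplement' K) ∧
    (∃ R : Subgroup G, S ≤ R ∧ R ≤ normalizer (S : Set G) ∧ Nat.card R = 20 ∧
      R ⊓ centralizer (S : Set G) = S) ∧
    Nat.card (normalizer (S : Set G)) = 2 ^ 8 * 3 * 5 * 7 := by
  obtain ⟨f, hc⟩ := h.exists_f
  obtain ⟨k, rfl⟩ := exists_conj_zp (by norm_num) (h.not_25 hc) hS (h.ord_f hc)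
  rw [← conj_smul_normalizer, ← conj_smul_centralizer, card_conj_smul, h.card_N_f hc]
  refine ⟨h.not_25 hc, ⟨_, idp_conj (idp_zp inf_le_right (h.J_inf_f hc)
    ((h.cent_f hc).symm.trans (X_eq hc))) k, (NS5.conj ⟨h.sqU, h.card_U, inf_le_left.trans kerG_le,
      h.J_inf hc, h.card_J hc, fun P h1 => h.no_compl hc (h1.trans inf_le_right)⟩ k).out⟩,
    ⟨MulAut.conj k • (pI v κ ⊓ normalizer (zpowers f : Set G)),
      conj_smul_mono k (le_inf (zpowers_le.2 hc.1) le_normalizer), conj_smul_mono k inf_le_right, ?_,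
      by rw [← smul_inf, centralizer_zpowers_eq_sing, h.R_inf hc]⟩, rfl⟩
  rw [card_conj_smul, h.card_norm_f hc inf_le_right le_rfl, h.R_inf hc, Nat.card_zpowers, h.ord_f hc]

end Pw

end Cfsg.Lib.SporChar.J4C
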