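import Cfsg.Agent.SporChar.J4CV

/-! Groups of type `J₄`: the normalizer of a subgroup of order seven. -/

set_option autoImplicit false
set_option maxRecDepth 100000

namespace Cfsg.Lib.SporChar.J4C

open Subgroup Equiv Cfsg.Lib.Spor Cfsg.Lib.Spor.MP Cfsg.Lib.SporChar.J4 Cfsg.Lib.Solv
  Cfsg.Lib.Solv.Count J4B MulAction Cfsg.Lib.Local
open scoped Pointwise

variable {G : Type*} [Group G]

theorem card_cent_equiv {I : Subgroup G} {A : Type*} [Group A] (e : I ≃* A) (t : A) :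
    Nat.card ↥(I ⊓ centralizer ({(e.symm t : G)} : Set G)) = Nat.card (centralizer ({t} : Set A)) := by
  rw [← map_cent, card_map_subtype]
  refine Nat.card_congr (Equiv.subtypeEquiv e.toEquiv fun k => ?_)
  rw [mem_centralizer_singleton_iff, mem_centralizer_singleton_iff, ← e.injective.eq_iff, map_mul,
    map_mul, e.apply_symm_apply]
  rfl

theorem mem_norm_zp [Finite G] {g y : G} (h : g * y * g⁻¹ ∈ zpowers y) :
    g ∈ normalizer (zpowers y : Set G) :=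
  mem_normalizer_of_conj_mem (conj_smul_le_iff.1 (by rw [conj_smul_zpowers]; exact zpowers_le.2 h))

theorem zp_le_norm {X : Subgroup G} {y : G} (h : X ≤ centralizer ({y} : Set G)) :
    zpowers y ≤ normalizer (X : Set G) :=
  zpowers_le.2 (centralizer_le_normalizer _ fun _ hg => mem_centralizer_singleton_iff.1 (h hg))

theorem card_sup_zp [Finite G] {X : Subgroup G} {y : G} (h : X ≤ centralizer ({y} : Set G))
    (h1 : X ⊓ zpowers y = ⊥) : Nat.card ↥(X ⊔ zpowers y) = Nat.card X * orderOf y := by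
  rw [card_sup_of_disjoint_of_le_normalizer (zp_le_norm h) h1, Nat.card_zpowers]

theorem idp_conj {A B C : Subgroup G} (h : IsInternalDirectProduct A B C) (k : G) :
    IsInternalDirectProduct (MulAut.conj k • A) (MulAut.conj k • B) (MulAut.conj k • C) := by
  refine ⟨conj_smul_mono k h.1, conj_smul_mono k h.2.1, fun a ha b hb => ?_,
    by rw [← smul_inf, h.2.2.2.1, smul_bot], by rw [← smul_sup, h.2.2.2.2]⟩
  obtain ⟨a, h1, rfl⟩ := mem_conj_smul_iff_exists.1 ha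
  obtain ⟨b, h2, rfl⟩ := mem_conj_smul_iff_exists.1 hb
  rw [conj_mul, conj_mul, h.2.2.1 a h1 b h2]

theorem idp_zp {X : Subgroup G} {y : G} (h : X ≤ centralizer ({y} : Set G))
    (h1 : X ⊓ zpowers y = ⊥) (h2 : centralizer ({y} : Set G) = X ⊔ zpowers y) :
    IsInternalDirectProduct (zpowers y) X (centralizer (zpowers y : Set G)) := by
  rw [centralizer_zpowers_eq_sing]
  exact ⟨h2 ▸ le_sup_right, h, fun a ha b hb =>
    (centralizer_zpowers_eq_sing y ▸ h hb : b ∈ centralizer (zpowers y : Set G)) a ha,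
    inf_comm X _ ▸ h1, sup_comm X _ ▸ h2.symm⟩

theorem exists_conj_zp [Finite G] {S : Subgroup G} {q : ℕ} (hq : q.Prime) (h : ¬ q ^ 2 ∣ Nat.card G)
    (hS : Nat.card S = q) {y : G} (hy : orderOf y = q) : ∃ k : G, MulAut.conj k • zpowers y = S := by
  obtain ⟨a, ha, e⟩ := exists_order (K := S) hq (hS ▸ dvd_rfl)
  obtain ⟨k, -, e1⟩ := exists_conj_cent (K := ⊤) hq (by rwa [card_top]) (mem_top y) (mem_top a) hy e
  exact ⟨k, e1.trans (eq_of_le_of_card_ge (zpowers_le.2 ha) (by rw [Nat.card_zpowers, e, hS]))⟩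

theorem pI_le_y {v : Finset GolayPt → G} {κ : M24 →* G} : pI v κ ≤ centralizer {y0 κ} := inf_le_right

namespace Pw

variable {z x : G} {Q V : Subgroup G} {p ρ : G → Perm GolayPt} {v : Finset GolayPt → G}
  {κ : M24 →* G} {φ : normalizer (pU v : Set G) →* Perm (Fin 5)} [Finite G]
  (h : Pw z x Q V p v ρ κ φ)
include h

theorem I_inf_y : pI v κ ⊓ zpowers (y0 κ) = ⊥ :=
  inf_eq_bot_of_coprime_card (by rw [h.card_I, Nat.card_zpowers, h.orderOf_y]; norm_num)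

theorem exists_ab : ∃ a ∈ pI v κ, ∃ b ∈ pI v κ, orderOf a = 2 ∧ orderOf b = 2 ∧ IsConj z a ∧
    ¬ IsConj z b ∧ (∀ w ∈ pI v κ ⊔ zpowers (y0 κ), orderOf w = 2 →
      ∃ k ∈ pI v κ, k * a * k⁻¹ = w ∨ k * b * k⁻¹ = w) ∧
    centralizer {y0 κ} ⊓ centralizer {a} ≤ pI v κ ⊔ zpowers (y0 κ) ∧
    centralizer {y0 κ} ⊓ centralizer {b} ≤ pI v κ ⊔ zpowers (y0 κ) := by
  obtain ⟨e, -⟩ := h.exists_eI
  have k1 : ∀ t, orderOf (e.symm t : G) = orderOf t := fun t => by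
    rw [Subgroup.orderOf_coe, MulEquiv.orderOf_eq]
  have k2 : ∀ t, pI v κ ⊓ centralizer {(e.symm t : G)} ⊔ zpowers (y0 κ) ≤
      centralizer {(e.symm t : G)} ⊓ centralizer {y0 κ} := fun t =>
    sup_le (fun g hg => ⟨hg.2, hg.1.2⟩) (zpowers_le.2 ⟨cent_symm (e.symm t).2.2, mem_cent.2 (by simp)⟩)
  have k3 : ∀ t, Nat.card ↥(pI v κ ⊓ centralizer {(e.symm t : G)} ⊔ zpowers (y0 κ)) =
      Nat.card (centralizer ({t} : Set (Perm (Fin 5)))) * 7 := fun t => by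
    rw [card_sup_zp (inf_le_left.trans pI_le_y) (eq_bot_iff.2 fun g hg =>
      h.I_inf_y.le ⟨hg.1.1, hg.2⟩), card_cent_equiv, h.orderOf_y]
  have k4 : ∀ t, Nat.card ↥(centralizer {(e.symm t : G)} ⊓ centralizer {y0 κ}) ≤
      Nat.card (centralizer ({t} : Set (Perm (Fin 5)))) * 7 →
      centralizer {y0 κ} ⊓ centralizer {(e.symm t : G)} ≤ pI v κ ⊔ zpowers (y0 κ) := fun t h1 => by
    rw [inf_comm, ← eq_of_le_of_card_ge (k2 t) (k3 t ▸ h1)]
    exact sup_le_sup_right inf_le_left _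
  have k5 : ∀ w ∈ pI v κ ⊔ zpowers (y0 κ), orderOf w = 2 →
      ∃ k ∈ pI v κ, k * e.symm ta * k⁻¹ = w ∨ k * e.symm tb * k⁻¹ = w := fun w hw h1 => by
    obtain ⟨n, hn, c, hc, rfl⟩ := (mem_sup_of_le_normalizer (zp_le_norm pI_le_y)).1 hw
    have l1 : n * c ∈ pI v κ := by
      have l2 : Commute n c := ((centralizer_zpowers_eq_sing (y0 κ)).ge hn.2 c hc).symm
      rw [← pow_one (n * c), show 1 = 7 % 2 by norm_num, ← h1, pow_mod_orderOf, l2.mul_pow,
        (orderOf_dvd_iff_pow_eq_one (x := c)).1 (h.orderOf_y ▸ orderOf_dvd_of_mem_zpowers hc), mul_one]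
      exact pow_mem hn 7
    have l3 : orderOf (e ⟨_, l1⟩) = 2 := by rw [MulEquiv.orderOf_eq, ← Subgroup.orderOf_coe, h1]
    have l4 : ∀ k t, k * t * k⁻¹ = e ⟨_, l1⟩ → (e.symm k : G) * e.symm t * (e.symm k : G)⁻¹ = n * c :=
      fun k t e1 => by simpa using congrArg (fun σ => (e.symm σ : G)) e1
    rcases S5_invol _ (by rw [← pow_two, ← l3, pow_orderOf_eq_one]) with e1 | ⟨k, e1⟩ | ⟨k, e1⟩
    · simp [e1] at l3
    exacts [⟨_, (e.symm k).2, Or.inl (l4 k _ e1)⟩, ⟨_, (e.symm k).2, Or.inr (l4 k _ e1)⟩]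
  have k6 : IsConj z (e.symm ta) := by
    by_contra hc
    have := (card_le_of_le (k2 ta)).trans ((h.card_t ((k1 _).trans orderOf_ta) hc
      (cent_symm (e.symm ta).2.2)).2 h.orderOf_y)
    rw [k3, card_cent_ta] at this
    omega
  have k7 : ¬ IsConj z (e.symm tb) := fun hc => by
    obtain ⟨l1, l2⟩ := h.duad_y (m := 65) (by norm_num) (by decide +kernel) (by decide +kernel)
    obtain ⟨k, -, e1 | e1⟩ := k5 _ (mem_sup_left ⟨h.V_le_CU l2.1, l2.2⟩) (orderOf_two (h.toCoc.v_sq _)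
      (h.toCoc.v_ne_one (l1 ▸ even_two) (by omega) (by omega)))
    exacts [h.two _ l1 (k6.trans (isConj_iff.2 ⟨k, e1⟩)), h.two _ l1 (hc.trans (isConj_iff.2 ⟨k, e1⟩))]
  exact ⟨_, (e.symm ta).2, _, (e.symm tb).2, (k1 _).trans orderOf_ta, (k1 _).trans orderOf_tb, k6, k7,
    k5, k4 _ (card_cent_ta ▸ h.card_z7 k6 (cent_symm (e.symm ta).2.2) h.orderOf_y),
    k4 _ (card_cent_tb ▸ (h.card_t ((k1 _).trans orderOf_tb) k7 (cent_symm (e.symm tb).2.2)).2
      h.orderOf_y)⟩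

theorem cent_y : centralizer {y0 κ} = pI v κ ⊔ zpowers (y0 κ) := by
  obtain ⟨a, ha, b, hb, h1, h2, h3, h4, h5, h6, h7⟩ := h.exists_ab
  have k1 : pI v κ ⊔ zpowers (y0 κ) ≤ centralizer {y0 κ} :=
    sup_le inf_le_right (zpowers_le.2 (mem_cent.2 (by simp)))
  exact le_antisymm (le_of_two_classes k1 (mem_sup_left ha) (mem_sup_left hb) h1 h2
    (fun e => h4 (h3.trans e)) (fun w hw e => (h5 w hw e).imp fun k hk => ⟨mem_sup_left hk.1, hk.2⟩)
    h6 h7) k1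

theorem not_inv_y (g : G) : g * y0 κ * g⁻¹ ≠ (y0 κ)⁻¹ := fun e => by
  obtain ⟨a, -, b, hb, -, h2, h3, h4, h5, -⟩ := h.exists_ab
  obtain ⟨k, hk, e1⟩ := h5 (g * b * g⁻¹) (h.cent_y ▸ cent_symm (inv_mem_iff.1 (by
    rw [← e, ← conj_smul_centralizer_singleton]
    exact conj_mem_conj_smul g (cent_symm hb.2)))) (by rw [orderOf_conj', h2])
  have e2 := e1.resolve_left fun e2 =>
    h4 ((h3.trans (isConj_iff.2 ⟨k, e2⟩)).trans (isConj_iff.2 ⟨g, rfl⟩).symm)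
  refine h.not_inv h2 h4 (cent_symm hb.2) h.orderOf_y (g := k⁻¹ * g) (mem_cent.2 ?_) ?_
  · calc _ = k⁻¹ * (g * b * g⁻¹) * k := by group
      _ = b := by rw [← e2]; group
  · calc _ = k⁻¹ * (g * y0 κ * g⁻¹) * k := by group
      _ = k⁻¹ * (k * y0 κ * k⁻¹)⁻¹ * k := by rw [e, mem_cent.1 hk.2]
      _ = _ := by group

theorem exp_y {g : G} (hg : g ∈ normalizer (zpowers (y0 κ) : Set G)) :
    ∃ i ∈ ({1, 2, 4} : Finset ℕ), g * y0 κ * g⁻¹ = y0 κ ^ i := by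
  obtain ⟨i, hi, e⟩ := exists_pow_of_mem (conj_mem_of_mem_normalizer hg (mem_zpowers _))
  refine ⟨i, ?_, e⟩
  have k1 : ¬ 7 ∣ i ^ 3 + 1 := fun hc => h.not_inv_y (g ^ 3) (by
    rw [conj_pow' e, eq_inv_iff_mul_eq_one, ← pow_succ, ← orderOf_dvd_iff_pow_eq_one, h.orderOf_y]
    exact hc)
  have k2 : i ≠ 0 := by
    rintro rfl
    have := h.orderOf_y
    rw [← orderOf_conj' g, e] at this
    simp at this
  rw [h.orderOf_y] at hi
  interval_cases i <;> simp_all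

theorem exists_exp_y {i : ℕ} (hi : i ∈ ({1, 2, 4} : Finset ℕ)) :
    ∃ k ∈ normalizer (pU v : Set G), k * y0 κ * k⁻¹ = y0 κ ^ i := by
  have k1 : κ ⟨_, inSub_pn.2⟩ * y0 κ * (κ ⟨_, inSub_pn.2⟩)⁻¹ = y0 κ ^ 2 := by
    rw [y0, ← map_inv, ← map_mul, ← map_mul, ← map_pow]
    exact congrArg κ (Subtype.ext ((inSub_pn.rep.conj inSub_py.rep).eq_of_peq (inSub_py.rep.pow 2)
      (by decide +kernel)))
  obtain ⟨j, -, rfl⟩ := (by decide : ∀ i ∈ ({1, 2, 4} : Finset ℕ), ∃ j < 3, 2 ^ j = i) i hi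
  exact ⟨_, pow_mem (h.mem_NU (h.κ_mem _) (h.rep_κ inSub_pn) (by decide +kernel)) j, conj_pow' k1 j⟩

theorem norm_y_le : normalizer (zpowers (y0 κ) : Set G) ≤ normalizer (pU v : Set G) := fun g hg => by
  obtain ⟨i, hi, e⟩ := h.exp_y hg
  obtain ⟨k, hk, e1⟩ := h.exists_exp_y hi
  refine (mul_mem_cancel_left (inv_mem hk)).1 (sup_le pI_le (zpowers_le.2 h.y_NU)
    (h.cent_y.le (mem_cent.2 ?_)))
  calc _ = k⁻¹ * (g * y0 κ * g⁻¹) * k := by group
    _ = _ := by rw [e, ← e1]; group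

theorem card_cent_y : Nat.card (centralizer ({y0 κ} : Set G)) = 840 := by
  rw [h.cent_y, card_sup_zp pI_le_y h.I_inf_y, h.card_I, h.orderOf_y]

theorem card_norm_y : Nat.card (normalizer (zpowers (y0 κ) : Set G)) = 3 * 840 := by
  rw [card_eq_mul_cent (y := y0 κ) (S := {1, 2, 4}) (by rw [h.orderOf_y]; decide) (fun _ => h.exp_y)
    (fun i hi => let ⟨k, hk⟩ := h.exists_exp_y hi
      ⟨k, mem_norm_zp (hk.2 ▸ pow_mem (mem_zpowers _) i), hk.2⟩), inf_eq_right.2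
    (centralizer_zpowers_eq_sing (y0 κ) ▸ centralizer_le_normalizer _), h.card_cent_y]
  rfl

theorem not_49 : ¬ 7 ^ 2 ∣ Nat.card G :=
  not_sq_dvd (by norm_num) ((Nat.card_zpowers _).trans h.orderOf_y) (by rw [h.card_norm_y]; norm_num)

theorem seven {S : Subgroup G} (hS : Nat.card S = 7) : ¬ (49 ∣ Nat.card G) ∧
    (∃ I : Subgroup G, IsInternalDirectProduct S I (centralizer (S : Set G)) ∧
      Nonempty (I ≃* Perm (Fin 5))) ∧
    Nat.card (normalizer (S : Set G)) = 3 * Nat.card (centralizer (S : Set G)) ∧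
    Nat.card (normalizer (S : Set G)) = 2 ^ 3 * 3 ^ 2 * 5 * 7 := by
  obtain ⟨k, rfl⟩ := exists_conj_zp (by norm_num) h.not_49 hS h.orderOf_y
  obtain ⟨e, -⟩ := h.exists_eI
  rw [← conj_smul_normalizer, ← conj_smul_centralizer, card_conj_smul, card_conj_smul,
    h.card_norm_y]
  exact ⟨h.not_49, ⟨_, idp_conj (idp_zp pI_le_y h.I_inf_y h.cent_y) k,
    ⟨(conjEquiv k _).symm.trans e⟩⟩, by rw [centralizer_zpowers_eq_sing, h.card_cent_y], rfl⟩

end Pw

end Cfsg.Lib.SporChar.J4C
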