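import Cfsg.Agent.SporChar.J4CF
import Cfsg.Agent.Solv.Frattini

/-! Groups of type `J₄`: the 2-local subgroup `2^(3+12).(S₅ × L₃(2))`. -/

set_option autoImplicit false
set_option maxRecDepth 100000

namespace Cfsg.Lib.SporChar.J4C

open Subgroup Equiv Cfsg.Lib.Spor Cfsg.Lib.Spor.MP Cfsg.Lib.SporChar.J4 Cfsg.Lib.Solv
  Cfsg.Lib.Solv.Count J4B MulAction Cfsg.Lib.Local
open scoped Pointwise

variable {G : Type*} [Group G]

theorem exists_sylow_zp [Finite G] {q : ℕ} (hq : q.Prime) (h : ¬ q ^ 2 ∣ Nat.card G) {y : G}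
    (hy : orderOf y = q) : ∃ S : Sylow q G, (S : Subgroup G) = zpowers y := by
  have : Fact q.Prime := ⟨hq⟩
  have h3 := (Nat.card_zpowers y).trans hy
  refine ⟨(IsPGroup.of_card (n := 1) (h3.trans (pow_one q).symm)).toSylow fun h4 => h ?_, rfl⟩
  rw [← (zpowers y).card_mul_index, h3, pow_two]
  exact Nat.mul_dvd_mul_left q h4

theorem norm_hom_eq_one {U : Subgroup G} (g : normalizer (U : Set G)) :
    U.normalizerMonoidHom g = 1 ↔ (g : G) ∈ centralizer (U : Set G) := by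
  rw [← MonoidHom.mem_ker, normalizerMonoidHom_ker, mem_subgroupOf]

namespace Pw

variable {z x : G} {Q V : Subgroup G} {p ρ : G → Perm GolayPt} {v : Finset GolayPt → G}
  {κ : M24 →* G} {φ : normalizer (pU v : Set G) →* Perm (Fin 5)} [Finite G]
  (h : Pw z x Q V p v ρ κ φ)
include h

theorem not_comm : ¬ pL φ ≤ centralizer (pL φ : Set G) := fun hc => by
  obtain ⟨m, k1, k2⟩ := card_kerG φ h.V_NU
  rw [card_S5] at k1
  rw [h.toCoc.cardV] at k2
  have k3 : m ≤ 8 := Nat.le_of_dvd (by norm_num)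
    (show m ∣ Nat.gcd 120 (2 ^ 11) from Nat.dvd_gcd k1 (Dvd.intro_left _ k2.symm))
  have k4 : pL φ ≤ normalizer (V : Set G) := inf_le_right.trans h.K_le
  have k5 := h.toCoc.card_le _ k4
  have k6 := card_le_of_le (inf_le_right : pL φ ⊓ V ≤ V)
  rw [h.card_L] at k5
  rw [h.toCoc.cardV] at k6
  obtain ⟨σ, l1, l2⟩ := exists_order (K := ((pL φ).subgroupOf _).map h.toCoc.hom) Nat.prime_two (by
    obtain ⟨n, -, e⟩ := (Nat.dvd_prime_pow Nat.prime_two).1 (Dvd.intro_left _ k5.symm)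
    rw [e] at k5 ⊢
    refine dvd_pow_self 2 ?_
    rintro rfl
    omega)
  obtain ⟨l, hl, rfl⟩ := (h.toCoc.mem_map_hom k4).1 l1
  have l3 := card_le_of_le (show V ⊓ kerG φ ≤ V ⊓ centralizer {l} from fun u hu =>
    ⟨hu.1, mem_centralizer_singleton_iff.2 (hc hl u ⟨h.V_le_CU hu.1, hu.2⟩)⟩)
  by_cases l4 : ∃ a, ρ l a = a
  · rw [h.toCoc.card_fix_2A (k4 hl) l2 l4.choose_spec] at l3
    nlinarith
  · rw [h.toCoc.card_fix_2B (k4 hl) l2 (not_exists.1 l4)] at l3
    nlinarith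

theorem center_L : pL φ ⊓ centralizer (pL φ : Set G) = pU v := by
  obtain ⟨f, hc⟩ := h.exists_f
  exact (h.inv_sub hc (le_inf h.U_le_L fun u hu =>
    mem_centralizer_iff.2 fun l hl => (hl.1 u hu).symm) inf_le_left
    (le_normalizer_inf_centralizer norm_pL norm_pL)).resolve_right fun e =>
      h.not_comm (e.ge.trans inf_le_right)

theorem char_eq (C : Subgroup (pL φ)) [C.Characteristic] (h1 : C ≠ ⊥) (h2 : C ≠ ⊤) :
    C = center (pL φ) := by
  obtain ⟨f, hc⟩ := h.exists_f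
  have k1 := norm_pL.trans (normalizer_le_normalizer_map_subtype_of_char C)
  obtain ⟨c, l1, l2, l3⟩ := Fus.Grp.exists_central_invol h.isPGroup_L (map_subtype_le C)
    (fun e => h1 ((map_eq_bot_iff_of_injective _ (pL φ).subtype_injective).1 e))
    fun s hs x hx => conj_mem_of_mem_normalizer (le_normalizer_map_subtype C hs) hx
  refine map_injective (pL φ).subtype_injective ?_
  rw [map_subtype_center, h.center_L]
  refine (h.inv_sub hc (h.U_le_of (k1 h.y_NU) (h.center_L.le ⟨map_subtype_le C l1, l3⟩)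
    (by rintro rfl; simp at l2) l1) (map_subtype_le C) k1).resolve_right fun e => h2 ?_
  exact map_injective (pL φ).subtype_injective (e.trans (by rw [← MonoidHom.range_eq_map,
    range_subtype]))

theorem special : IsSpecial 2 (pL φ) := by
  have : Nontrivial (pL φ) := Finite.one_lt_card_iff_nontrivial.1 (by rw [h.card_L]; norm_num)
  have := h.isPGroup_L.isNilpotent
  have k1 : commutator (pL φ) ≠ ⊥ := fun e => h.not_comm (commutator_eq_bot_iff_le_centralizer.1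
    (by rw [← Solv.map_subtype_commutator, e, Subgroup.map_bot]))
  have k2 := commutator_le_frattini_of_isNilpotent (G := pL φ)
  exact ⟨h.isPGroup_L, h.char_eq _ (fun e => k1 (eq_bot_iff.2 (e ▸ k2))) frattini_ne_top,
    h.char_eq _ k1 fun e => frattini_ne_top (eq_top_iff.2 (e ▸ k2))⟩

theorem norm_L : normalizer (pL φ : Set G) = normalizer (pU v : Set G) :=
  le_antisymm (h.center_L ▸ le_normalizer_inf_centralizer le_rfl le_rfl) norm_pL

theorem card_quot : Nat.card (normalizer (pL φ : Set G)) =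
    20160 * Nat.card ((pL φ).subgroupOf (normalizer (pL φ : Set G))) := by
  rw [card_subgroupOf_of_le le_normalizer, h.norm_L, h.card_NU, h.card_L]
  norm_num

theorem quot_L : Nonempty (normalizer (pL φ : Set G) ⧸ (pL φ).subgroupOf (normalizer (pL φ : Set G)) ≃*
    Perm (Fin 5) × Matrix.SpecialLinearGroup (Fin 3) (ZMod 2)) := by
  let ψ := (φ.prod (pU v).normalizerMonoidHom).comp (inclusion h.norm_L.le)
  have k1 : (pL φ).subgroupOf (normalizer (pL φ : Set G)) = ψ.ker := by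
    ext g
    rw [MonoidHom.mem_ker, MonoidHom.comp_apply, MonoidHom.prod_apply, Prod.mk_eq_one, mem_kerG,
      norm_hom_eq_one, and_comm]
    rfl
  obtain ⟨ε⟩ := h.equiv_aut
  have k2 := card_eq_card_quotient_mul_card_subgroup ψ.ker
  rw [h.card_quot, k1, mul_left_inj' Nat.card_pos.ne'] at k2
  exact ⟨((QuotientGroup.quotientMulEquivOfEq k1).trans (MulEquiv.ofBijective (QuotientGroup.kerLift ψ)
    ((Nat.bijective_iff_injective_and_card _).2 ⟨QuotientGroup.kerLift_injective ψ, by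
      rw [Nat.card_prod, card_S5, h.card_aut, ← k2]⟩))).trans ((MulEquiv.refl _).prodCongr ε)⟩

theorem nonsplit (K : Subgroup (normalizer (pL φ : Set G))) :
    ¬ ((pL φ).subgroupOf (normalizer (pL φ : Set G))).IsComplement' K := fun hK => by
  obtain ⟨f, hc⟩ := h.exists_f
  have k0 := hK.card_mul_card
  rw [h.card_quot, mul_comm, mul_left_inj' Nat.card_pos.ne', ← card_map_subtype] at k0
  have k1 : K.map (normalizer (pL φ : Set G)).subtype ≤ normalizer (pU v : Set G) :=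
    (map_subtype_le K).trans h.norm_L.le
  have k2 : ∀ g ∈ K.map (normalizer (pL φ : Set G)).subtype, g ∈ pL φ → g = 1 := by
    rintro _ ⟨a, ha, rfl⟩ h1
    rw [mem_bot.1 (hK.disjoint.le_bot ⟨h1, ha⟩)]
    rfl
  generalize K.map (normalizer (pL φ : Set G)).subtype = X at *
  obtain ⟨m, ⟨c, l1⟩, l2⟩ := card_kerG φ k1
  obtain ⟨P, l3, l4⟩ := exists_sub_card (K := X ⊓ kerG φ) (n := 3) ⟨21 * c, by
    rw [card_S5] at l1
    rw [k0] at l2
    have : 0 < m := Nat.pos_of_ne_zero fun e => by simp [e] at l1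
    nlinarith⟩
  have l5 := card_eq_mul_map (pU v).normalizerMonoidHom k1 norm_hom_eq_one
  obtain ⟨g, l6, l7⟩ := exists_order (K := X ⊓ centralizer (pU v : Set G)) (p := 5) (by norm_num)
    (((by norm_num : Nat.Prime 5).dvd_mul.1 (by rw [← l5, k0]; norm_num)).resolve_right fun e =>
      absurd (e.trans (h.card_aut ▸ card_subgroup_dvd_card _)) (by norm_num))
  obtain ⟨k, m1, m2⟩ := exists_conj_cent (by norm_num) (by rw [h.card_NU]; norm_num) (k1 l6.1)
    (pI_le hc.1) l7 (h.ord_f hc)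
  refine h.no_compl hc (P := MulAut.conj k • P) (cent_of_conj m2 ▸ conj_smul_mono k fun a ha =>
    mem_cent.2 (mul_inv_eq_one.1 (k2 _ (comm_mem_right l6.1 (le_normalizer (l3 ha).1))
      ⟨comm_mem_right l6.2 (normalizer_le_normalizer_centralizer _ (k1 (l3 ha).1)),
        comm_mem_left (l3 ha).2 (norm_kerG (k1 l6.1))⟩))) ((card_conj_smul k P).trans l4) ?_
  rw [← conj_smul_eq_of_mem_normalizer m1, ← smul_inf, conj_smul_eq_bot_iff]
  exact eq_bot_iff.2 fun a ha => k2 a (l3 ha.1).1 (h.U_le_L ha.2)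

theorem exists_L32 : ∃ X ≤ normalizer (pU v : Set G),
    Nonempty (X ≃* Matrix.SpecialLinearGroup (Fin 3) (ZMod 2)) := by
  obtain ⟨h1, h2, h3⟩ := L32_spec
  obtain ⟨ε⟩ := h.equiv_aut
  have k0 : ∀ σ : M24, Rep (ρ (κ σ)) (pack σ) := fun σ => by rw [h.ρ_κ]; exact rep_pack _
  have k1 : ((pclosure gK).subgroupOf M24).map κ ≤ normalizer (pU v : Set G) := by
    rintro _ ⟨σ, hσ, rfl⟩
    exact h.mem_NU (h.κ_mem σ) (k0 σ) (h3 σ hσ).1
  obtain ⟨e, -⟩ := equiv_of_card k1 norm_hom_eq_one (eq_bot_iff.2 (by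
    rintro _ ⟨⟨σ, hσ, rfl⟩, e⟩
    rw [show σ = 1 from Subtype.ext ((h3 σ hσ).2 ((h.mem_CU (h.κ_mem σ) (k0 σ)).1 e)), map_one]
    exact one_mem _)) (by
      rw [card_map_of_injective (fun a b e => Subtype.ext (by rw [← h.ρ_κ, e, h.ρ_κ])),
        card_subgroupOf_of_le h2, h1, h.card_aut])
  exact ⟨_, k1, ⟨e.trans ε⟩⟩

theorem pentad : ∃ L : Subgroup G, IsSpecial 2 L ∧ Nat.card L = 2 ^ 15 ∧ Nat.card (center L) = 8 ∧
    Nonempty (normalizer (L : Set G) ⧸ L.subgroupOf (normalizer (L : Set G)) ≃*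
      Perm (Fin 5) × Matrix.SpecialLinearGroup (Fin 3) (ZMod 2)) ∧
    (∀ K : Subgroup (normalizer (L : Set G)),
      ¬ (L.subgroupOf (normalizer (L : Set G))).IsComplement' K) ∧
    (∃ K₁ : Subgroup G, K₁ ≤ normalizer (L : Set G) ∧ Nonempty (K₁ ≃* Perm (Fin 5))) ∧
    (∃ K₂ : Subgroup G, K₂ ≤ normalizer (L : Set G) ∧
      Nonempty (K₂ ≃* Matrix.SpecialLinearGroup (Fin 3) (ZMod 2))) ∧
    (∃ S : Sylow 5 G, normalizer ((S : Subgroup G) : Set G) ≤ normalizer (L : Set G)) ∧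
    (∃ S : Sylow 7 G, normalizer ((S : Subgroup G) : Set G) ≤ normalizer (L : Set G)) := by
  obtain ⟨f, hc⟩ := h.exists_f
  obtain ⟨e, -⟩ := h.exists_eI
  obtain ⟨S, e1⟩ := exists_sylow_zp (by norm_num) (h.not_25 hc) (h.ord_f hc)
  obtain ⟨T, e2⟩ := exists_sylow_zp (by norm_num) h.not_49 h.orderOf_y
  refine ⟨pL φ, h.special, h.card_L,
    by rw [← card_map_subtype, map_subtype_center, h.center_L, h.card_U], h.quot_L, h.nonsplit, ?_⟩
  rw [h.norm_L]
  exact ⟨⟨_, pI_le, ⟨e⟩⟩, h.exists_L32, ⟨S, e1 ▸ h.norm_f_le hc⟩, T, e2 ▸ h.norm_y_le⟩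

end Pw

end Cfsg.Lib.SporChar.J4C
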