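import Cfsg.Agent.Spor.Co0Simple

/-!
The rank three action of `Co2` on 2300 points.
-/

set_option autoImplicit false
set_option maxRecDepth 100000

namespace Cfsg.Lib.SporChar.Co

open Cfsg Cfsg.Lib.Spor Cfsg.Lib.Spor.CK Cfsg.Lib.Spor.Orb Subgroup MulAction
open scoped Pointwise

theorem exists_rank_of_action {K G X : Type*} [Group K] [Group G] [MulAction K X] (e : K ≃* G)
    {a : X} (h : IsCoatom (stabilizer K a)) (g₁ g₂ : K) :
    ∃ H : Subgroup G, IsCoatom H ∧ H.index = (orbit K a).ncard ∧ ∃ q₁ q₂ : G ⧸ H,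
      (orbit H q₁).ncard = (orbit (stabilizer K a) (g₁ • a)).ncard ∧
      (orbit H q₂).ncard = (orbit (stabilizer K a) (g₂ • a)).ncard := by
  let : MulAction G X := MulAction.compHom X e.symm.toMonoidHom
  have k : ∀ g : K, (orbit (stabilizer G a) ((e g : G) : G ⧸ stabilizer G a)).ncard =
      (orbit (stabilizer K a) (g • a)).ncard := fun g => by
    rw [← Set.ncard_image_of_injective _ (injective_ofQuotientStabilizer G a)]
    have s : ∀ h : G, ofQuotientStabilizer G a (h • (e g : G ⧸ stabilizer G a)) =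
        e.symm h • g • a := fun h => by
      rw [ofQuotientStabilizer_smul, ofQuotientStabilizer_mk]
      exact congrArg (fun x => e.symm h • x • a) (e.symm_apply_apply g)
    refine congrArg _ (Set.ext fun y => ⟨?_, ?_⟩)
    · rintro ⟨_, ⟨h, rfl⟩, rfl⟩
      exact ⟨⟨e.symm h, h.2⟩, (s h).symm⟩
    · rintro ⟨h, rfl⟩
      refine ⟨_, ⟨⟨e h, show e.symm (e h) • a = a by rw [e.symm_apply_apply]; exact h.2⟩, rfl⟩, ?_⟩
      exact (s (e h)).trans (by rw [e.symm_apply_apply]; rfl)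
  refine ⟨stabilizer G a, (e.symm.comapSubgroup.isCoatom_iff _).2 h, ?_, _, _, k g₁, k g₂⟩
  rw [← index_stabilizer]
  exact index_comap_of_surjective (stabilizer K a) (f := e.symm.toMonoidHom) e.symm.surjective

/-- A pair of minimal vectors with sum `uu`. -/
def upr (y : leechLattice) : Set leechLattice := {y, uu - y}

theorem smul_upr (g : sCo2) (y : leechLattice) : g • upr y = upr (g • y) := by
  rw [upr, Set.smul_set_insert, Set.smul_set_singleton, Subgroup.smul_def g (uu - y), co0_smul_sub,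
    g.2]
  rfl

theorem fix_upr {g : sCo2} {y : leechLattice} : g • upr y = upr y ↔ g • y = y ∨ g • y = uu - y := by
  rw [smul_upr]
  refine ⟨fun h => h.le (Set.mem_insert _ _), fun h => h.elim (congrArg _) fun h => ?_⟩
  rw [h, upr, sub_sub_cancel, Set.pair_comm, upr]

theorem ncard_upr {S : Subgroup sCo2} {y : leechLattice} (hy : y ∈ C1 uu 16)
    (h : ∃ s ∈ S, s • y = uu - y) : (orbit S (upr y)).ncard * 2 = (orbit S y).ncard := by
  have n : y ≠ uu - y := fun e => by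
    have := congrArg (dt y) e
    rw [dt_sub_right, dt_self, dt_comm, hy.1, hy.2] at this
    omega
  have := ncard_orbit_double S (upr y) y
  rwa [show orbit ↥(S ⊓ stabilizer sCo2 (upr y)) y = {y, uu - y} from Set.ext fun x => ⟨by
      rintro ⟨g, rfl⟩; exact fix_upr.1 g.2.2, by
      rintro (rfl | rfl)
      · exact mem_orbit_self _
      · obtain ⟨s, a, b⟩ := h
        exact ⟨⟨s, a, fix_upr.2 (.inr b)⟩, b⟩⟩,
    show orbit ↥(S ⊓ stabilizer sCo2 y) (upr y) = {upr y} from Set.ext fun x => ⟨by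
      rintro ⟨g, rfl⟩; exact fix_upr.2 (.inl g.2.2), by
      rintro rfl; exact mem_orbit_self _⟩, Set.ncard_pair n, Set.ncard_singleton, mul_one] at this

theorem sub_mem_4600 {y : leechLattice} (hy : y ∈ C1 uu 16) : uu - y ∈ C1 uu 16 :=
  ⟨by rw [nm_sub, nm_uu, hy.1, hy.2]; rfl, by rw [dt_sub_right, dt_self, nm_uu, hy.2]; rfl⟩

theorem xx_mem_4600 : xx ∈ C1 uu 16 := ⟨nm_xx, dt_uu_xx⟩

theorem le_orbit_upr {y : leechLattice} {B : Set leechLattice} (h : ∀ b ∈ B, ∃ g : Co0,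
    g • uu = uu ∧ (g • xx = xx ∨ g • xx = uu - xx) ∧ g • y = b) :
    B.ncard ≤ (orbit (stabilizer sCo2 (upr xx)) y).ncard :=
  Set.ncard_le_ncard (fun b hb => let ⟨g, a, c, d⟩ := h b hb; ⟨⟨⟨g, a⟩, fix_upr.2 c⟩, d⟩)
    (Set.finite_range _)

theorem rank_2300 : Rank sCo2 (upr xx) (C1 uu 16) (fun y => (dt xx y - 8).natAbs) ![24, 8, 0]
    ![2, 1782, 2816] := by
  have x2 := sub_mem_4600 xx_mem_4600
  obtain ⟨σ, s1, s2⟩ := trans_32_fix nm_uu nm_xx x2.1 (dt_uu_xx.trans x2.2.symm)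
  obtain ⟨τ, t1, t2⟩ := trans_32_32 x2.1 nm_uu nm_uu nm_xx (((dt_comm _ _).trans x2.2).trans dt_uu_xx.symm)
  have d1 : dt uu (τ • ww) = 16 := by
    rw [← t1, dt_smul]; decide +kernel
  have d2 : dt xx (τ • ww) = 8 := by rw [← t2, dt_smul, dt_uu_ww]
  refine rank_of_lower (finite_C1 _ _) (fun g _ y hy => smul_mem_C1_of_fix g.2 hy)
    (fun g hg y hy => ?_) ![xx, uu - xx + u2, τ • ww] (fun i => ?_) (fun i => ?_) (by decide)
    (fun i => ?_) (by decide) (by rw [ncard_4600 nm_uu]; decide)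
  · have : dt xx (g • y) = dt (g⁻¹ • xx) y := by
      conv_lhs => rw [← smul_inv_smul g xx]
      exact dt_smul g _ _
    rcases fix_upr.1 (inv_mem (show g ∈ stabilizer sCo2 (upr xx) from hg)) with e | e <;>
      rw [this, e]
    rw [dt_sub_left, hy.2]
    omega
  · fin_cases i
    exacts [xx_mem_4600, show uu - xx + u2 ∈ C1 uu 16 from ⟨by decide +kernel, by decide +kernel⟩,
      ⟨(nm_smul _ _).trans nm_ww, d1⟩]
  · fin_cases i
    exacts [show (dt xx xx - 8).natAbs = 24 by decide +kernel,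
      show (dt xx (uu - xx + u2) - 8).natAbs = 8 by decide +kernel, by simp [d2]]
  fin_cases i
  · refine le_of_eq_of_le (Set.ncard_pair (show xx ≠ uu - xx by decide +kernel)).symm
      (le_orbit_upr ?_)
    rintro _ (rfl | rfl)
    exacts [⟨1, one_smul _ _, .inl (one_smul _ _), one_smul _ _⟩, ⟨σ, s1, .inr s2, s2⟩]
  · have f : ∀ g ∈ sU6, g • (uu - xx + u2) = uu - xx + g • u2 := fun g a => by
      rw [co0_smul_add, co0_smul_sub, a.1, a.2]
    have fin : (orbit sU6 u2).Finite := Set.finite_range _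
    refine le_trans ?_ (le_orbit_upr (y := uu - xx + u2) (B := (uu - xx + ·) '' orbit sU6 u2 ∪
      (fun y => σ • (uu - xx + y)) '' orbit sU6 u2) ?_)
    · rw [Set.ncard_union_eq (Set.disjoint_left.2 ?_) (fin.image _) (fin.image _),
        Set.ncard_image_of_injective _ (add_right_injective _), Set.ncard_image_of_injective _
          (f := fun y => σ • (uu - xx + y)) ((MulAction.injective σ).comp (add_right_injective _))]
      · exact Nat.add_le_add orb_891 orb_891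
      rintro _ ⟨_, ⟨g, rfl⟩, rfl⟩ ⟨_, ⟨k, rfl⟩, e⟩
      have e : σ • k.1 • (uu - xx + u2) = g.1 • (uu - xx + u2) := by
        rw [f _ k.2, f _ g.2]; exact e
      have := congrArg (dt (uu - xx)) e
      have q : ∀ {g : Co0} {a}, g • a = a → ∀ y, dt a (g • y) = dt a y := co0_dot_of_fix
      rw [← s2, dt_smul, s2, q k.2.2, dt_sub_left, q g.2.1, q g.2.2] at this
      revert this; decide +kernel
    · rintro _ (⟨_, ⟨g, rfl⟩, rfl⟩ | ⟨_, ⟨g, rfl⟩, rfl⟩)
      · exact ⟨g, g.2.1, .inl g.2.2, f _ g.2⟩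
      · exact ⟨σ * g, by rw [mul_smul, g.2.1, s1], .inr (by rw [mul_smul, g.2.2, s2]),
          by rw [mul_smul, f _ g.2]; rfl⟩
  · refine (orb_2816.trans_eq (Set.ncard_image_of_injective _ (MulAction.injective τ)).symm).trans
      (le_orbit_upr (y := τ • ww) ?_)
    rintro _ ⟨_, ⟨g, rfl⟩, rfl⟩
    have a : g.1 • uu = uu := g.2.1
    refine ⟨τ * g * τ⁻¹, ?_, .inl ?_, by rw [mul_smul, mul_smul, inv_smul_smul]; rfl⟩
    · rw [mul_smul, mul_smul, inv_smul_eq_iff.2 t1.symm, co0_smul_sub, a, g.2.2, t1]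
    · rw [mul_smul, mul_smul, inv_smul_eq_iff.2 t2.symm, a, t2]

theorem exists_2300 {G : Type*} [Group G] (e : sCo2 ≃* G) :
    ∃ H : Subgroup G, IsCoatom H ∧ H.index = 2300 ∧ ∃ q₁ q₂ : G ⧸ H,
      (orbit H q₁).ncard = 891 ∧ (orbit H q₂).ncard = 1408 := by
  have t : ∀ y, y ∈ C1 uu 16 ↔ ∃ g : sCo2, g • xx = y := fun y => by
    rw [← dt_uu_xx, ← orbit_stab_32 nm_uu nm_xx]; rfl
  have k : ∀ i : Fin 3, ∃ g : sCo2,
      (orbit (stabilizer sCo2 (upr xx)) (g • upr xx)).ncard * 2 = ![2, 1782, 2816] i := fun i => by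
    obtain ⟨y, a, b⟩ := Set.nonempty_of_ncard_ne_zero ((rank_2300.card i).trans_ne
      (rank_2300.pos i).ne')
    obtain ⟨g, rfl⟩ := (t y).1 a
    refine ⟨g, ?_⟩
    rw [smul_upr, ncard_upr a, rank_2300.orbit_eq' (fun _ => Iff.rfl) a, b, rank_2300.card]
    refine rank_2300.trans _ a _ (sub_mem_4600 a) ?_
    simp only [dt_sub_right, dt_comm xx uu, dt_uu_xx]
    omega
  obtain ⟨g₁, a₁⟩ := k 1
  obtain ⟨g₂, a₂⟩ := k 2
  obtain ⟨H, a, b, q₁, q₂, c, d⟩ := exists_rank_of_action e (rank_2300.isCoatom' xx_mem_4600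
    (fun g h => fix_upr.2 (.inl h)) t 0 (by decide +kernel) (by decide) (by decide)) g₁ g₂
  have := ncard_upr (S := ⊤) xx_mem_4600 (((t _).1 (sub_mem_4600 xx_mem_4600)).imp fun _ h => ⟨trivial, h⟩)
  rw [orbit_top_eq, orbit_top_eq, orbit_stab_32 nm_uu nm_xx, dt_uu_xx, ncard_4600 nm_uu] at this
  simp only [Matrix.cons_val] at a₁ a₂
  exact ⟨H, a, by omega, q₁, q₂, by omega, by omega⟩

end Cfsg.Lib.SporChar.Co
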