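import Cfsg.Agent.SporChar.J4CA
import Cfsg.Agent.Spor.GeoPQ

/-! Groups of type `J₄`: the self-centralizing elementary abelian subgroups of order `2 ^ 10`. -/

set_option autoImplicit false

namespace Cfsg.Lib.SporChar.J4C

open Subgroup Equiv Cfsg.Lib.Spor Cfsg.Lib.Spor.MP Cfsg.Lib.SporChar.J4 Cfsg.Lib.Solv
  Cfsg.Lib.Solv.Count J4B
open scoped Pointwise

variable {G : Type*} [Group G]

/-- The split frame `2^11:M₂₄` with the facts about involutions. -/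
structure Tw (z : G) (V : Subgroup G) (v : Finset GolayPt → G) (ρ : G → Perm GolayPt)
    (κ : M24 →* G) : Prop extends Coc V v ρ where
  κ_mem : ∀ σ, κ σ ∈ normalizer (V : Set G)
  ρ_κ : ∀ σ, ρ (κ σ) = σ
  z2 : orderOf z = 2
  uniq : ∀ A : Subgroup G, A ≤ normalizer (V : Set G) → (∀ a ∈ A, a * a = 1) →
    2 ^ 11 ≤ Nat.card A → A = V
  syl : ∀ S : Subgroup G, IsPGroup 2 S → ∃ g : G, MulAut.conj g • S ≤ normalizer (V : Set G)
  four : ∀ A : Finset GolayPt, A.card = 4 → IsConj z (v A)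
  two : ∀ A : Finset GolayPt, A.card = 2 → ¬ IsConj z (v A)
  cent_duad : ∀ A : Finset GolayPt, A.card = 2 →
    centralizer ({v A} : Set G) ≤ normalizer (V : Set G)
  two_classes : ∀ g : G, orderOf g = 2 → ∀ A : Finset GolayPt, A.card = 2 →
    IsConj z g ∨ IsConj (v A) g
  typeA : ∀ σ : M24, orderOf σ = 2 → (∃ a, (σ : Perm GolayPt) a = a) →
    ∀ u ∈ V, u * κ σ = κ σ * u → (IsConj z (u * κ σ) ↔ ∃ u' ∈ V, u' * κ σ * u'⁻¹ = u * κ σ)

theorem tw_of_out [Finite G] {z x : G} {Q : Subgroup G} {p : G → Perm GolayPt}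
    {v : Finset GolayPt → G} {ρ : G → Perm GolayPt} {κ : M24 →* G} (h : J4B.Out z x Q p v ρ κ) :
    Tw z h.toFr.V v ρ κ :=
  { h.out.coc with
    κ_mem := h.κ_mem
    ρ_κ := h.ρ_κ
    z2 := h.pre.ord
    uniq := h.out.uniq
    syl := fun S hS => by
      obtain ⟨T, hT⟩ := h.out.sylow
      obtain ⟨P, hP⟩ := hS.exists_le_sylow
      obtain ⟨g, rfl⟩ := MulAction.exists_smul_eq G P T
      exact ⟨g, (conj_smul_mono g hP).trans (hT.trans (h.out.inf_eq.ge.trans inf_le_right))⟩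
    four := h.out.four
    two := h.out.two
    cent_duad := h.cent_duad
    two_classes := h.two_classes
    typeA := h.typeA }

namespace Tw

variable {z : G} {V : Subgroup G} {v : Finset GolayPt → G} {ρ : G → Perm GolayPt} {κ : M24 →* G}
  (h : Tw z V v ρ κ)
include h

theorem mul_mem_N {u : G} (hu : u ∈ V) (σ : M24) : u * κ σ ∈ normalizer (V : Set G) :=
  mul_mem (le_normalizer hu) (h.κ_mem σ)

theorem ρ_mul_κ {u : G} (hu : u ∈ V) (σ : M24) : ρ (u * κ σ) = σ := by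
  rw [h.ρ_mul _ (le_normalizer hu) _ (h.κ_mem σ), h.toCoc.ρ_V hu, h.ρ_κ, one_mul]

theorem dec {n : G} (hn : n ∈ normalizer (V : Set G)) :
    ∃ u ∈ V, ∃ σ : M24, (σ : Perm GolayPt) = ρ n ∧ u * κ σ = n :=
  ⟨n * (κ ⟨ρ n, h.ρ_mem n⟩)⁻¹, (h.toCoc.ρ_eq_iff hn (h.κ_mem _)).1 (h.ρ_κ ⟨ρ n, h.ρ_mem n⟩).symm,
    ⟨ρ n, h.ρ_mem n⟩, rfl, by group⟩

theorem κ_conj (σ : M24) {A : Finset GolayPt} (hA : Even A.card) :
    κ σ * v A * (κ σ)⁻¹ = v ((σ : Perm GolayPt) • A) := by rw [h.conj _ (h.κ_mem σ) A hA, h.ρ_κ]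

omit h in
theorem κ_sq {σ : M24} (e : (σ : Perm GolayPt) * σ = 1) : κ σ * κ σ = 1 := by
  rw [← map_mul, show σ * σ = 1 from Subtype.ext e, map_one]

omit h in
theorem κ_comm {σ τ : M24} (e : (σ : Perm GolayPt) * τ = τ * σ) : κ σ * κ τ = κ τ * κ σ := by
  rw [← map_mul, ← map_mul, show σ * τ = τ * σ from Subtype.ext e]

theorem comm_of_sq_one {u : G} (hu : u ∈ V) {σ : M24} (e : u * κ σ * (u * κ σ) = 1) :
    (σ : Perm GolayPt) * σ = 1 ∧ u * κ σ = κ σ * u := by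
  have h1 : (σ : Perm GolayPt) * σ = 1 := by
    rw [← h.ρ_mul_κ hu σ, ← h.ρ_mul _ (h.mul_mem_N hu σ) _ (h.mul_mem_N hu σ), e, h.toCoc.ρ_one]
  refine ⟨h1, ?_⟩
  rw [← inv_eq_of_mul_eq_one_right e, mul_inv_rev, inv_eq_of_mul_eq_one_right (κ_sq h1),
    h.toCoc.invV hu]

theorem comm_κ {u : G} (hu : u ∈ h.toCoc.C6) {a : M24} (ha : (a : Perm GolayPt) ∈ E0) :
    u * κ a = κ a * u := h.toCoc.comm_C6 (h.κ_mem a) (by rwa [h.ρ_κ]) hu

/-- The standard elementary abelian subgroup of order `2 ^ 10`. -/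
def A0 : Subgroup G where
  carrier := {g | ∃ u ∈ h.toCoc.C6, ∃ a : M24, (a : Perm GolayPt) ∈ E0 ∧ u * κ a = g}
  one_mem' := ⟨1, one_mem _, 1, one_mem _, by simp⟩
  mul_mem' := by
    rintro _ _ ⟨u, hu, a, ha, rfl⟩ ⟨w, hw, b, hb, rfl⟩
    refine ⟨u * w, mul_mem hu hw, a * b, mul_mem ha hb, ?_⟩
    rw [map_mul, mul_assoc, mul_assoc, ← mul_assoc w, h.comm_κ hw ha, mul_assoc]
  inv_mem' := by
    rintro _ ⟨u, hu, a, ha, rfl⟩
    exact ⟨u⁻¹, inv_mem hu, a⁻¹, inv_mem ha, by rw [map_inv, ← mul_inv_rev, h.comm_κ hu ha]⟩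

theorem mem_A0 {g : G} :
    g ∈ h.A0 ↔ ∃ u ∈ h.toCoc.C6, ∃ a : M24, (a : Perm GolayPt) ∈ E0 ∧ u * κ a = g := Iff.rfl

theorem C6_le_A0 : h.toCoc.C6 ≤ h.A0 := fun u hu => ⟨u, hu, 1, one_mem _, by simp⟩

theorem κ_mem_A0 {a : M24} (ha : (a : Perm GolayPt) ∈ E0) : κ a ∈ h.A0 :=
  ⟨1, one_mem _, a, ha, one_mul _⟩

theorem A0_le : h.A0 ≤ normalizer (V : Set G) := by
  rintro _ ⟨u, hu, a, -, rfl⟩; exact h.mul_mem_N (h.toCoc.C6_le hu) a

theorem ρ_A0 {g : G} (hg : g ∈ h.A0) : ρ g ∈ E0 := by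
  obtain ⟨u, hu, a, ha, rfl⟩ := hg; rwa [h.ρ_mul_κ (h.toCoc.C6_le hu)]

theorem sq_A0 : ∀ g ∈ h.A0, g * g = 1 := by
  rintro _ ⟨u, hu, a, ha, rfl⟩
  rw [mul_assoc, ← mul_assoc (κ a), ← h.comm_κ hu ha, mul_assoc, κ_sq (sq_E0 ha), mul_one,
    h.toCoc.sqV u (h.toCoc.C6_le hu)]

theorem mul_κ_mem_iff {u : G} (hu : u ∈ V) {a : M24} (ha : (a : Perm GolayPt) ∈ E0) :
    u * κ a ∈ h.A0 ↔ u ∈ h.toCoc.C6 := by
  refine ⟨fun ⟨w, hw, b, _, e⟩ => ?_, fun h1 => ⟨u, h1, a, ha, rfl⟩⟩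
  have := congrArg ρ e
  rw [h.ρ_mul_κ hu, h.ρ_mul_κ (h.toCoc.C6_le hw)] at this
  rw [Subtype.ext this, mul_left_inj] at e
  exact e ▸ hw

theorem mem_C6_of {u : G} (hu : u ∈ V) (h1 : u ∈ h.A0) : u ∈ h.toCoc.C6 :=
  (h.mul_κ_mem_iff hu (a := 1) (one_mem _)).1 (by simpa using h1)

theorem A0_inf : h.A0 ⊓ V = h.toCoc.C6 :=
  le_antisymm (fun _ hu => h.mem_C6_of hu.2 hu.1) (le_inf h.C6_le_A0 h.toCoc.C6_le)

theorem d0_mem : v {none, some 0} ∈ h.toCoc.C6 :=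
  h.toCoc.pair_mem_C6 none_mem_o0 zero_mem_o0 (by simp)

theorem conj_pair {p q : GolayPt} (hp : p ∈ o0) (hq : q ∉ o0) {b : M24}
    (hb : (b : Perm GolayPt) ∈ E0) (h1 : (b : Perm GolayPt) ≠ 1) :
    v {p, q} * κ b * (v {p, q})⁻¹ = v {q, (b : Perm GolayPt) q} * κ b := by
  have h2 : p ≠ q := fun e => hq (e ▸ hp)
  have h3 : q ≠ (b : Perm GolayPt) q := fun e => hq (mem_o0_of_fix hb h1 e.symm)
  have h4 : p ≠ (b : Perm GolayPt) q := fun e =>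
    hq ((mem_o0_smul (smul_o0_of_fix (mem_E0.1 hb).2)).1 (e ▸ hp))
  rw [← h.toCoc.v_pair_mul h2 h4 h3, h.toCoc.invV (h.toCoc.v_mem (even_pair h2)), mul_assoc,
    mul_assoc, mul_right_inj, ← mul_inv_eq_iff_eq_mul, h.κ_conj b (even_pair h2), smul_pair,
    (mem_E0.1 hb).2 p hp]

variable [Finite G]

theorem card_A0 : Nat.card h.A0 = 1024 := by
  rw [h.toCoc.card_le _ h.A0_le, h.A0_inf, h.toCoc.card_C6, show 1024 = 64 * 16 from rfl, ← card_E0]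
  congr 3
  ext σ
  rw [h.toCoc.mem_map_hom h.A0_le]
  exact ⟨fun ⟨g, hg, e⟩ => e ▸ h.ρ_A0 hg,
    fun hσ => ⟨κ ⟨σ, (mem_E0.1 hσ).1⟩, h.κ_mem_A0 hσ, h.ρ_κ _⟩⟩

theorem mem_C6_of_cent {u : G} (hu : u ∈ V)
    (e : ∀ a : M24, (a : Perm GolayPt) ∈ E0 → u * κ a = κ a * u) : u ∈ h.toCoc.C6 := by
  obtain ⟨a, ha, h1, -⟩ := exists_third 1
  obtain ⟨b, hb, h2, h3⟩ := exists_third a
  exact h.toCoc.mem_C6_of_comm (h.κ_mem ⟨a, (mem_E0.1 ha).1⟩) (by rwa [h.ρ_κ]) (by rwa [h.ρ_κ])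
    (h.κ_mem ⟨b, (mem_E0.1 hb).1⟩) (by rwa [h.ρ_κ]) (by rwa [h.ρ_κ]) (by rwa [h.ρ_κ, h.ρ_κ]) hu
    (e _ ha) (e _ hb)

theorem cent_A0 : centralizer (h.A0 : Set G) = h.A0 := by
  refine le_antisymm (fun g hg => ?_) fun g hg a ha => comm_of_sq h.sq_A0 ha hg
  have hn := h.cent_duad {none, some 0} (by simp)
    (mem_centralizer_singleton_iff.2 (hg _ (h.C6_le_A0 h.d0_mem)).symm)
  have key : ∀ a ∈ o0, ∀ b ∈ o0, a ≠ b → ρ g a = a ∨ ρ g a = b := fun a ha b hb hab => by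
    have h3 : ρ g a ∈ ρ g • ({a, b} : Finset GolayPt) := apply_mem_perm_smul_finset.2 (by simp)
    rw [h.toCoc.smul_of_comm hn hab (hg _ (h.C6_le_A0 (h.toCoc.pair_mem_C6 ha hb hab)))] at h3
    simpa using h3
  have hE : ρ g ∈ E0 := mem_E0.2 ⟨h.ρ_mem g, fun a ha => by
    obtain ⟨b, hb, hab, d, hd, had, hbd⟩ : ∃ b ∈ o0, a ≠ b ∧ ∃ d ∈ o0, a ≠ d ∧ b ≠ d := by
      revert a; decide +kernel
    exact (key a ha b hb hab).elim id fun e => (key a ha d hd had).elim id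
      fun e' => absurd (e.symm.trans e') hbd⟩
  obtain ⟨u, hu, σ, e, rfl⟩ := h.dec hn
  rw [← e] at hE
  refine (h.mul_κ_mem_iff hu hE).2 (h.mem_C6_of_cent hu fun a ha => ?_)
  have := hg _ (h.κ_mem_A0 ha)
  rwa [mul_assoc, κ_comm (Set0.comm_E0 hE ha), ← mul_assoc, ← mul_assoc, mul_left_inj,
    eq_comm] at this

theorem eq_or {A : Subgroup G} (hA : A ≤ normalizer (V : Set G)) (h2 : ∀ a ∈ A, a * a = 1)
    (hc : Nat.card A = 1024) (hd : v {none, some 0} ∈ A) {n : G} (hn : n ∈ A) (ho : ρ n ∈ E0)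
    (h1 : ρ n ≠ 1) : A = h.A0 ∨ A = MulAut.conj (v {none, some 4}) • h.A0 := by
  obtain ⟨k1, k2⟩ := h.toCoc.image_eq hA h2 hc hd hn ho h1
  have k3 : ∀ b : M24, (b : Perm GolayPt) ∈ E0 → (b : Perm GolayPt) ≠ 1 →
      κ b ∈ A ∨ v {some 4, (b : Perm GolayPt) (some 4)} * κ b ∈ A := fun b hb e => by
    obtain ⟨g, hg, e1⟩ := k2 b hb
    obtain ⟨u, hu, σ, e2, rfl⟩ := h.dec (hA hg)
    obtain rfl : σ = b := Subtype.ext (e2.trans e1)
    rcases (h.toCoc.comm_iff (h.κ_mem σ) (by rwa [h.ρ_κ]) (by rwa [h.ρ_κ]) four_not_mem hu).1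
      (h.comm_of_sq_one hu (h2 _ hg)).2 with h3 | h3
    · exact Or.inl (by simpa using mul_mem (inv_mem (k1 h3)) hg)
    · refine Or.inr ?_
      have := mul_mem (k1 h3) hg
      rwa [h.ρ_κ, h.toCoc.commV hu (h.toCoc.v_mem (even_pair fun e3 => four_not_mem
        (mem_o0_of_fix hb e e3.symm))), mul_assoc, ← mul_assoc u, h.toCoc.sqV u hu, one_mul] at this
  by_cases k4 : ∀ b : M24, (b : Perm GolayPt) ∈ E0 → κ b ∈ A
  · refine Or.inl (eq_of_le_of_card_ge ?_ (by rw [hc, h.card_A0])).symm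
    rintro _ ⟨u, hu, a, ha, rfl⟩
    exact mul_mem (k1 hu) (k4 a ha)
  push Not at k4
  obtain ⟨b, hb, k4⟩ := k4
  have k5 : (b : Perm GolayPt) ≠ 1 := fun e => k4 (by
    rw [show b = 1 from Subtype.ext e, map_one]; exact one_mem _)
  have k6 := (k3 b hb k5).resolve_left k4
  refine Or.inr (eq_of_le_of_card_ge (conj_smul_le_iff.2 ?_)
    (by rw [hc, card_conj_smul, h.card_A0])).symm
  rintro _ ⟨u, hu, a, ha, rfl⟩
  rw [← mul_assoc, h.toCoc.commV (h.toCoc.v_mem (even_pair (by simp))) (h.toCoc.C6_le hu),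
    mul_assoc, mul_assoc, ← mul_assoc (v _)]
  refine mul_mem (k1 hu) ?_
  by_cases e : (a : Perm GolayPt) = 1
  · rw [show a = 1 from Subtype.ext e, map_one, mul_one, mul_inv_cancel]; exact one_mem _
  rw [h.conj_pair none_mem_o0 four_not_mem ha e]
  refine (k3 a ha e).resolve_left fun k7 => ?_
  have k8 := comm_of_sq h2 k6 k7
  rw [mul_assoc, κ_comm (Set0.comm_E0 hb ha), ← mul_assoc, ← mul_assoc, mul_left_inj] at k8
  rcases h.toCoc.eq_of_comm (h.κ_mem a) (by rwa [h.ρ_κ]) four_not_mem (fun e3 => four_not_mem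
    (mem_o0_of_fix hb k5 e3.symm)) k8 with k9 | k9 <;> rw [h.ρ_κ] at k9
  · exact e k9
  · exact k4 (Subtype.ext (eq_of_apply_eq ha hb four_not_mem k9) ▸ k7)

omit h [Finite G] in
theorem conj_le {A : Subgroup G} (hA : A ≤ normalizer (V : Set G)) {n : G}
    (hn : n ∈ normalizer (V : Set G)) : MulAut.conj n • A ≤ normalizer (V : Set G) :=
  conj_smul_le_iff.2 fun _ ha => mul_mem (mul_mem hn (hA ha)) (inv_mem hn)

theorem cls0 {A : Subgroup G} (hA : A ≤ normalizer (V : Set G)) (h2 : ∀ a ∈ A, a * a = 1)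
    (hc : Nat.card A = 1024) (hd : v {none, some 0} ∈ A) (hV : ¬ A ≤ V) :
    ∃ n ∈ normalizer (V : Set G), A = MulAut.conj n • h.A0 := by
  have c := h.toCoc
  have k0 := c.card_le A hA
  set E := (A.subgroupOf (normalizer (V : Set G))).map c.hom
  have hE : ∀ σ, σ ∈ E ↔ ∃ g ∈ A, ρ g = σ := fun σ => c.mem_map_hom hA
  have sqρ : ∀ g ∈ A, ρ g * ρ g = 1 := fun g hg => by
    rw [← c.ρ_mul _ (hA hg) _ (hA hg), h2 g hg, c.ρ_one]
  have k1 := le_two_mul (F := E) (fun σ hσ => by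
    obtain ⟨g, hg, rfl⟩ := (hE σ).1 hσ
    exact mem_D22.2 ⟨c.ρ_mem g, c.smul_of_comm (hA hg) (by simp) (comm_of_sq h2 hd hg)⟩)
    relIndex_M22
  obtain ⟨m, hm, hmV⟩ := SetLike.not_le_iff_exists.1 hV
  have k2 : Nat.card ↥(V ⊓ centralizer ({m} : Set G)) ≤ 128 := by
    have e := orderOf_two (sqρ m hm) fun e => hmV ((c.ρ_eq_one m (hA hm)).1 e)
    by_cases e1 : ∃ a, ρ m a = a
    · exact (c.card_fix_2A (hA hm) e e1.choose_spec).le
    · rw [c.card_fix_2B (hA hm) e (not_exists.1 e1)]; norm_num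
  have k3 := card_le_of_le (show A ⊓ V ≤ V ⊓ centralizer ({m} : Set G) from fun u hu =>
    ⟨hu.2, mem_centralizer_singleton_iff.2 (comm_of_sq h2 hu.1 hm)⟩)
  obtain ⟨a, ha, h1, -⟩ := exists_ne_two (X := Spor.M22 ⊓ E) (by nlinarith) 1
  obtain ⟨g, hg, rfl⟩ := (hE a).1 ha.2
  obtain ⟨o, ho, k4⟩ := exists_octad (c.ρ_mem g) (sqρ g hg) h1 (mem_M22.1 ha.1).2.1
  obtain ⟨σ, e⟩ := Orb.trans_pq_oct (p := none) (q := some 0) (p' := none) (q' := some 0) (by simp)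
    (by simp) ho o0_mem ((Orb.ind2_eq_three.2 ⟨(k4 _).1 (mem_M22.1 ha.1).2.1,
      (k4 _).1 (mem_M22.1 ha.1).2.2⟩).trans (Orb.ind2_eq_three.2 ⟨none_mem_o0, zero_mem_o0⟩).symm)
  simp only [Prod.smul_mk, Prod.mk.injEq] at e
  obtain ⟨⟨e1, e2⟩, e3⟩ := e
  have k5 := h.κ_conj σ (even_pair (show (none : GolayPt) ≠ some 0 by simp))
  rw [smul_pair, show (σ : Perm GolayPt) none = none from e1,
    show (σ : Perm GolayPt) (some 0) = some 0 from e2] at k5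
  have k6 := c.ρ_conj (h.κ_mem σ) (hA hg)
  rw [h.ρ_κ] at k6
  have k7 := h.eq_or (conj_le hA (h.κ_mem σ)) (sq_conj h2 _) (by rw [card_conj_smul, hc])
    (k5 ▸ conj_mem_conj_smul _ hd) (conj_mem_conj_smul _ hg) (mem_E0.2 ⟨c.ρ_mem _, fun p hp => by
      rw [k6, ← e3] at *
      obtain ⟨q, hq, rfl⟩ := Finset.mem_image.1 hp
      simpa [Subgroup.smul_def] using (k4 q).2 hq⟩) (by simpa [k6] using h1)
  rcases k7 with k7 | k7
  · exact ⟨_, inv_mem (h.κ_mem σ), conj_smul_eq_iff.1 k7⟩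
  · exact ⟨_, mul_mem (inv_mem (h.κ_mem σ)) (le_normalizer (c.v_mem (even_pair
      (show (none : GolayPt) ≠ some 4 by simp)))),
      by rw [conj_mul_smul]; exact conj_smul_eq_iff.1 k7⟩

theorem cls {A : Subgroup G} (hA : A ≤ normalizer (V : Set G)) (h2 : ∀ a ∈ A, a * a = 1)
    (hc : Nat.card A = 1024) {D : Finset GolayPt} (hD : D.card = 2) (hd : v D ∈ A) (hV : ¬ A ≤ V) :
    ∃ n ∈ normalizer (V : Set G), A = MulAut.conj n • h.A0 := by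
  obtain ⟨k, hk, e⟩ := h.toCoc.trans (B := {none, some 0}) (by omega : D.card ≤ 5)
    (by rw [hD]; decide) (by simp [hD])
  obtain ⟨n, hn, e1⟩ := h.cls0 (conj_le hA hk) (sq_conj h2 k) (by rw [card_conj_smul, hc])
    (e ▸ conj_mem_conj_smul _ hd) fun h1 => hV fun a ha =>
      (mem_normalizer_iff.1 hk a).2 (h1 (conj_mem_conj_smul _ ha))
  exact ⟨_, mul_mem (inv_mem hk) hn, by rw [conj_mul_smul]; exact conj_smul_eq_iff.1 e1⟩

theorem false_of_E0 {A : Subgroup G} (hA : A ≤ normalizer (V : Set G)) (h2 : ∀ a ∈ A, a * a = 1)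
    (hc : Nat.card A = 1024) (hz : ∀ a ∈ A, a ≠ 1 → IsConj z a) {n : G} (hn : n ∈ A)
    (ho : ρ n ∈ E0) (h1 : ρ n ≠ 1) : False := by
  have c := h.toCoc
  have k0 := c.card_le A hA
  have k1 := card_le_64 (X := (A.subgroupOf (normalizer (V : Set G))).map c.hom)
    (fun σ hσ => by obtain ⟨g, -, rfl⟩ := (c.mem_map_hom hA).1 hσ; exact c.ρ_mem g)
    (fun σ hσ => by
      obtain ⟨g, hg, rfl⟩ := (c.mem_map_hom hA).1 hσ
      rw [← c.ρ_mul _ (hA hg) _ (hA hg), h2 g hg, c.ρ_one])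
    ((c.mem_map_hom hA).2 ⟨n, hn, rfl⟩) ho h1
  obtain ⟨u, hu, σ, e, rfl⟩ := h.dec (hA hn)
  rw [← e] at ho h1
  have k2 := cnt_conj_mul V (κ σ)
  rw [c.card_fix_E0 (h.κ_mem σ) (by rwa [h.ρ_κ]) (by rwa [h.ρ_κ]), c.cardV] at k2
  have k3 : ∀ f ∈ A ⊓ V, ∃ k ∈ V, k * κ σ * k⁻¹ = f * (u * κ σ) := fun f hf => by
    have l1 := mul_mem hf.1 hn
    rw [← mul_assoc] at l1 ⊢
    refine (h.typeA σ (orderOf_two (Subtype.ext (sq_E0 ho)) fun e => h1 (congrArg _ e))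
      ⟨_, (mem_E0.1 ho).2 _ none_mem_o0⟩ _ (mul_mem hf.2 hu)
      (h.comm_of_sq_one (mul_mem hf.2 hu) (h2 _ l1)).2).1 (hz _ l1 fun e => h1 ?_)
    rw [← h.ρ_mul_κ (mul_mem hf.2 hu), e, c.ρ_one]
  have k4 : (fun f => f * (u * κ σ)) '' (A ⊓ V : Subgroup G) = {g | ∃ k ∈ V, k * κ σ * k⁻¹ = g} := by
    refine Set.eq_of_subset_of_ncard_le (by rintro _ ⟨f, hf, rfl⟩; exact k3 f hf) ?_
    rw [Set.ncard_image_of_injective _ (mul_left_injective _), ← Nat.card_coe_set_eq,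
      ← Nat.card_coe_set_eq]
    change cnt (fun g => ∃ k ∈ V, k * κ σ * k⁻¹ = g) ≤ Nat.card ↥(A ⊓ V)
    nlinarith
  obtain ⟨k, hk, e1⟩ := k3 1 (one_mem _)
  have k5 : (none : GolayPt) ≠ some 4 := by simp
  obtain ⟨f, hf, e2⟩ := k4.ge ⟨k * v {none, some 4}, mul_mem hk (c.v_mem (even_pair k5)), rfl⟩
  have k6 : (some 4 : GolayPt) ≠ (σ : Perm GolayPt) (some 4) := fun e =>
    four_not_mem (mem_o0_of_fix ho h1 e.symm)
  have k7 : f = v {some 4, (σ : Perm GolayPt) (some 4)} := by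
    rw [← mul_left_inj (u * κ σ), show f * (u * κ σ) = _ from e2, ← one_mul (u * κ σ), ← e1,
      mul_inv_rev, ← mul_assoc, mul_assoc k, mul_assoc k, h.conj_pair none_mem_o0 four_not_mem ho h1,
      ← mul_assoc, c.commV hk (c.v_mem (even_pair k6))]
    group
  exact h.two _ (Finset.card_pair k6) (k7 ▸ hz f hf.1 (k7 ▸ c.v_ne_one (even_pair k6)
    (by rw [Finset.card_pair k6]; decide) (by rw [Finset.card_pair k6]; decide)))

theorem exists_not_conj {A : Subgroup G} (hA : A ≤ normalizer (V : Set G))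
    (h2 : ∀ a ∈ A, a * a = 1) (hc : Nat.card A = 1024) (hV : ¬ A ≤ V) :
    ∃ a ∈ A, a ≠ 1 ∧ ¬ IsConj z a := by
  have c := h.toCoc
  by_contra hz
  push Not at hz
  have sqρ : ∀ g ∈ A, ρ g * ρ g = 1 := fun g hg => by
    rw [← c.ρ_mul _ (hA hg) _ (hA hg), h2 g hg, c.ρ_one]
  by_cases e : ∃ g ∈ A, ρ g ≠ 1 ∧ ∃ a, ρ g a = a
  · obtain ⟨g, hg, h1, a, ha⟩ := e
    obtain ⟨k, hk, e1⟩ := exists_conj_E0 (c.ρ_mem g) (sqρ g hg) h1 ha
    obtain ⟨n, hn, rfl⟩ := c.ρ_surj k hk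
    have k6 := c.ρ_conj (inv_mem hn) (hA hg)
    refine h.false_of_E0 (conj_le hA (inv_mem hn)) (sq_conj h2 _) (by rw [card_conj_smul, hc])
      (fun b hb hb1 => ?_) (conj_mem_conj_smul _ hg) (by rwa [k6, c.ρ_inv hn, inv_inv])
      (by rw [k6]; simpa using h1)
    obtain ⟨b, hb', rfl⟩ := mem_conj_smul_iff_exists.1 hb
    exact (hz b hb' fun e => hb1 (by simp [e])).trans (isConj_iff.2 ⟨_, rfl⟩)
  push Not at e
  have k0 := c.card_le A hA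
  have k1 := card_le_eight (X := (A.subgroupOf (normalizer (V : Set G))).map c.hom)
    (fun σ hσ => by obtain ⟨g, hg, rfl⟩ := (c.mem_map_hom hA).1 hσ; exact sqρ g hg)
    (fun σ hσ => by obtain ⟨g, hg, rfl⟩ := (c.mem_map_hom hA).1 hσ; exact e g hg)
  obtain ⟨m, hm, hmV⟩ := SetLike.not_le_iff_exists.1 hV
  have h1 : ρ m ≠ 1 := fun e => hmV ((c.ρ_eq_one m (hA hm)).1 e)
  have k2 := c.card_fix_2B (hA hm) (orderOf_two (sqρ m hm) h1) (e m hm h1)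
  have k3 := card_le_of_le (show A ⊓ V ≤ V ⊓ centralizer ({m} : Set G) from fun u hu =>
    ⟨hu.2, mem_centralizer_singleton_iff.2 (comm_of_sq h2 hu.1 hm)⟩)
  nlinarith

omit [Finite G] in
theorem not_le {A : Subgroup G} (hc : Nat.card A = 1024) (hs : centralizer (A : Set G) = A) :
    ¬ A ≤ V := fun hV => by
  have : V = A := le_antisymm (hs ▸ fun u hu a ha => h.toCoc.commV (hV ha) hu) hV
  rw [← this, h.toCoc.cardV] at hc
  norm_num at hc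

omit h [Finite G] in
theorem cent_conj {A : Subgroup G} (hs : centralizer (A : Set G) = A) (g : G) :
    centralizer ((MulAut.conj g • A : Subgroup G) : Set G) = MulAut.conj g • A := by
  rw [← conj_smul_centralizer, hs]

/-- A self-centralizing `E_{2^10}` through a conjugate of a duad. -/
theorem exists_conj_of_mem {A : Subgroup G} (h2 : ∀ a ∈ A, a * a = 1) (hc : Nat.card A = 1024)
    (hs : centralizer (A : Set G) = A) {D : Finset GolayPt} (hD : D.card = 2) {k : G}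
    (hk : k * v D * k⁻¹ ∈ A) : ∃ n ∈ normalizer (V : Set G), A = MulAut.conj (k * n) • h.A0 := by
  have h1 : v D ∈ MulAut.conj k⁻¹ • A := Solv.mem_conj_smul.2 (by rwa [inv_inv])
  have h3 := sq_conj h2 k⁻¹
  have h4 : Nat.card ↥(MulAut.conj k⁻¹ • A) = 1024 := by rw [card_conj_smul, hc]
  obtain ⟨n, hn, e⟩ := h.cls (fun a ha => h.cent_duad D hD
    (mem_centralizer_singleton_iff.2 (comm_of_sq h3 ha h1))) h3 h4 hD h1
    (h.not_le h4 (cent_conj hs _))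
  exact ⟨n, hn, by rw [conj_mul_smul, ← e, conj_smul_conj_inv_smul]⟩

/-- All self-centralizing elementary abelian subgroups of order `2 ^ 10` are conjugate. -/
theorem classify {A : Subgroup G} (h2 : ∀ a ∈ A, a * a = 1) (hc : Nat.card A = 1024)
    (hs : centralizer (A : Set G) = A) : ∃ g : G, A = MulAut.conj g • h.A0 := by
  obtain ⟨g, hg⟩ := h.syl A (isPGroup_of_sq h2)
  have h4 : Nat.card ↥(MulAut.conj g • A) = 1024 := by rw [card_conj_smul, hc]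
  obtain ⟨a, ha, h1, h3⟩ := h.exists_not_conj hg (sq_conj h2 g) h4 (h.not_le h4 (cent_conj hs g))
  obtain ⟨k, hk⟩ := isConj_iff.1 ((h.two_classes a (orderOf_two (sq_conj h2 g a ha) h1)
    {none, some 0} (by simp)).resolve_left h3)
  obtain ⟨n, -, e⟩ := h.exists_conj_of_mem (sq_conj h2 g) h4 (cent_conj hs g) (by simp) (hk ▸ ha)
  exact ⟨g⁻¹ * (k * n), by rw [conj_mul_smul]; exact conj_smul_eq_iff.1 e⟩

end Tw

end Cfsg.Lib.SporChar.J4C
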