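import Cfsg.Agent.SporChar.J4CB

/-! Groups of type `J₄`: the normalizer of `E_{2^10}` and its orbits. -/

set_option autoImplicit false

namespace Cfsg.Lib.SporChar.J4C

open Subgroup Equiv Cfsg.Lib.Spor Cfsg.Lib.Spor.MP Cfsg.Lib.SporChar.J4 Cfsg.Lib.Solv
  Cfsg.Lib.Solv.Count J4B
open scoped Pointwise

variable {G : Type*} [Group G]

theorem card_cent_E0 {a : Perm GolayPt} (ha : a ∈ E0) (h1 : a ≠ 1) :
    Nat.card ↥(M24 ⊓ centralizer {a}) = 21504 := by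
  obtain ⟨k, hk, e⟩ := M24_conj_2A (mem_E0.1 ha).1 (orderOf_two (sq_E0 ha) h1)
    ((mem_E0.1 ha).2 _ none_mem_o0)
  exact isClassList_M24.card_cent_conj (r := (r2A, 2, 21504)) (by rw [reps24_eq]; simp) hk e

theorem eq_of_cnt_le {α : Type*} [Finite α] {P Q : α → Prop} (h : ∀ x, P x → Q x)
    (hc : cnt Q ≤ cnt P) {x : α} (hx : Q x) : P x := by
  by_contra hn
  have h1 := cnt_add Q P
  rw [cnt_congr (Q := P) fun x => ⟨And.right, fun h1 => ⟨h x h1, h1⟩⟩] at h1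
  have : Nonempty {y // Q y ∧ ¬ P y} := ⟨⟨x, hx, hn⟩⟩
  have h2 : 0 < cnt fun y => Q y ∧ ¬ P y := Nat.card_pos
  omega

namespace Tw

variable {z : G} {V : Subgroup G} {v : Finset GolayPt → G} {ρ : G → Perm GolayPt} {κ : M24 →* G}
  (h : Tw z V v ρ κ)
include h

theorem isConj_κ {a : M24} (ha : (a : Perm GolayPt) ∈ E0) (h1 : (a : Perm GolayPt) ≠ 1) {u : G}
    (hu : u ∈ V) (e : u * κ a = κ a * u) :
    IsConj z (u * κ a) ↔ ∃ u' ∈ V, u' * κ a * u'⁻¹ = u * κ a :=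
  h.typeA a (orderOf_two (Subtype.ext (sq_E0 ha)) fun e => h1 (congrArg _ e))
    ⟨_, (mem_E0.1 ha).2 _ none_mem_o0⟩ u hu e

theorem z_κ {a : M24} (ha : (a : Perm GolayPt) ∈ E0) (h1 : (a : Perm GolayPt) ≠ 1) :
    IsConj z (κ a) := by
  simpa using (h.isConj_κ ha h1 (one_mem _) (by simp)).2 ⟨1, one_mem _, by simp⟩

theorem ne_one_of_conj {g : G} (hg : IsConj z g) : g ≠ 1 := fun e => by
  have := h.z2
  rw [e, isConj_one_left] at hg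
  simp [hg] at this

theorem cnt_duads : cnt (fun g => ∃ D ⊆ o0, D.card = 2 ∧ v D = g) = 28 := by
  rw [show 28 = (Finset.powersetCard 2 o0).card by rw [Finset.card_powersetCard, card_o0]; rfl,
    ← Nat.card_eq_finsetCard]
  symm
  refine Nat.card_congr (Equiv.ofBijective (fun D => ⟨v D, D, (Finset.mem_powersetCard.1 D.2).1,
    (Finset.mem_powersetCard.1 D.2).2, rfl⟩) ⟨fun D D' e => Subtype.ext ?_, ?_⟩)
  · have h1 := (Finset.mem_powersetCard.1 D.2).2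
    have h2 := (Finset.mem_powersetCard.1 D'.2).2
    exact h.toCoc.v_inj_small (by rw [h1]; decide) (by rw [h2]; decide) (by omega)
      (congrArg Subtype.val e)
  · rintro ⟨_, D, h1, h2, rfl⟩
    exact ⟨⟨D, Finset.mem_powersetCard.2 ⟨h1, h2⟩⟩, rfl⟩

theorem duad_iff {g : G} : (∃ D ⊆ o0, D.card = 2 ∧ v D = g) ↔
    (g ∈ h.A0 ∧ g ≠ 1 ∧ ¬ IsConj z g) ∧ g ∈ V := by
  constructor
  · rintro ⟨D, h1, h2, rfl⟩
    have h3 : Even D.card := by rw [h2]; decide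
    exact ⟨⟨h.C6_le_A0 ⟨D, h1, h3, rfl⟩, h.toCoc.v_ne_one h3 (by omega) (by omega), h.two D h2⟩,
      h.toCoc.v_mem h3⟩
  · rintro ⟨⟨h1, h2, h3⟩, h4⟩
    rcases h.toCoc.cases h4 with e | ⟨D, e, rfl⟩ | ⟨D, e, rfl⟩
    · exact absurd e h2
    · exact ⟨D, h.toCoc.sub_of_mem_C6 e (h.mem_C6_of h4 h1), e, rfl⟩
    · exact absurd (h.four D e) h3

theorem smul_o0 {n : G} (hn : n ∈ normalizer (h.A0 : Set G) ⊓ normalizer (V : Set G)) :
    ρ n • o0 = o0 := by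
  refine smul_finset_eq_of_forall fun a ha => ?_
  obtain ⟨b, hb, hab⟩ : ∃ b ∈ o0, a ≠ b := by revert a; decide +kernel
  have h1 := conj_mem_of_mem_normalizer hn.1 (h.C6_le_A0 (h.toCoc.pair_mem_C6 ha hb hab))
  rw [h.conj n hn.2 _ (even_pair hab)] at h1
  have h2 : (ρ n • ({a, b} : Finset GolayPt)).card = 2 := by
    rw [card_perm_smul_finset, Finset.card_pair hab]
  exact h.toCoc.sub_of_mem_C6 h2 (h.mem_C6_of (h.toCoc.v_mem (by rw [h2]; decide)) h1)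
    (apply_mem_perm_smul_finset.2 (by simp))

theorem pair_not_mem_N {p q : GolayPt} (hp : p ∈ o0) (hq : q ∉ o0) {a : M24}
    (ha : (a : Perm GolayPt) ∈ E0) (h1 : (a : Perm GolayPt) ≠ 1) :
    v {p, q} * κ a * (v {p, q})⁻¹ ∉ h.A0 := fun hc => by
  have h3 : q ≠ (a : Perm GolayPt) q := fun e => hq (mem_o0_of_fix ha h1 e.symm)
  rw [h.conj_pair hp hq ha h1, h.mul_κ_mem_iff (h.toCoc.v_mem (even_pair h3)) ha] at hc
  exact h.toCoc.pair_not_mem hq h3 hc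

variable [Finite G]

theorem κ_mem_N {σ : M24} (ho : (σ : Perm GolayPt) • o0 = o0) :
    κ σ ∈ normalizer (h.A0 : Set G) := by
  refine mem_normalizer_of_conj_mem ?_
  rintro _ ⟨u, hu, a, ha, rfl⟩
  exact ⟨_, h.toCoc.conj_C6 (h.κ_mem σ) (by rwa [h.ρ_κ]) hu, σ * a * σ⁻¹, conj_mem_E0 σ.2 ho ha,
    by simp [mul_assoc]⟩

theorem pair_mem_N {p q : GolayPt} (hp : p ∉ o0) (hq : q ∉ o0) (hpq : p ≠ q) :
    v {p, q} ∈ normalizer (h.A0 : Set G) := by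
  have c := h.toCoc
  refine mem_normalizer_of_conj_mem ?_
  rintro _ ⟨u, hu, a, ha, rfl⟩
  have e : v {p, q} * (u * κ a) * (v {p, q})⁻¹ = u * (v {p, q} * (κ a * v {p, q} * (κ a)⁻¹)) * κ a := by
    rw [c.invV (c.v_mem (even_pair hpq)), ← mul_assoc, c.commV (c.v_mem (even_pair hpq))
      (h.toCoc.C6_le hu)]
    group
  refine ⟨_, mul_mem hu ?_, a, ha, e.symm⟩
  rw [h.κ_conj a (even_pair hpq), smul_pair]
  by_cases h1 : (a : Perm GolayPt) = 1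
  · rw [h1, Perm.one_apply, Perm.one_apply, c.v_sq]; exact one_mem _
  have h2 : p ≠ (a : Perm GolayPt) p := fun e => hp (mem_o0_of_fix ha h1 e.symm)
  have h3 : q ≠ (a : Perm GolayPt) q := fun e => hq (mem_o0_of_fix ha h1 e.symm)
  have h4 : (a : Perm GolayPt) p ≠ (a : Perm GolayPt) q := fun e => hpq (by simpa using e)
  have h5 := c.comm_pair (h.κ_mem a) (by rw [h.ρ_κ]; exact sq_E0 ha) (p := q) (by rwa [h.ρ_κ])
  have h6 := (h.toCoc.comm_iff (h.κ_mem a) (by rwa [h.ρ_κ]) (by rwa [h.ρ_κ]) hp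
    (c.v_mem (even_pair (by rwa [h.ρ_κ])))).1 h5
  rw [h.ρ_κ] at h6
  have h7 := h6.resolve_left (h.toCoc.pair_not_mem hq h3)
  rw [← c.mul] at h7 ⊢
  convert h7 using 2
  ext x
  simp only [Finset.mem_symmDiff, Finset.mem_insert, Finset.mem_singleton]
  grind

omit [Finite G] in
theorem v_mem_of {W : Subgroup G} (k1 : h.toCoc.C6 ≤ W)
    (k2 : ∀ p ∉ o0, ∀ q ∉ o0, p ≠ q → v {p, q} ∈ W) {S : Finset GolayPt} (he : Even S.card)
    (h1 : Even (S ∩ o0).card) : v S ∈ W := by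
  have e : S = symmDiff (S ∩ o0) (S \ o0) := by
    ext x
    simp only [Finset.mem_symmDiff, Finset.mem_inter, Finset.mem_sdiff]
    tauto
  rw [e, even_symmDiff] at he
  rw [e, h.mul]
  exact mul_mem (k1 ⟨_, Finset.inter_subset_right, h1, rfl⟩)
    (h.toCoc.v_mem_of_pairs (Ω := o0ᶜ) (fun a ha b hb => k2 a (Finset.mem_compl.1 ha) b
      (Finset.mem_compl.1 hb)) (fun x hx => Finset.mem_compl.2 (Finset.mem_sdiff.1 hx).2) (he.1 h1))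

omit [Finite G] in
theorem mem_or {W : Subgroup G} (k1 : h.toCoc.C6 ≤ W)
    (k2 : ∀ p ∉ o0, ∀ q ∉ o0, p ≠ q → v {p, q} ∈ W) {u : G} (hu : u ∈ V) :
    u * v {none, some 4} ∈ W ∨ u ∈ W := by
  obtain ⟨S, he, rfl⟩ := (h.mem u).1 hu
  refine or_iff_not_imp_right.2 fun h1 => ?_
  rw [← h.mul]
  refine h.v_mem_of k1 k2 (even_symmDiff.2 ⟨fun _ => even_pair (by simp), fun _ => he⟩) ?_
  rw [show symmDiff S {none, some 4} ∩ o0 = symmDiff (S ∩ o0) ({none, some 4} ∩ o0) from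
    inf_symmDiff_distrib_right _ _ _, even_symmDiff]
  exact iff_of_false (fun h2 => h1 (h.v_mem_of k1 k2 he h2)) (by decide +kernel)

theorem mem_N_or {u : G} (hu : u ∈ V) : u * v {none, some 4} ∈ normalizer (h.A0 : Set G) ∨
    u ∈ normalizer (h.A0 : Set G) :=
  h.mem_or (h.C6_le_A0.trans le_normalizer) (fun _ hp _ hq => h.pair_mem_N hp hq) hu

omit [Finite G] in
theorem w_not_mem : v {none, some 4} ∉ normalizer (h.A0 : Set G) := fun hc => by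
  obtain ⟨a, ha, h2, -⟩ := exists_third 1
  exact h.pair_not_mem_N none_mem_o0 four_not_mem (a := ⟨a, (mem_E0.1 ha).1⟩) ha h2
    (conj_mem_of_mem_normalizer hc (h.κ_mem_A0 ha))

theorem card_V10 : Nat.card ↥(normalizer (h.A0 : Set G) ⊓ V) = 1024 := by
  have h1 := card_inf_mul_relIndex (normalizer (h.A0 : Set G)) V
  rw [relIndex_eq_two_iff_exists_notMem_and.2 ⟨_, h.toCoc.v_mem (even_pair (by simp)),
    h.w_not_mem, fun u hu => h.mem_N_or hu⟩, h.toCoc.cardV] at h1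
  omega

theorem card_N0 : Nat.card ↥(normalizer (h.A0 : Set G) ⊓ normalizer (V : Set G)) =
    1024 * 322560 := by
  rw [h.toCoc.card_le _ inf_le_right, inf_assoc, inf_eq_right.2 (le_normalizer (H := V)),
    h.card_V10, ← card_octad_stabilizer o0_mem]
  congr 3
  ext σ
  rw [h.toCoc.mem_map_hom inf_le_right]
  exact ⟨fun ⟨g, hg, e⟩ => e ▸ ⟨h.ρ_mem g, h.smul_o0 hg⟩, fun hσ =>
    ⟨κ ⟨σ, hσ.1⟩, ⟨h.κ_mem_N hσ.2, h.κ_mem _⟩, h.ρ_κ _⟩⟩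

theorem trans_sub {S T : Finset GolayPt} (hS : S ⊆ o0) (hT : T ⊆ o0) (h5 : S.card ≤ 5)
    (he : Even S.card) (e : S.card = T.card) :
    ∃ n ∈ normalizer (h.A0 : Set G) ⊓ normalizer (V : Set G), n * v S * n⁻¹ = v T := by
  obtain ⟨σ, hσ, h1, rfl⟩ := J4C.trans_sub hS hT h5 e
  exact ⟨κ ⟨σ, hσ⟩, ⟨h.κ_mem_N h1, h.κ_mem _⟩, h.κ_conj _ he⟩

theorem conj0_iff {g : G} : (∃ n ∈ normalizer (h.A0 : Set G) ⊓ normalizer (V : Set G),
    n * v {none, some 0} * n⁻¹ = g) ↔ ∃ D ⊆ o0, D.card = 2 ∧ v D = g := by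
  have h0 : ({none, some 0} : Finset GolayPt) ⊆ o0 := by decide +kernel
  constructor
  · rintro ⟨n, hn, rfl⟩
    exact ⟨_, h.smul_o0 hn ▸ perm_smul_finset_subset_iff.2 h0, by
      rw [card_perm_smul_finset]; simp, (h.conj n hn.2 _ (even_pair (by simp))).symm⟩
  · rintro ⟨D, h1, h2, rfl⟩
    exact h.trans_sub h0 h1 (by simp) (even_pair (by simp)) (by simp [h2])

theorem conjT_iff {g : G} : (∃ n ∈ normalizer (h.A0 : Set G), n * v {none, some 0} * n⁻¹ = g) ↔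
    g ∈ h.A0 ∧ g ≠ 1 ∧ ¬ IsConj z g := by
  have key : ∀ n ∈ normalizer (h.A0 : Set G), ∀ g, g ∈ h.A0 ∧ g ≠ 1 ∧ ¬ IsConj z g →
      n * g * n⁻¹ ∈ h.A0 ∧ n * g * n⁻¹ ≠ 1 ∧ ¬ IsConj z (n * g * n⁻¹) := fun n hn g hg =>
    ⟨conj_mem_of_mem_normalizer hn hg.1, by simpa using hg.2.1,
      fun hc => hg.2.2 (hc.trans (isConj_iff.2 ⟨n, rfl⟩).symm)⟩
  constructor
  · rintro ⟨n, hn, rfl⟩
    exact key n hn _ (h.duad_iff.1 (h.conj0_iff.1 ⟨1, one_mem _, by simp⟩)).1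
  · intro hg
    obtain ⟨k, rfl⟩ := isConj_iff.1 ((h.two_classes g (orderOf_two (h.sq_A0 g hg.1) hg.2.1)
      {none, some 0} (by simp)).resolve_left hg.2.2)
    obtain ⟨n, hn, e⟩ := h.exists_conj_of_mem h.sq_A0 h.card_A0 h.cent_A0 (by simp) hg.1
    have h1 := mem_normalizer_iff_conj_smul_eq.2 e.symm
    obtain ⟨m, hm, e1⟩ := h.conj0_iff.2 (h.duad_iff.2 ⟨key _ (inv_mem h1) _ hg, by
      have := inv_conj_mem_of_mem_normalizer hn (h.toCoc.C6_le h.d0_mem)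
      convert this using 1
      group⟩)
    refine ⟨k * n * m, mul_mem h1 hm.1, ?_⟩
    calc _ = k * n * (m * v {none, some 0} * m⁻¹) * (k * n)⁻¹ := by group
      _ = _ := by rw [e1]; group

theorem cent_le_N {n : G} (hn : n ∈ h.A0) (h1 : n ∉ V) :
    V ⊓ centralizer ({n} : Set G) ≤ normalizer (h.A0 : Set G) := by
  have h2 : ρ n ≠ 1 := fun e => h1 ((h.ρ_eq_one n (h.A0_le hn)).1 e)
  rw [← (h.toCoc.cent_eq (h.A0_le hn) (h.ρ_A0 hn) h2 four_not_mem).2]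
  exact sup_le (h.C6_le_A0.trans le_normalizer) (zpowers_le.2 (h.pair_mem_N four_not_mem
    ((mem_o0_smul (smul_o0_of_fix (mem_E0.1 (h.ρ_A0 hn)).2)).not.2 four_not_mem)
    fun e => four_not_mem (mem_o0_of_fix (h.ρ_A0 hn) h2 e.symm)))

theorem cnt_V10 {n : G} (hn : n ∈ h.A0) (h1 : n ∉ V) :
    cnt (fun g => ∃ k ∈ normalizer (h.A0 : Set G) ⊓ V, k * n * k⁻¹ = g) = 8 := by
  have h2 := cnt_conj_mul (normalizer (h.A0 : Set G) ⊓ V) n
  rw [inf_assoc, inf_eq_right.2 (h.cent_le_N hn h1), h.card_V10, h.toCoc.card_fix_E0 (h.A0_le hn)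
    (h.ρ_A0 hn) fun e => h1 ((h.ρ_eq_one n (h.A0_le hn)).1 e)] at h2
  omega

theorem conjZ_iff {a : M24} (ha : (a : Perm GolayPt) ∈ E0) (h1 : (a : Perm GolayPt) ≠ 1) {g : G} :
    (∃ k ∈ normalizer (h.A0 : Set G) ⊓ V, k * κ a * k⁻¹ = g) ↔
      (g ∈ h.A0 ∧ IsConj z g) ∧ ρ g = a := by
  constructor
  · rintro ⟨k, hk, rfl⟩
    exact ⟨⟨conj_mem_of_mem_normalizer hk.1 (h.κ_mem_A0 ha), (h.z_κ ha h1).trans
      (isConj_iff.2 ⟨k, rfl⟩)⟩, by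
        rw [h.toCoc.ρ_conj (le_normalizer hk.2) (h.κ_mem a), h.toCoc.ρ_V hk.2, h.ρ_κ]; simp⟩
  · rintro ⟨⟨⟨u, hu, b, hb, rfl⟩, h2⟩, h3⟩
    rw [h.ρ_mul_κ (h.toCoc.C6_le hu)] at h3
    obtain rfl : b = a := Subtype.ext h3
    obtain ⟨k, hk, e⟩ := (h.isConj_κ ha h1 (h.toCoc.C6_le hu) (h.comm_κ hu ha)).1 h2
    refine ⟨k, ⟨(h.mem_N_or hk).resolve_left fun h4 => ?_, hk⟩, e⟩
    have h5 := h.toCoc.v_mem (even_pair (show (none : GolayPt) ≠ some 4 by simp))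
    refine h.pair_not_mem_N none_mem_o0 four_not_mem ha h1 ?_
    have h6 := inv_conj_mem_of_mem_normalizer h4 (e ▸ ⟨u, hu, b, hb, rfl⟩ : k * κ b * k⁻¹ ∈ h.A0)
    convert h6 using 1
    rw [mul_inv_rev, h.toCoc.invV h5]
    group

theorem cnt_types : cnt (fun g => g ∈ h.A0 ∧ IsConj z g) = 155 ∧
    cnt (fun g => g ∈ h.A0 ∧ g ≠ 1 ∧ ¬ IsConj z g) = 868 ∧
    cnt (fun g => (g ∈ h.A0 ∧ g ≠ 1 ∧ ¬ IsConj z g) ∧ g ∉ V) = 840 := by
  have split : ∀ W : Subgroup G, Nat.card W = cnt (fun g => g ∈ W ∧ IsConj z g) +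
      cnt (fun g => g ∈ W ∧ g ≠ 1 ∧ ¬ IsConj z g) + 1 := fun W => by
    have h1 := cnt_add (· ∈ W) (IsConj z)
    have h2 := cnt_add (fun g => g ∈ W ∧ ¬ IsConj z g) (· ≠ 1)
    rw [cnt_eq_one (P := fun g => (g ∈ W ∧ ¬ IsConj z g) ∧ ¬ g ≠ 1) (a := 1)
      ⟨⟨one_mem _, fun hc => h.ne_one_of_conj hc rfl⟩, by simp⟩ fun g hg => not_not.1 hg.2,
      cnt_congr (P := fun x => (x ∈ W ∧ ¬ IsConj z x) ∧ x ≠ 1)
        (Q := fun g => g ∈ W ∧ g ≠ 1 ∧ ¬ IsConj z g) (fun g => by tauto)] at h2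
    change Nat.card W = _ at h1
    omega
  have h1 := split h.A0
  have h2 := split (h.A0 ⊓ V)
  have h3 := (cnt_congr fun g => h.duad_iff (g := g)).symm.trans h.cnt_duads
  rw [cnt_congr (P := fun g => g ∈ h.A0 ⊓ V ∧ g ≠ 1 ∧ ¬ IsConj z g)
      (Q := fun g => (g ∈ h.A0 ∧ g ≠ 1 ∧ ¬ IsConj z g) ∧ g ∈ V) (fun g => by
      rw [mem_inf]; tauto), h3, cnt_congr (P := fun g => g ∈ h.A0 ⊓ V ∧ IsConj z g)
      (Q := fun g => (g ∈ h.A0 ∧ IsConj z g) ∧ g ∈ V) (fun g => by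
      rw [mem_inf]; tauto), h.A0_inf, h.toCoc.card_C6] at h2
  have h4 := cnt_add (fun g => g ∈ h.A0 ∧ IsConj z g) (· ∈ V)
  have h5 := cnt_add (fun g => g ∈ h.A0 ∧ g ≠ 1 ∧ ¬ IsConj z g) (· ∈ V)
  have h6 := cnt_mul_eq_cnt_mul (fun g => (g ∈ h.A0 ∧ IsConj z g) ∧ g ∉ V)
    (fun a => a ∈ E0 ∧ a ≠ 1) (fun g a => ρ g = a) (c := 1) (d := 8)
    (fun g hg => cnt_eq_one (a := ρ g) ⟨⟨h.ρ_A0 hg.1.1, fun e => hg.2
      ((h.ρ_eq_one g (h.A0_le hg.1.1)).1 e)⟩, rfl⟩ fun a ha => ha.2.symm) fun a ha => by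
      rw [← h.cnt_V10 (h.κ_mem_A0 (a := ⟨a, (mem_E0.1 ha.1).1⟩) ha.1) fun hc => ha.2
        ((h.ρ_κ ⟨a, _⟩).symm.trans (h.toCoc.ρ_V hc))]
      refine cnt_congr fun g => ?_
      rw [h.conjZ_iff ha.1 ha.2]
      exact ⟨fun hg => ⟨hg.1.1, hg.2⟩, fun hg => ⟨⟨hg.1, fun hc => ha.2
        (hg.2.symm.trans (h.toCoc.ρ_V hc))⟩, hg.2⟩⟩
  have h7 := cnt_add (· ∈ E0) (· ≠ 1)
  rw [cnt_eq_one (P := fun a => a ∈ E0 ∧ ¬ a ≠ 1) (a := 1) ⟨one_mem _, by simp⟩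
    fun g hg => not_not.1 hg.2, show cnt (· ∈ E0) = 16 from card_E0] at h7
  rw [h.card_A0] at h1
  omega

omit [Finite G] in
theorem cent_d0 : normalizer (h.A0 : Set G) ⊓ normalizer (V : Set G) ⊓
    centralizer ({v {none, some 0}} : Set G) =
    normalizer (h.A0 : Set G) ⊓ centralizer ({v {none, some 0}} : Set G) := by
  rw [inf_assoc, inf_eq_right.2 (h.cent_duad _ (by simp))]

theorem card_N : Nat.card (normalizer (h.A0 : Set G)) = 1024 * 9999360 := by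
  have h1 := cnt_conj_mul (normalizer (h.A0 : Set G)) (v {none, some 0})
  have h2 := cnt_conj_mul (normalizer (h.A0 : Set G) ⊓ normalizer (V : Set G)) (v {none, some 0})
  rw [cnt_congr fun g => h.conjT_iff, h.cnt_types.2.1] at h1
  rw [cnt_congr fun g => h.conj0_iff, h.cnt_duads, h.cent_d0, h.card_N0] at h2
  omega

theorem conj_not_mem {n : G} (hn : n ∈ normalizer (h.A0 : Set G)) (h1 : n ∉ normalizer (V : Set G)) :
    n * v {none, some 0} * n⁻¹ ∉ V := fun hc => by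
  obtain ⟨m, hm, e⟩ := h.conj0_iff.2 (h.duad_iff.2 ⟨h.conjT_iff.1 ⟨n, hn, rfl⟩, hc⟩)
  have : m⁻¹ * n ∈ normalizer (V : Set G) := h.cent_duad {none, some 0} (by simp)
    (mem_centralizer_singleton_iff.2 (by
      calc _ = m⁻¹ * (n * v {none, some 0} * n⁻¹) * n := by group
        _ = _ := by rw [← e]; group))
  exact h1 (by simpa using mul_mem hm.2 this)

theorem trans_T {t t' : G} (ht : (t ∈ h.A0 ∧ t ≠ 1 ∧ ¬ IsConj z t) ∧ t ∉ V)
    (ht' : (t' ∈ h.A0 ∧ t' ≠ 1 ∧ ¬ IsConj z t') ∧ t' ∉ V) :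
    ∃ m ∈ normalizer (h.A0 : Set G) ⊓ normalizer (V : Set G), m * t * m⁻¹ = t' := by
  have c := h.toCoc
  set N := normalizer (h.A0 : Set G)
  have hn := h.A0_le ht.1.1
  have ho := h.ρ_A0 ht.1.1
  have h0 : ρ t ≠ 1 := fun e => ht.2 ((h.ρ_eq_one t hn).1 e)
  have h1 := cnt_conj_mul N t
  have h2 := cnt_conj_mul (N ⊓ normalizer (V : Set G)) t
  obtain ⟨n, hnN, e⟩ := h.conjT_iff.2 ht.1
  rw [cnt_congr (Q := fun g => ∃ k ∈ N, k * v {none, some 0} * k⁻¹ = g) (fun g =>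
    ⟨fun ⟨k, hk, e1⟩ => ⟨k * n, mul_mem hk hnN, by rw [← e1, ← e]; group⟩,
      fun ⟨k, hk, e1⟩ => ⟨k * n⁻¹, mul_mem hk (inv_mem hnN), by rw [← e1, ← e]; group⟩⟩),
    cnt_congr fun g => h.conjT_iff, h.cnt_types.2.1, h.card_N] at h1
  have h3 := card_dvd_of_le (inf_le_inf_right (centralizer ({t} : Set G))
    (inf_le_left : N ⊓ normalizer (V : Set G) ≤ N))
  rw [show Nat.card ↥(N ⊓ centralizer ({t} : Set G)) = 11796480 by omega] at h3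
  have h4 : Nat.card ↥(N ⊓ normalizer (V : Set G) ⊓ centralizer ({t} : Set G)) ∣ 128 * 21504 := by
    rw [c.card_le _ (inf_le_left.trans inf_le_right), ← c.card_fix_E0 hn ho h0,
      ← card_cent_E0 ho h0]
    refine mul_dvd_mul (card_dvd_of_le fun u hu => ⟨hu.2, hu.1.2⟩) (card_dvd_of_le fun σ hσ => ?_)
    obtain ⟨k, hk, rfl⟩ := (c.mem_map_hom (inf_le_left.trans inf_le_right)).1 hσ
    refine ⟨c.ρ_mem k, mem_centralizer_singleton_iff.2 ?_⟩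
    rw [← c.ρ_mul _ hk.1.2 _ hn, ← c.ρ_mul _ hn _ hk.1.2, mem_centralizer_singleton_iff.1 hk.2]
  have h5 := Nat.le_of_dvd (by norm_num) (Nat.dvd_gcd h3 h4)
  rw [h.card_N0] at h2
  refine eq_of_cnt_le (P := fun g => ∃ m ∈ N ⊓ normalizer (V : Set G), m * t * m⁻¹ = g)
    (Q := fun g => (g ∈ h.A0 ∧ g ≠ 1 ∧ ¬ IsConj z g) ∧ g ∉ V) ?_ ?_ ht'
  · rintro _ ⟨m, hm, rfl⟩
    exact ⟨h.conjT_iff.1 ⟨m * n, mul_mem hm.1 hnN, by rw [← e]; group⟩,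
      fun hc => ht.2 ((mem_normalizer_iff.1 hm.2 t).2 hc)⟩
  · rw [h.cnt_types.2.2]
    rw [show Nat.gcd 11796480 (128 * 21504) = 393216 by norm_num] at h5
    nlinarith

theorem exists_not_mem : ∃ n ∈ normalizer (h.A0 : Set G), n * v {none, some 0} * n⁻¹ ∉ V := by
  obtain ⟨t, ht, h1⟩ := exists_of_cnt_ne_zero (by rw [h.cnt_types.2.2]; norm_num : cnt (fun g =>
    (g ∈ h.A0 ∧ g ≠ 1 ∧ ¬ IsConj z g) ∧ g ∉ V) ≠ 0)
  obtain ⟨n, hn, rfl⟩ := h.conjT_iff.2 ht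
  exact ⟨n, hn, h1⟩

omit [Finite G] in
theorem d0_eq : v {none, some 0} = v {none, some 1, some 2, some 3} * v {some 0, some 1, some 2, some 3} := by
  rw [← h.mul]; exact congrArg v (by decide +kernel)

theorem trans_Z {a : M24} (ha : (a : Perm GolayPt) ∈ E0) (h1 : (a : Perm GolayPt) ≠ 1) {g : G} :
    (∃ n ∈ normalizer (h.A0 : Set G), n * κ a * n⁻¹ = g) ↔ g ∈ h.A0 ∧ IsConj z g := by
  have k1 : ∀ g, g ∈ h.A0 ∧ IsConj z g → g ∉ V →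
      ∃ n ∈ normalizer (h.A0 : Set G), n * κ a * n⁻¹ = g := fun g hg h2 => by
    have h3 : ρ g ≠ 1 := fun e => h2 ((h.ρ_eq_one g (h.A0_le hg.1)).1 e)
    obtain ⟨k, hk, e⟩ := (h.conjZ_iff (a := ⟨ρ g, h.ρ_mem g⟩) (h.ρ_A0 hg.1) h3).2 ⟨hg, rfl⟩
    obtain ⟨σ, hσ, h4, e1⟩ := trans_E0 ha (h.ρ_A0 hg.1) h1 h3
    refine ⟨k * κ ⟨σ, M22_le hσ⟩, mul_mem hk.1 (h.κ_mem_N h4), ?_⟩
    rw [← e, show (⟨ρ g, h.ρ_mem g⟩ : M24) = ⟨σ, M22_le hσ⟩ * a * ⟨σ, M22_le hσ⟩⁻¹ from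
      Subtype.ext e1.symm]
    simp [mul_assoc]
  refine ⟨fun ⟨n, hn, e⟩ => e ▸ ⟨conj_mem_of_mem_normalizer hn (h.κ_mem_A0 ha),
    (h.z_κ ha h1).trans (isConj_iff.2 ⟨n, rfl⟩)⟩, fun hg => ?_⟩
  by_cases h2 : g ∈ V
  swap
  · exact k1 g hg h2
  obtain ⟨n, hn, h3⟩ := h.exists_not_mem
  obtain ⟨S, hS, h4, h5⟩ : ∃ S ⊆ o0, S.card = 4 ∧ n * v S * n⁻¹ ∉ V := by
    by_contra hc
    push Not at hc
    refine h3 ?_
    have := mul_mem (hc {none, some 1, some 2, some 3} (by decide +kernel) (by decide +kernel))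
      (hc {some 0, some 1, some 2, some 3} (by decide +kernel) (by decide +kernel))
    rw [h.d0_eq]
    convert this using 1
    group
  obtain ⟨T, hT, h6, rfl⟩ : ∃ T ⊆ o0, T.card = 4 ∧ v T = g := by
    obtain ⟨T, hT, h6, rfl⟩ := h.mem_C6_of h2 hg.1
    have h7 := Finset.card_le_card hT
    have h8 : v (o0 \ T) = v T := by
      refine (h.toCoc.v_eq_iff ?_ h6).2 ?_
      · rw [Finset.card_sdiff_of_subset hT, card_o0] at *
        rw [Nat.even_iff] at *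
        omega
      · rw [Disjoint.symmDiff_eq_sup Finset.sdiff_disjoint, Finset.sup_eq_union,
          Finset.sdiff_union_of_subset hT]
        exact (mem_octads_iff'.1 o0_mem).1
    have h9 := Finset.card_sdiff_of_subset hT
    rw [card_o0] at h7 h9
    have h10 : T.card ≠ 0 := fun e => h.ne_one_of_conj hg.2 (by
      rw [Finset.card_eq_zero.1 e, h.toCoc.v_empty])
    have h11 : (o0 \ T).card ≠ 0 := fun e => h.ne_one_of_conj hg.2 (by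
      rw [← h8, Finset.card_eq_zero.1 e, h.toCoc.v_empty])
    have h12 : T.card ≠ 2 := fun e => h.two T e hg.2
    have h13 : (o0 \ T).card ≠ 2 := fun e => h.two _ e (h8 ▸ hg.2)
    exact ⟨T, hT, by rw [Nat.even_iff] at h6; omega, rfl⟩
  have h7 : Even S.card := by rw [h4]; decide
  obtain ⟨m, hm, e⟩ := h.trans_sub hS hT (by omega) h7 (by omega)
  obtain ⟨k, hk, e1⟩ := k1 _ ⟨conj_mem_of_mem_normalizer hn (h.C6_le_A0 ⟨S, hS, h7, rfl⟩),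
    (h.four S h4).trans (isConj_iff.2 ⟨n, rfl⟩)⟩ h5
  refine ⟨m * n⁻¹ * k, mul_mem (mul_mem hm.1 (inv_mem hn)) hk, ?_⟩
  calc _ = m * n⁻¹ * (k * κ a * k⁻¹) * n * m⁻¹ := by group
    _ = _ := by rw [e1, ← e]; group

/-- The normalizer acts irreducibly. -/
theorem irred {W : Subgroup G} (hW : W ≤ h.A0)
    (hn : normalizer (h.A0 : Set G) ≤ normalizer (W : Set G)) : W = ⊥ ∨ W = h.A0 := by
  refine or_iff_not_imp_left.2 fun h0 => ?_
  obtain ⟨⟨g, hg⟩, h1⟩ := ne_bot_iff_exists_ne_one.1 h0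
  have h2 : v {none, some 0} ∈ W := by
    by_cases h3 : IsConj z g
    · obtain ⟨a, ha, h4, -⟩ := exists_third 1
      have h5 : ∀ S ⊆ o0, S.card = 4 → v S ∈ W := fun S hS e => by
        obtain ⟨n, hnN, e1⟩ := (h.trans_Z (a := ⟨a, (mem_E0.1 ha).1⟩) ha h4).2 ⟨hW hg, h3⟩
        obtain ⟨m, hm, e2⟩ := (h.trans_Z (a := ⟨a, (mem_E0.1 ha).1⟩) ha h4).2
          ⟨h.C6_le_A0 ⟨S, hS, by rw [e]; decide, rfl⟩, h.four S e⟩
        exact e2 ▸ conj_mem_of_mem_normalizer (hn hm) ((mem_normalizer_iff.1 (hn hnN) _).2 (e1 ▸ hg))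
      rw [h.d0_eq]
      exact mul_mem (h5 _ (by decide +kernel) (by decide +kernel))
        (h5 _ (by decide +kernel) (by decide +kernel))
    · obtain ⟨n, hnN, e⟩ := h.conjT_iff.2 ⟨hW hg, fun e => h1 (Subtype.ext e), h3⟩
      exact (mem_normalizer_iff.1 (hn hnN) _).2 (e ▸ hg)
  have h3 := cnt_le (P := fun g => g ∈ h.A0 ∧ g ≠ 1 ∧ ¬ IsConj z g) (Q := (· ∈ W)) fun g hg => by
    obtain ⟨n, hnN, rfl⟩ := h.conjT_iff.2 hg
    exact conj_mem_of_mem_normalizer (hn hnN) h2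
  by_contra hne
  have h4 := two_mul_le_of_lt (lt_of_le_of_ne hW hne)
  rw [h.cnt_types.2.1] at h3
  change _ ≤ Nat.card W at h3
  rw [h.card_A0] at h4
  omega

end Tw

end Cfsg.Lib.SporChar.J4C
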