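import Cfsg.Agent.SporChar.J4CC
import Cfsg.Agent.Perm.ONanCore
import Cfsg.Agent.S0051
import Cfsg.Agent.S0243
import Cfsg.Agent.Class.FieldIso

/-! Groups of type `J₄`: the normalizer of `E_{2^10}` is `2^10:L₅(2)`. -/

set_option autoImplicit false

namespace Cfsg.Lib.SporChar.J4C

open Subgroup Equiv Cfsg.Lib.Spor Cfsg.Lib.Spor.MP Cfsg.Lib.SporChar.J4 Cfsg.Lib.Solv
  Cfsg.Lib.Solv.Count J4B MulAction
open scoped Pointwise

variable {G : Type*} [Group G]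

theorem dvd_cnt_conj [Finite G] (K : Subgroup G) {P : G → Prop}
    (hP : ∀ k ∈ K, ∀ g, P g → P (k * g * k⁻¹)) {n : ℕ}
    (h : ∀ g, P g → n ∣ cnt fun y => ∃ k ∈ K, k * g * k⁻¹ = y) : n ∣ cnt P := by
  let _ : MulAction K G := MulAction.compHom G ((MulAut.conj (G := G)).comp K.subtype)
  refine dvd_cnt_of_dvd_index_stabilizer (A := K) P (fun k g hg => hP k k.2 g hg) fun g hg => ?_
  rw [index_stabilizer, ← Nat.card_coe_set_eq]
  convert h g hg using 1
  exact Nat.card_congr (Equiv.subtypeEquivRight fun y =>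
    ⟨fun ⟨k, e⟩ => ⟨k, k.2, e⟩, fun ⟨k, hk, e⟩ => ⟨⟨k, hk⟩, e⟩⟩)

theorem psl_equiv_sl {F : Type*} [Field F] [Fintype F] (hF : Fintype.card F = 2) {n : ℕ}
    (hn : 2 ≤ n) : Nonempty (Matrix.ProjectiveSpecialLinearGroup (Fin n) F ≃*
      Matrix.SpecialLinearGroup (Fin n) (ZMod 2)) := by
  have h1 := Cfsg.Agent.S0243.result (F := ZMod 2) (q := 2) (by simp) n hn
  have h2 := Cfsg.Agent.S0242.result (F := ZMod 2) (q := 2) (by simp) n (by omega)
  refine ⟨(Class.pslEquiv _ (ZMod.ringEquivOfPrime F Nat.prime_two hF).symm).trans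
    (MulEquiv.ofBijective (QuotientGroup.mk' _) ((Nat.bijective_iff_surjective_and_card _).2
      ⟨QuotientGroup.mk'_surjective _, ?_⟩)).symm⟩
  rw [← h2] at h1
  simpa using h1.symm

theorem equiv_SL5 {N : Type*} [Group N] [Finite N] {N0 A K B : Subgroup N} [A.Normal]
    (hA : A ≤ N0) (hi : N0.index = 31) (hB : IsComplement' A B) (hc : Nat.card B = 9999360)
    (h2 : ∀ n ∉ N0, ∀ n' ∉ N0, ∃ m ∈ N0, n'⁻¹ * m * n ∈ N0) (hK : K ≤ N0)
    (hKn : ∀ m ∈ N0, ∀ k ∈ K, m * k * m⁻¹ ∈ K) (hKc : ∀ a ∈ K, ∀ b ∈ K, a * b = b * a)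
    (hk : ∃ k ∈ K, (∃ n, n⁻¹ * k * n ∉ N0) ∧ ∃ n ∉ N0, n⁻¹ * k * n ∈ N0) :
    Nonempty (B ≃* Matrix.SpecialLinearGroup (Fin 5) (ZMod 2)) := by
  let f := toPermHom N (N ⧸ N0)
  have hf : ∀ n (x : N ⧸ N0), f.rangeRestrict n • x = n • x := fun _ _ => rfl
  have fx : ∀ k n : N, k • (n : N ⧸ N0) = n ↔ n⁻¹ * k * n ∈ N0 := fun k n => by
    rw [MulAction.Quotient.smul_mk, eq_comm, QuotientGroup.eq, smul_eq_mul, mul_assoc]
  have hs : Function.Surjective (f.rangeRestrict.comp B.subtype) := fun g => by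
    obtain ⟨n, rfl⟩ := f.rangeRestrict_surjective g
    obtain ⟨⟨a, b⟩, rfl⟩ := hB.2 n
    refine ⟨b, Subtype.ext (Perm.ext fun x => ?_)⟩
    obtain ⟨y, rfl⟩ := QuotientGroup.mk_surjective x
    change (b : N) • (y : N ⧸ N0) = ((a : N) * b) • (y : N ⧸ N0)
    rw [mul_smul, MulAction.Quotient.smul_mk, eq_comm, fx]
    exact hA (Normal.conj_mem' inferInstance _ a.2 _)
  obtain ⟨L, F, _, _, n, h3, -, -, ⟨e⟩, h4⟩ := Perm.ONan.ab (G := f.range) (X := N ⧸ N0)
    (fun a b c d hab hcd => by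
      obtain ⟨a, rfl⟩ := QuotientGroup.mk_surjective a
      obtain ⟨b, rfl⟩ := QuotientGroup.mk_surjective b
      obtain ⟨c, rfl⟩ := QuotientGroup.mk_surjective c
      obtain ⟨d, rfl⟩ := QuotientGroup.mk_surjective d
      obtain ⟨m, hm, e⟩ := h2 _ (QuotientGroup.eq.not.1 hab) _ (QuotientGroup.eq.not.1 hcd)
      refine ⟨f.rangeRestrict (c * m * a⁻¹), ?_, ?_⟩ <;>
        rw [hf, MulAction.Quotient.smul_mk, eq_comm, QuotientGroup.eq, smul_eq_mul]
      · simpa [mul_assoc] using hm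
      · simpa [mul_assoc] using e)
    (fun g hg => Subtype.ext (Perm.ext hg)) ((1 : N) : N ⧸ N0) (K.map f.rangeRestrict)
    (by rintro _ ⟨k, hk, rfl⟩; rw [hf, fx]; simpa using hK hk)
    (fun g hg => by
      obtain ⟨m, rfl⟩ := f.rangeRestrict_surjective g
      rw [hf, fx] at hg
      rintro _ ⟨k, hk, rfl⟩
      exact ⟨_, hKn m (by simpa using hg) k hk, by simp⟩)
    (by rintro _ ⟨a, ha, rfl⟩ _ ⟨b, hb, rfl⟩; rw [← map_mul, hKc a ha b hb, map_mul])
    (by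
      obtain ⟨k, hk, ⟨n, h3⟩, m, h4, h5⟩ := hk
      refine ⟨_, ⟨k, hk, rfl⟩, fun e => h3 ((fx k n).1 (by rw [← hf, e, one_smul])), m,
        fun e => h4 (by simpa using QuotientGroup.eq.1 e.symm), (fx k m).2 h5⟩)
  have h5 := Cfsg.Agent.S0243.result (F := F) rfl n (by omega)
  have h6 := (card_subgroup_dvd_card L).trans (card_dvd_of_surjective _ hs)
  rw [← Nat.card_congr e.toEquiv] at h5
  rw [← index_eq_card, hi] at h4
  have h7 := Fintype.one_lt_card (α := F)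
  generalize hq : Fintype.card F = q at *
  have h8 : q ^ n = 31 * (q - 1) + 1 := by
    have : 0 < q ^ n := by positivity
    omega
  have h9 : q ≤ 5 := by
    have := Nat.pow_le_pow_right (by omega : 0 < q) h3
    by_contra h10
    obtain ⟨r, rfl⟩ : ∃ r, q = r + 1 := ⟨q - 1, by omega⟩
    rw [h8, Nat.add_sub_cancel] at this
    nlinarith [Nat.pow_le_pow_left (show 5 ≤ r by omega) 2]
  have h10 : n ≤ 7 := by
    by_contra h11
    have := (Nat.pow_le_pow_left (show 2 ≤ q from h7) 8).trans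
      (Nat.pow_le_pow_right (by omega) (show 8 ≤ n by omega))
    omega
  have h11 : q = 2 ∧ n = 5 ∨ q = 5 ∧ n = 3 := by
    interval_cases q <;> interval_cases n <;> simp_all
  rcases h11 with ⟨rfl, rfl⟩ | ⟨rfl, rfl⟩
  · have h12 : Nat.card L = 9999360 := by simpa [Fin.prod_univ_succ] using h5
    have h13 := Nat.le_of_dvd Nat.card_pos (card_subgroup_dvd_card L)
    have h14 := Nat.le_of_dvd Nat.card_pos (card_dvd_of_surjective _ hs)
    obtain rfl : L = ⊤ := eq_top_of_card_eq _ (by omega)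
    obtain ⟨e'⟩ := psl_equiv_sl hq (show 2 ≤ 5 by norm_num)
    exact ⟨((MulEquiv.ofBijective _ ((Nat.bijective_iff_surjective_and_card _).2
      ⟨hs, by omega⟩)).trans (topEquiv.symm.trans e)).trans e'⟩
  · have h12 : Nat.card L = 372000 := by
      simp [Fin.prod_univ_succ] at h5
      omega
    rw [h12, hc] at h6
    norm_num at h6

namespace Tw

variable {z : G} {V : Subgroup G} {v : Finset GolayPt → G} {ρ : G → Perm GolayPt} {κ : M24 →* G}
  (h : Tw z V v ρ κ)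
include h

omit h in
theorem even_sd (p q : GolayPt) : Even (symmDiff ({p} : Finset GolayPt) {q}).card := by
  rw [even_symmDiff]; simp

/-- The conjugate of the complement by an odd cocode element. -/
def θ (p : GolayPt) : M24 →* G := MonoidHom.mk'
  (fun σ => v (symmDiff {p} {(σ : Perm GolayPt) p}) * κ σ) fun σ τ => by
    have e := h.κ_conj σ (even_sd p ((τ : Perm GolayPt) p))
    rw [mul_inv_eq_iff_eq_mul] at e
    rw [map_mul, mul_assoc, ← mul_assoc (κ σ), e, ← mul_assoc, ← mul_assoc, ← mul_assoc, ← h.mul,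
      perm_smul_finset_symmDiff]
    simp [symmDiff_assoc, mul_assoc]

theorem θ_apply (p : GolayPt) (σ : M24) :
    h.θ p σ = v (symmDiff {p} {(σ : Perm GolayPt) p}) * κ σ := rfl

theorem ρ_θ (p : GolayPt) (σ : M24) : ρ (h.θ p σ) = σ := h.ρ_mul_κ (h.toCoc.v_mem (even_sd _ _)) σ

omit h in
theorem sd_eq {p q : GolayPt} (e : p ≠ q) : symmDiff ({p} : Finset GolayPt) {q} = {p, q} := by
  ext x
  simp only [Finset.mem_symmDiff, Finset.mem_insert, Finset.mem_singleton]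
  grind

variable [Finite G]

theorem exists_compl0 : ∃ B : Subgroup G, B ⊓ h.A0 = ⊥ ∧
    h.A0 ⊔ B = normalizer (h.A0 : Set G) ⊓ normalizer (V : Set G) := by
  have h1 : (stabilizer M24 o0).map (h.θ (some 4)) ≤
      normalizer (h.A0 : Set G) ⊓ normalizer (V : Set G) := by
    rintro _ ⟨σ, hσ, rfl⟩
    refine ⟨mul_mem ?_ (h.κ_mem_N hσ), h.mul_mem_N (h.toCoc.v_mem (even_sd _ _)) σ⟩
    by_cases e : some 4 = (σ : Perm GolayPt) (some 4)
    · rw [← e, symmDiff_self]; exact h.toCoc.v_empty ▸ one_mem _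
    · rw [sd_eq e]
      exact h.pair_mem_N four_not_mem ((mem_o0_smul hσ).not.2 four_not_mem) e
  have h2 : (stabilizer M24 o0).map (h.θ (some 4)) ⊓ h.A0 = ⊥ := by
    refine eq_bot_iff.2 ?_
    rintro _ ⟨⟨σ, hσ, rfl⟩, h3⟩
    have h4 := h.ρ_A0 h3
    rw [h.ρ_θ] at h4
    have h5 := (h.mul_κ_mem_iff (h.toCoc.v_mem (even_sd _ _)) h4).1 h3
    by_cases e : some 4 = (σ : Perm GolayPt) (some 4)
    · rw [show σ = 1 from Subtype.ext (eq_of_apply_eq h4 (one_mem _) four_not_mem e.symm), map_one]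
      exact one_mem _
    · rw [sd_eq e] at h5
      exact absurd h5 (h.toCoc.pair_not_mem four_not_mem e)
  refine ⟨_, h2, eq_of_le_of_card_ge (sup_le (le_inf le_normalizer h.A0_le) h1) ?_⟩
  rw [card_sup_of_disjoint_of_le_normalizer (h1.trans inf_le_left) (by rwa [inf_comm]), h.card_N0,
    h.card_A0, card_map_of_injective fun σ τ e => Subtype.ext (by rw [← h.ρ_θ, e, h.ρ_θ]),
    card_stabilizer_subgroup, card_octad_stabilizer o0_mem]

theorem exists_moving : ∃ k ∈ normalizer (h.A0 : Set G) ⊓ V,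
    (∃ n ∈ normalizer (h.A0 : Set G), n⁻¹ * k * n ∉ normalizer (V : Set G)) ∧
    ∃ n ∈ normalizer (h.A0 : Set G), n ∉ normalizer (V : Set G) ∧
      n⁻¹ * k * n ∈ normalizer (V : Set G) := by
  have c := h.toCoc
  by_contra hc
  obtain ⟨n, hn, h1⟩ := h.exists_not_mem
  have h2 : n ∉ normalizer (V : Set G) := fun h3 =>
    h1 (conj_mem_of_mem_normalizer h3 (h.toCoc.C6_le h.d0_mem))
  have h3 := (h.conjT_iff.1 ⟨n, hn, rfl⟩).1
  have h4 : ∀ p ∉ o0, ∀ q ∉ o0, p ≠ q →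
      v {p, q} ∈ MulAut.conj n • normalizer (V : Set G) := fun p hp q hq hpq => by
    by_contra h5
    obtain ⟨a, ha, rfl⟩ := exists_E0 hp hq
    obtain ⟨σ, hσ, h6, e⟩ := trans_E0 (h.ρ_A0 h3) ha (fun e => h1 ((h.ρ_eq_one _ (h.A0_le h3)).1 e))
      fun e => hpq (by rw [e]; rfl)
    have h7 := h.κ_mem ⟨σ, M22_le hσ⟩
    have h8 := c.ρ_conj h7 (h.A0_le h3)
    rw [h.ρ_κ, e] at h8
    have h9 := c.comm_pair (mul_mem (mul_mem h7 (h.A0_le h3)) (inv_mem h7)) (p := p)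
      (by rw [h8]; exact sq_E0 ha) (by rwa [h8])
    rw [h8] at h9
    refine hc ⟨_, ⟨h.pair_mem_N hp hq hpq, c.v_mem (even_pair hpq)⟩,
      ⟨n, hn, fun e => h5 (Solv.mem_conj_smul.2 e)⟩, κ ⟨σ, M22_le hσ⟩ * n,
      mul_mem (h.κ_mem_N h6) hn, fun e => h2 (by simpa using mul_mem (inv_mem h7) e),
      h.cent_duad {none, some 0} (by simp) (mem_centralizer_singleton_iff.2 ?_)⟩
    generalize κ _ = k at *
    calc _ = (k * n)⁻¹ * (v {p, a p} * (k * (n * v {none, some 0} * n⁻¹) * k⁻¹)) * (k * n) := by group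
      _ = _ := by rw [h9]; group
  have h5 : h.toCoc.C6 ≤ MulAut.conj n • normalizer (V : Set G) := fun u hu =>
    Solv.mem_conj_smul.2 (h.A0_le (inv_conj_mem_of_mem_normalizer hn (h.C6_le_A0 hu)))
  have h6 : ∀ u ∈ normalizer (h.A0 : Set G) ⊓ V, n⁻¹ * u * n ∈ normalizer (V : Set G) :=
    fun u hu => Solv.mem_conj_smul.1 (((h.mem_or (W := normalizer (h.A0 : Set G) ⊓
      MulAut.conj n • normalizer (V : Set G)) (le_inf (h.C6_le_A0.trans le_normalizer) h5)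
      (fun p hp q hq e => ⟨h.pair_mem_N hp hq e, h4 p hp q hq e⟩) hu.2).resolve_left fun e =>
        h.w_not_mem (by simpa using mul_mem (inv_mem (mem_inf.1 hu).1) (mem_inf.1 e).1)).2)
  have h7 := dvd_cnt_conj (normalizer (h.A0 : Set G) ⊓ V) (n := 8) (P := fun g =>
    ∃ m ∈ normalizer (h.A0 : Set G) ⊓ normalizer (V : Set G),
      m * v {none, some 0} * m⁻¹ = n⁻¹ * g * n) (fun u hu g ⟨m, hm, e⟩ =>
      ⟨n⁻¹ * u * n * m, mul_mem (mem_inf.2 ⟨mul_mem (mul_mem (inv_mem hn) hu.1) hn, h6 u hu⟩) hm, by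
        calc _ = n⁻¹ * u * n * (m * v {none, some 0} * m⁻¹) * n⁻¹ * u⁻¹ * n := by group
          _ = _ := by rw [e]; group⟩) fun g ⟨m, hm, e⟩ => by
      have e1 : g = n * m * v {none, some 0} * (n * m)⁻¹ := by
        calc g = n * (n⁻¹ * g * n) * n⁻¹ := by group
          _ = _ := by rw [← e]; group
      rw [h.cnt_V10 (e1 ▸ (h.conjT_iff.1 ⟨_, mul_mem hn hm.1, rfl⟩).1) (e1 ▸ h.conj_not_mem
        (mul_mem hn hm.1) fun e2 => h2 (by simpa using mul_mem e2 (inv_mem hm.2)))]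
  rw [cnt_congr_equiv (Q := fun g => ∃ D ⊆ o0, D.card = 2 ∧ v D = g) (MulAut.conj n⁻¹).toEquiv
    (fun g => by rw [h.conj0_iff]; simp), h.cnt_duads] at h7
  norm_num at h7

theorem exists_compl : ∃ B : Subgroup G, B ≤ normalizer (h.A0 : Set G) ∧ B ⊓ h.A0 = ⊥ ∧
    B ⊔ h.A0 = normalizer (h.A0 : Set G) ∧
    Nonempty (B ≃* Matrix.SpecialLinearGroup (Fin 5) (ZMod 2)) := by
  set N := normalizer (h.A0 : Set G) with hN
  obtain ⟨B0, h1, h2⟩ := h.exists_compl0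
  have h3 : (normalizer (V : Set G)).relIndex N = 31 := by
    have := card_inf_mul_relIndex (normalizer (V : Set G)) N
    rw [inf_comm, h.card_N0, h.card_N] at this
    omega
  have h4 : B0 ≤ N ⊓ normalizer (V : Set G) := h2 ▸ le_sup_right
  have : IsMulCommutative (h.A0.subgroupOf N) :=
    ⟨⟨fun a b => Subtype.ext (Subtype.ext (comm_of_sq h.sq_A0 a.2 b.2))⟩⟩
  have h5 : h.A0.subgroupOf N ≤ (normalizer (V : Set G)).subgroupOf N := fun a ha => h.A0_le ha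
  obtain ⟨B, hB⟩ := Cfsg.Agent.S0051.result (h.A0.subgroupOf N)
    ((normalizer (V : Set G)).subgroupOf N) h5
    (by rw [card_subgroupOf_of_le le_normalizer, h.card_A0, ← relIndex, h3]; norm_num)
    (B0.subgroupOf N) (fun a ha => (h4 ha).2)
    (by rw [subgroupOf, subgroupOf, ← comap_inf, h1]; exact bot_subgroupOf _)
    (by rw [← subgroupOf_sup le_normalizer (h4.trans inf_le_left), h2, inf_subgroupOf_left])
  have h6 := hB.card_mul_card
  rw [card_subgroupOf_of_le le_normalizer, h.card_A0, h.card_N] at h6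
  obtain ⟨e⟩ := equiv_SL5 (K := V.subgroupOf N) h5 h3 hB (by omega) (fun n hn n' hn' => by
      obtain ⟨m, hm, e⟩ := h.trans_T ⟨h.conjT_iff.1 ⟨n, n.2, rfl⟩, h.conj_not_mem n.2 hn⟩
        ⟨h.conjT_iff.1 ⟨n', n'.2, rfl⟩, h.conj_not_mem n'.2 hn'⟩
      refine ⟨⟨m, hm.1⟩, hm.2, h.cent_duad {none, some 0} (by simp)
        (mem_centralizer_singleton_iff.2 ?_)⟩
      change (n' : G)⁻¹ * m * n * _ = _ * ((n' : G)⁻¹ * m * n)
      calc _ = (n' : G)⁻¹ * (m * (n * v {none, some 0} * (n : G)⁻¹) * m⁻¹) * m * n := by group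
        _ = _ := by rw [e]; group)
    (fun a ha => le_normalizer ha) (fun m hm k hk => conj_mem_of_mem_normalizer (H := V) hm hk)
    (fun a ha b hb => Subtype.ext (h.toCoc.commV ha hb)) (by
      obtain ⟨k, hk, ⟨n, hn, e⟩, m, hm, e1, e2⟩ := h.exists_moving
      exact ⟨⟨k, hk.1⟩, hk.2, ⟨⟨n, hn⟩, e⟩, ⟨m, hm⟩, e1, e2⟩)
  refine ⟨B.map N.subtype, map_subtype_le _, ?_, ?_,
    ⟨(B.equivMapOfInjective _ N.subtype_injective).symm.trans e⟩⟩
  · refine eq_bot_iff.2 ?_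
    rintro _ ⟨⟨b, hb, rfl⟩, h7⟩
    rw [disjoint_def.1 hB.disjoint h7 hb]
    exact one_mem _
  · rw [← map_subgroupOf_eq_of_le (le_normalizer (H := h.A0)), ← Subgroup.map_sup, sup_comm,
      hB.sup_eq_top, ← MonoidHom.range_eq_map, range_subtype]

end Tw

end Cfsg.Lib.SporChar.J4C
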