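import Cfsg.Agent.SporChar.J4CD
import Cfsg.Agent.Solv.CoprimeBasic

/-! Elements of order five and seven of `M₂₄`, the trio data, and counting lemmas. -/

set_option autoImplicit false
set_option maxRecDepth 100000

namespace Cfsg.Lib.SporChar.J4C

open Subgroup Equiv Cfsg.Lib.Spor Cfsg.Lib.Spor.MP Cfsg.Lib.SporChar.J4 Cfsg.Lib.Solv
  Cfsg.Lib.Solv.Count J4B MulAction Cfsg.Lib.Local
open scoped Pointwise

variable {G : Type*} [Group G]

theorem mem_cent {a g : G} : g ∈ centralizer ({a} : Set G) ↔ g * a * g⁻¹ = a := by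
  rw [mem_centralizer_singleton_iff, mul_inv_eq_iff_eq_mul]

theorem cent_symm {a g : G} (h : g ∈ centralizer ({a} : Set G)) : a ∈ centralizer ({g} : Set G) :=
  mem_centralizer_singleton_iff.2 (mem_centralizer_singleton_iff.1 h).symm

theorem card_cent_conj2 (g a b : G) :
    Nat.card ↥(centralizer ({g * a * g⁻¹} : Set G) ⊓ centralizer ({g * b * g⁻¹} : Set G)) =
      Nat.card ↥(centralizer ({a} : Set G) ⊓ centralizer ({b} : Set G)) := by
  rw [← conj_smul_centralizer_singleton, ← conj_smul_centralizer_singleton, ← smul_inf,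
    card_conj_smul]

theorem cent_eq_of_mem {a b : G} (h : b ∈ zpowers a) (h' : a ∈ zpowers b) :
    centralizer ({a} : Set G) = centralizer ({b} : Set G) := by
  rw [← centralizer_zpowers_eq_sing, ← centralizer_zpowers_eq_sing,
    le_antisymm (zpowers_le.2 h') (zpowers_le.2 h)]

theorem orderOf_conj' (g a : G) : orderOf (g * a * g⁻¹) = orderOf a :=
  (MulAut.conj g).orderOf_eq a

variable [Finite G]

/-- Counting modulo a prime. -/
theorem cnt_modEq {y : G} {p : ℕ} (hp : p.Prime) (hy : orderOf y = p) {P : G → Prop}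
    (hP : ∀ g, P g → P (y * g * y⁻¹)) :
    cnt P % p = cnt (fun g => P g ∧ g ∈ centralizer ({y} : Set G)) % p := by
  have h1 : ∀ k ∈ zpowers y, ∀ g, P g → P (k * g * k⁻¹) := fun k hk => by
    obtain ⟨n, rfl⟩ := (mem_powers_iff_mem_zpowers.2 hk : k ∈ Submonoid.powers y)
    induction n with
    | zero => simp
    | succ n ih =>
      intro g hg
      have := hP _ (ih (pow_mem (mem_zpowers y) n) g hg)
      simpa [pow_succ', mul_assoc] using this
  have h2 := dvd_cnt_conj (zpowers y) (n := p)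
    (P := fun g => P g ∧ ¬ g ∈ centralizer ({y} : Set G)) (fun k hk g hg => ⟨h1 k hk g hg.1,
      fun hc => hg.2 (by
        have hk' : k ∈ centralizer ({y} : Set G) :=
          zpowers_le.2 (mem_centralizer_singleton_iff.2 rfl) hk
        simpa [mul_assoc] using mul_mem (mul_mem (inv_mem hk') hc) hk')⟩) fun g hg => by
      have h3 := cnt_conj_mul (zpowers y) g
      rw [Nat.card_zpowers, hy] at h3
      rcases (Nat.dvd_prime hp).1 (Dvd.intro_left _ h3) with h4 | h4
      · rw [h4, mul_one] at h3; rw [h3]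
      · have := eq_of_le_of_card_ge (inf_le_left : zpowers y ⊓ centralizer ({g} : Set G) ≤ _)
          (by rw [h4, Nat.card_zpowers, hy])
        exact absurd (cent_symm (this.ge (mem_zpowers y)).2) hg.2
  rw [cnt_add P (· ∈ centralizer ({y} : Set G))]
  obtain ⟨m, e⟩ := h2
  rw [e, Nat.add_mul_mod_self_left]

theorem card_modEq {y : G} {p : ℕ} (hp : p.Prime) (hy : orderOf y = p) {W : Subgroup G}
    (hW : y ∈ normalizer (W : Set G)) :
    Nat.card W % p = Nat.card ↥(W ⊓ centralizer ({y} : Set G)) % p :=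
  cnt_modEq hp hy (P := (· ∈ W)) fun _ hg => conj_mem_of_mem_normalizer hW hg

/-- Coprime action of an element of odd order on a coset of a 2-group. -/
theorem exists_cent {y g : G} (hy : Odd (orderOf y)) {L : Subgroup G} (hL : IsPGroup 2 L)
    (hn : y ∈ normalizer (L : Set G)) (h : y * g * y⁻¹ * g⁻¹ ∈ L) :
    ∃ l ∈ L, l * g ∈ centralizer ({y} : Set G) := by
  obtain ⟨K, hK⟩ := exists_commSubgroup L {g}
  obtain ⟨n, e⟩ := IsPGroup.iff_card.1 hL
  have h1 : zpowers y ≤ K := zpowers_le.2 ((hK y).2 ⟨hn, by simpa using h⟩)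
  rw [← centralizer_zpowers_eq_sing]
  exact Coprime.exists_mul_mem_centralizer' (zpowers_le.2 hn)
    (by rw [Nat.card_zpowers, e]; exact (Nat.coprime_two_right.2 hy).pow_right n)
    (Or.inl inferInstance) fun a ha => ((hK a).1 (h1 ha)).2 g rfl

theorem exists_order {K : Subgroup G} {p : ℕ} (hp : p.Prime) (h : p ∣ Nat.card K) :
    ∃ g ∈ K, orderOf g = p := by
  have : Fact p.Prime := ⟨hp⟩
  obtain ⟨g, hg⟩ := exists_prime_orderOf_dvd_card' p h
  exact ⟨g, g.2, by rw [Subgroup.orderOf_coe, hg]⟩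

/-- Elements of prime order `p` in a group of order not divisible by `p ^ 2`. -/
theorem exists_conj_cent {K : Subgroup G} {p : ℕ} (hp : p.Prime) (h : ¬ p ^ 2 ∣ Nat.card K)
    {a b : G} (ha : a ∈ K) (hb : b ∈ K) (h1 : orderOf a = p) (h2 : orderOf b = p) :
    ∃ k ∈ K, MulAut.conj k • zpowers a = zpowers b := by
  have : Fact p.Prime := ⟨hp⟩
  have key : ∀ c ∈ K, orderOf c = p → ∃ P : Sylow p K, (P : Subgroup K).map K.subtype = zpowers c :=
    fun c hc e => by
      have h3 : Nat.card ((zpowers c).subgroupOf K) = p := by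
        rw [card_subgroupOf_of_le (zpowers_le.2 hc), Nat.card_zpowers, e]
      refine ⟨(IsPGroup.of_card (n := 1) (h3.trans (pow_one p).symm)).toSylow fun h4 => h ?_,
        map_subgroupOf_eq_of_le (zpowers_le.2 hc)⟩
      rw [← ((zpowers c).subgroupOf K).card_mul_index, h3, pow_two]
      exact Nat.mul_dvd_mul_left p h4
  obtain ⟨P, e1⟩ := key a ha h1
  obtain ⟨R, e2⟩ := key b hb h2
  obtain ⟨k, rfl⟩ := MulAction.exists_smul_eq K P R
  exact ⟨k, k.2, by rw [← e1, ← e2, coe_sylow_smul, map_subtype_conj_smul]⟩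

theorem class_data {g : Perm GolayPt} (hg : g ∈ M24) : ∃ r ∈ reps24, orderOf g = r.2.1 ∧
    Nat.card ↥(M24 ⊓ centralizer {g}) = r.2.2 ∧
    (Finset.univ.filter fun p => g p = p).card = popc (fixM r.1) := by
  obtain ⟨r, hr, k, hk, e⟩ := isClassList_M24.all g hg
  exact ⟨r, hr, by rw [← e, orderOf_conj', isClassList_M24.ord r hr],
    isClassList_M24.card_cent_conj hr hk e,
    by rw [← e, card_filter_fixed_conj, (isClassList_M24.mem r hr).rep.card_fixed]⟩

theorem card_cent_five {g : Perm GolayPt} (hg : g ∈ M24) (h : orderOf g = 5) :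
    Nat.card ↥(M24 ⊓ centralizer {g}) = 60 := by
  obtain ⟨r, hr, h1, h2, -⟩ := class_data hg
  exact h2.trans ((by decide +kernel : ∀ r ∈ reps24, r.2.1 = 5 → r.2.2 = 60) r hr (h1 ▸ h))

theorem card_cent_seven {g : Perm GolayPt} (hg : g ∈ M24) (h : orderOf g = 7) :
    Nat.card ↥(M24 ⊓ centralizer {g}) = 42 := by
  obtain ⟨r, hr, h1, h2, -⟩ := class_data hg
  exact h2.trans ((by decide +kernel : ∀ r ∈ reps24, r.2.1 = 7 → r.2.2 = 42) r hr (h1 ▸ h))

/-- The stabiliser of a duad in the centralizer of an element of order five or seven. -/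
theorem card_le_duad {σ : Perm GolayPt} (hσ : σ ∈ M24) {p : ℕ} (hp : p = 5 ∨ p = 7)
    (h : orderOf σ = p) {D : Finset GolayPt} (hD : D.card = 2) (h1 : σ • D = D)
    {K : Subgroup (Perm GolayPt)} (hK : K ≤ M24 ⊓ centralizer {σ}) (h2 : ∀ τ ∈ K, τ • D = D) :
    Nat.card K ≤ 2 * p := by
  obtain ⟨a, b, hab, rfl⟩ := Finset.card_eq_two.1 hD
  have k1 : ∀ τ : Perm GolayPt, τ • ({a, b} : Finset GolayPt) = {a, b} →
      (τ a = a ∧ τ b = b) ∨ (τ a = b ∧ τ b = a) := fun τ e => by
    have e1 : τ a ∈ τ • ({a, b} : Finset GolayPt) := apply_mem_perm_smul_finset.2 (by simp)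
    have e2 : τ b ∈ τ • ({a, b} : Finset GolayPt) := apply_mem_perm_smul_finset.2 (by simp)
    have e3 : τ a ≠ τ b := τ.injective.ne hab
    rw [e] at e1 e2
    simp only [Finset.mem_insert, Finset.mem_singleton] at e1 e2
    grind
  have k2 : σ a = a ∧ σ b = b := (k1 σ h1).resolve_right fun e => by
    have e1 : ∀ n, ((σ * σ) ^ n) b = b := fun n =>
      Perm.pow_apply_eq_self_of_apply_eq_self (by rw [Perm.mul_apply, e.2, e.1]) n
    have e2 := pow_orderOf_eq_one σ
    rw [h] at e2
    rcases hp with rfl | rfl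
    · exact hab (by rw [← e1 2, ← e.1, ← Perm.mul_apply, ← pow_two, ← pow_mul, ← pow_succ, e2]; rfl)
    · exact hab (by rw [← e1 3, ← e.1, ← Perm.mul_apply, ← pow_two, ← pow_mul, ← pow_succ, e2]; rfl)
  have k3 : ∀ q : ℕ, q = 2 ∨ q = 3 → ¬ q ∣ Nat.card ↥(K ⊓ stabilizer (Perm GolayPt) a) :=
    fun q hq hc => by
      obtain ⟨τ, hτ, e⟩ := exists_order (by rcases hq with rfl | rfl <;> norm_num) hc
      have l1 := (k1 τ (h2 τ hτ.1)).resolve_right fun e => hab (hτ.2.symm.trans e.1)
      obtain ⟨r, hr, l2, -, l3⟩ := class_data (mul_mem (hK hτ.1).1 hσ)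
      rw [Commute.orderOf_mul_eq_mul_orderOf_of_coprime (mem_centralizer_singleton_iff.1 (hK hτ.1).2)
        (by rw [e, h]; rcases hq with rfl | rfl <;> rcases hp with rfl | rfl <;> norm_num), e, h] at l2
      have l4 := (by decide +kernel : ∀ r ∈ reps24, r.2.1 ∈ [10, 14, 15, 21] → popc (fixM r.1) ≤ 1)
        r hr (by rw [← l2]; rcases hq with rfl | rfl <;> rcases hp with rfl | rfl <;> decide)
      have l5 := Finset.card_le_card (show ({a, b} : Finset GolayPt) ⊆
        Finset.univ.filter fun x => (τ * σ) x = x from fun x hx => by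
          refine Finset.mem_filter.2 ⟨Finset.mem_univ _, ?_⟩
          rcases Finset.mem_insert.1 hx with rfl | hx
          · rw [Perm.mul_apply, k2.1, l1.1]
          · rw [Finset.mem_singleton.1 hx, Perm.mul_apply, k2.2, l1.2])
      omega
  have k4 := card_le_mul_of_orbit_subset K a {a, b} fun τ hτ => by
    rcases k1 τ (h2 τ hτ) with e | e <;> simp [Perm.smul_def, e.1]
  have k5 := card_dvd_of_le (inf_le_left.trans hK : K ⊓ stabilizer (Perm GolayPt) a ≤ _)
  have k6 := k3 2 (Or.inl rfl)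
  have k7 := k3 3 (Or.inr rfl)
  rw [hD] at k4
  refine k4.trans (Nat.mul_le_mul_left 2 ?_)
  generalize Nat.card ↥(K ⊓ stabilizer (Perm GolayPt) a) = m at *
  rcases hp with rfl | rfl
  · rw [card_cent_five hσ h] at k5
    have := Nat.le_of_dvd (by norm_num) k5
    interval_cases m <;> omega
  · rw [card_cent_seven hσ h] at k5
    have := Nat.le_of_dvd (by norm_num) k5
    interval_cases m <;> omega

/-- An element of order seven of the trio group. -/
def py : ℕ := 212341990185110348343835507936280928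

/-- An element of order three permuting the octads of the trio. -/
def px : ℕ := 517404676712837525493032604084521670

/-- An involution inverting `px`. -/
def pt : ℕ := 350894047322565407675430125939771424

/-- An element conjugating `py` to its square. -/
def pn : ℕ := 776801360317420676810048877581635616

/-- Generators of `2^6:S₃`. -/
def gD : List ℕ :=
  [930861788327081126197074462342566913, 752423272827190319803601723157321964,
    47186292583989079820079690041270865]

/-- Certificate for `2^6:S₃`. -/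
def cD : List Cfsg.Lib.Spor.PK.Cert :=
  [⟨0, [64, 769, 834, 449, 1474, 898, 1408, 1089, 1218, 1282, 384, 1153, 962, 1024, 321, 578, 193, 258, 512,
    1345, 706, 129, 642], [[2, 1, 2], [0, 2, 2, 0, 2, 2], [0, 2, 1, 0, 0, 2], [0, 2, 0, 2, 2, 2, 0, 2]]⟩,
   ⟨2, [384, 1025, 834, 515, 257, 322, 643, 1154, 195, 1091, 1282, 1411, 899, 1475, 1347], []⟩]

/-- Generators of `L₃(2)`. -/
def gK : List ℕ :=
  [212341990185110348343835507936280928, 881045552587245454963086119174999041]

/-- Certificate for `L₃(2)`. -/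
def cK : List Cfsg.Lib.Spor.PK.Cert :=
  [⟨1, [960, 1, 768, 449, 1217, 576, 704], [[0, 1, 0, 1, 0], [0, 1, 0, 0, 0, 0]]⟩,
   ⟨2, [512, 193, 641, 256, 385, 1024], [[0, 0, 1, 0]]⟩,
   ⟨0, [448, 960], []⟩]

/-- Certificate for the centralizer of `py`. -/
def cC : List Cfsg.Lib.Spor.PK.Cert :=
  [⟨1, [960, 897, 768, 321, 1409, 448, 1473, 257, 576, 833, 513, 1216, 1153, 1025, 704, 1345, 129, 1089, 641,
    193], [[2]]⟩,
   ⟨2, [1152], []⟩]

/-- Certificate for `S₃`. -/
def cS : List Cfsg.Lib.Spor.PK.Cert :=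
  [⟨0, [1280, 384], [[1]]⟩,
   ⟨2, [1152], []⟩]

/-- An element of order five commuting with `r3A`. -/
def pf : ℕ := 27640115572309047142464698259833954

/-- An element conjugating the inverse of `r7A` to `r7B`. -/
def pc7 : ℕ := 15839575894864889763885680584428257

/-- The syndromes of the elements of `U`. -/
def uS : List ℕ :=
  [0, 356, 582, 802, 2146, 2310, 2596, 2880]

/-- Tetrads of the seven sextets. -/
def uT : List ℕ :=
  [561280, 524930, 37378, 6784, 559616, 530434, 528897]

theorem not_inv_seven {σ g : Perm GolayPt} (hσ : σ ∈ M24) (h : orderOf σ = 7) (hg : g ∈ M24) :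
    g * σ * g⁻¹ ≠ σ⁻¹ := fun e => by
  have h1 := inSub_M24 (p := pc7) (by decide +kernel)
  have h2 : toPerm pc7 * (toPerm r7A)⁻¹ * (toPerm pc7)⁻¹ = toPerm r7B :=
    (h1.rep.conj inSub_r7A.rep.inv).eq_of_peq inSub_r7B.rep (by decide +kernel)
  have h3 := isClassList_M24.not_conj (i := 11) (j := 12) (by norm_num) (by decide +kernel)
  rw [show (reps24.getD 11 (0, 0, 0)).1 = r7A by decide +kernel,
    show (reps24.getD 12 (0, 0, 0)).1 = r7B by decide +kernel] at h3
  have hc := h1.2
  generalize toPerm pc7 = c at *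
  obtain ⟨k, hk, rfl | rfl⟩ := M24_order_seven hσ h
  · refine h3 ⟨c * k⁻¹ * g * k, mul_mem (mul_mem (mul_mem hc (inv_mem hk)) hg) hk, ?_⟩
    calc _ = c * k⁻¹ * (g * (k * toPerm r7A * k⁻¹) * g⁻¹) * k * c⁻¹ := by group
      _ = _ := by rw [e, ← h2]; group
  · refine h3 ⟨k⁻¹ * g⁻¹ * k * c, mul_mem (mul_mem (mul_mem (inv_mem hk) (inv_mem hg)) hk) hc, ?_⟩
    calc _ = k⁻¹ * g⁻¹ * (k * (c * (toPerm r7A)⁻¹ * c⁻¹) * k⁻¹)⁻¹ * g * k := by group
      _ = _ := by rw [h2, ← e]; group

theorem inSub_py : InSub M24 py := inSub_M24 (by decide +kernel)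
theorem inSub_px : InSub M24 px := inSub_M24 (by decide +kernel)
theorem inSub_pt : InSub M24 pt := inSub_M24 (by decide +kernel)
theorem inSub_pn : InSub M24 pn := inSub_M24 (by decide +kernel)
theorem inSub_pf : InSub M24 pf := inSub_M24 (by decide +kernel)

theorem orderOf_py : orderOf (toPerm py) = 7 := inSub_py.rep.orderOf_eq (by decide +kernel)
theorem orderOf_pf : orderOf (toPerm pf) = 5 := inSub_pf.rep.orderOf_eq (by decide +kernel)

/-- The packed permutation normalizes `U`. -/
def nU (p : ℕ) : Bool := uS.all fun s => uS.contains (J4B.act p s)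

/-- The packed permutation centralizes `U`. -/
def cU (p : ℕ) : Bool := uS.all fun s => Nat.beq (J4B.act p s) s

theorem eq_one_of_cent_py {σ : Perm GolayPt} (hσ : σ ∈ M24 ⊓ centralizer {toPerm py})
    (h1 : cU (pack σ) = true) (h2 : σ • maskSet 65 = maskSet 65)
    (h3 : σ • maskSet 1048577 = maskSet 1048577) : σ = 1 := by
  have hc := (pk_chain_low (H := M24 ⊓ centralizer {toPerm py}) (gens := [py, px, pt]) (cert := cC)
    (fun t ht => by
      have h4 : InSub M24 t ∧ comm t py = true := by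
        simp only [List.mem_cons, List.not_mem_nil, or_false] at ht
        rcases ht with rfl | rfl | rfl
        exacts [⟨inSub_py, by decide +kernel⟩, ⟨inSub_px, by decide +kernel⟩,
          ⟨inSub_pt, by decide +kernel⟩]
      exact ⟨h4.1.1, h4.1.2, mem_centralizer_singleton_iff.2
        ((h4.1.rep.comm_iff inSub_py.rep).1 h4.2)⟩) (by decide +kernel)
    (by rw [card_cent_seven inSub_py.2 orderOf_py]; decide +kernel)).2
  have h5 := pk_forall hc (f := fun p => !(cU p && Nat.beq (apM p 65) 65 &&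
    Nat.beq (apM p 1048577) 1048577) || peq p pid) (by decide +kernel) hσ
  rw [h1, ((rep_pack σ).smul_maskSet_eq_iff _ (by norm_num)).1 h2,
    ((rep_pack σ).smul_maskSet_eq_iff _ (by norm_num)).1 h3] at h5
  exact (rep_pack σ).eq_of_peq rep_one (by simpa using h5)

theorem L32_spec : Nat.card (pclosure gK) = 168 ∧ pclosure gK ≤ M24 ∧
    ∀ σ ∈ pclosure gK, nU (pack σ) = true ∧ (cU (pack σ) = true → σ = 1) := by
  obtain ⟨h1, h2⟩ := pk_chain_full (gens := gK) (by decide +kernel) (cert := cK) (by decide +kernel)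
  refine ⟨h1.trans (by decide +kernel), pclosure_le.2 fun t ht => toPerm_mem_M24
    (List.all_eq_true.1 (by decide +kernel : gK.all isM24 = true) t ht), fun σ hσ => ?_⟩
  have h3 := pk_forall h2 (f := fun p => nU p && (!cU p || peq p pid)) (by decide +kernel) hσ
  rw [Bool.and_eq_true] at h3
  exact ⟨h3.1, fun h4 => (rep_pack σ).eq_of_peq rep_one (by simpa [h4] using h3.2)⟩

end Cfsg.Lib.SporChar.J4C
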