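import Cfsg.Agent.SporChar.J4CN
import Cfsg.Agent.SporChar.J4BFr

/-! Groups of type `J₄`: centralizers of elements of order five and seven in the involution
centralizers. -/

set_option autoImplicit false
set_option maxRecDepth 100000

namespace Cfsg.Lib.SporChar.J4C

open Subgroup Equiv Cfsg.Lib.Spor Cfsg.Lib.Spor.MP Cfsg.Lib.SporChar.J4 Cfsg.Lib.Solv
  Cfsg.Lib.Solv.Count J4B MulAction Cfsg.Lib.Local
open scoped Pointwise

variable {G : Type*} [Group G]

/-- The frame together with the involution centralizer. -/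
structure Fw (z x : G) (Q V : Subgroup G) (p : G → Perm GolayPt) (v : Finset GolayPt → G)
    (ρ : G → Perm GolayPt) (κ : M24 →* G) : Prop extends Tw z V v ρ κ where
  set : Set0 z x Q p
  Q_le : Q ≤ normalizer (V : Set G)
  idx : (normalizer (V : Set G)).relIndex (centralizer ({z} : Set G)) = 77
  w_z : v (sm 2880) = z
  memW : ∀ s, evS s = true → inW s = true → v (sm s) ∈ Q
  κ_x : ∀ σ : M24, (σ : Perm GolayPt) = toPerm r3A → κ σ = x
  invQ : ∀ q ∈ Q, q * q = 1 → ∃ k ∈ centralizer ({z} : Set G), k * q * k⁻¹ ∈ V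
  orbZ : ∀ s ∈ Q, s ≠ z → IsConj z s →
    {g | ∃ k ∈ centralizer ({z} : Set G), k * s * k⁻¹ = g}.ncard = 1386 ∧
    ∀ s' ∈ Q, s' ≠ z → IsConj z s' → ∃ k ∈ centralizer ({z} : Set G), k * s * k⁻¹ = s'
  cent_x : centralizer ({x} : Set G) ≤ centralizer ({z} : Set G)

theorem fw_of_out [Finite G] {z x : G} {Q : Subgroup G} {p : G → Perm GolayPt}
    {v : Finset GolayPt → G} {ρ : G → Perm GolayPt} {κ : M24 →* G} (h : J4B.Out z x Q p v ρ κ) :
    Fw z x Q h.toFr.V p v ρ κ :=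
  { tw_of_out h with
    set := h.toSet0
    Q_le := h.toSet0.hex.QY.trans (h.out.inf_eq.ge.trans inf_le_right)
    idx := by rw [← inf_relIndex_left, Fr.V, h.out.inf_eq]; exact h.toSet0.relIndex_hexY
    w_z := h.toFr.w_z
    memW := fun _ h1 h2 => (h.toFr.w_mem_Q h1).2 h2
    κ_x := h.κ_x
    invQ := h.invQ
    orbZ := h.orbZ
    cent_x := h.cent_x }

theorem card_eq_mul_map {G' : Type*} [Group G'] {H K R : Subgroup G} (f : H →* G') (hK : K ≤ H)
    (hR : ∀ g : H, f g = 1 ↔ (g : G) ∈ R) :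
    Nat.card K = Nat.card ↥(K ⊓ R) * Nat.card ((K.subgroupOf H).map f) := by
  let f' := f.comp (inclusion hK)
  have h1 := card_eq_card_quotient_mul_card_subgroup f'.ker
  rw [Nat.card_congr (QuotientGroup.quotientKerEquivRange f').toEquiv] at h1
  rw [h1, mul_comm]
  congr 1
  · rw [← card_map_of_injective K.subtype_injective]
    congr 2
    ext g
    simp only [mem_map, MonoidHom.mem_ker, mem_inf]
    constructor
    · rintro ⟨k, h, rfl⟩; exact ⟨k.2, (hR ⟨k, hK k.2⟩).1 h⟩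
    · rintro ⟨h1, h2⟩; exact ⟨⟨g, h1⟩, (hR ⟨g, hK h1⟩).2 h2, rfl⟩
  · congr 2
    ext σ
    constructor
    · rintro ⟨k, rfl⟩; exact ⟨⟨k, hK k.2⟩, k.2, rfl⟩
    · rintro ⟨k, hk, rfl⟩; exact ⟨⟨k, hk⟩, rfl⟩

theorem orderOf_dvd_card' {K : Subgroup G} {a : G} (h : a ∈ K) : orderOf a ∣ Nat.card K :=
  Nat.card_zpowers a ▸ card_dvd_of_le (zpowers_le.2 h)

theorem cent_of_conj {k a b : G} (e : MulAut.conj k • zpowers a = zpowers b) :
    MulAut.conj k • centralizer ({a} : Set G) = centralizer ({b} : Set G) := by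
  rw [← centralizer_zpowers_eq_sing, conj_smul_centralizer, e, centralizer_zpowers_eq_sing]

namespace Tw

variable {z : G} {V : Subgroup G} {v : Finset GolayPt → G} {ρ : G → Perm GolayPt} {κ : M24 →* G}
  (h : Tw z V v ρ κ)
include h

theorem orderOf_ρ {n : G} (hn : n ∈ normalizer (V : Set G)) {q : ℕ} (hq : q = 5 ∨ q = 7)
    (e : orderOf n = q) : orderOf (ρ n) = q := by
  have : Fact q.Prime := ⟨by rcases hq with rfl | rfl <;> norm_num⟩
  refine orderOf_eq_prime (by rw [← h.toCoc.ρ_pow hn, ← e, pow_orderOf_eq_one, h.toCoc.ρ_one])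
    fun e1 => ?_
  have := orderOf_dvd_card' ((h.ρ_eq_one n hn).1 e1)
  rw [e, h.toCoc.cardV] at this
  rcases hq with rfl | rfl <;> norm_num at this

theorem orderOf_κ (σ : M24) : orderOf (κ σ) = orderOf (σ : Perm GolayPt) := by
  rw [orderOf_injective κ (fun a b e => Subtype.ext (by rw [← h.ρ_κ, e, h.ρ_κ])),
    Subgroup.orderOf_coe]

theorem z_iff {s : ℕ} (hs : evS s = true) : IsConj z (v (sm s)) ↔ s ≠ 0 ∧ isDu s = false := by
  rw [← Bool.not_eq_true, h.toCoc.w_duad hs, Ne, ← h.toCoc.w_eq_one hs]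
  refine ⟨fun e => ⟨h.ne_one_of_conj e, fun ⟨A, h1, h2⟩ => h.two A h1 (h2 ▸ e)⟩, fun e => ?_⟩
  rcases h.toCoc.cases (h.toCoc.w_mem hs) with e1 | e1 | ⟨A, e1, e2⟩
  exacts [absurd e1 e.1, absurd e1 e.2, e2 ▸ h.four A e1]

theorem duad_of {t : G} (ht : t ∈ V) (h1 : t ≠ 1) (h2 : ¬ IsConj z t) :
    ∃ D : Finset GolayPt, D.card = 2 ∧ v D = t :=
  ((h.toCoc.cases ht).resolve_left h1).resolve_right fun ⟨A, e1, e2⟩ => h2 (e2 ▸ h.four A e1)

theorem cV7 {n : G} (hn : n ∈ normalizer (V : Set G)) (e : orderOf n = 7) :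
    Nat.card ↥(V ⊓ centralizer ({n} : Set G)) = 4 := by
  obtain ⟨k, hk, e1 | e1⟩ := M24_order_seven (h.ρ_mem n) (h.orderOf_ρ hn (Or.inr rfl) e) <;>
    obtain ⟨g, hg, -, m, hm, e2, rfl⟩ := h.toCoc.exists_conj hn hk e1
  · rw [Coc.card_fix_conj hg, h.toCoc.card_fix hm (e2 ▸ inSub_r7A.rep)]
    decide +kernel
  · rw [Coc.card_fix_conj hg, h.toCoc.card_fix hm (e2 ▸ inSub_r7B.rep)]
    decide +kernel

theorem cV5 {n : G} (hn : n ∈ normalizer (V : Set G)) (e : orderOf n = 5) :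
    Nat.card ↥(V ⊓ centralizer ({n} : Set G)) = 8 ∧
      cnt (fun u => u ∈ V ⊓ centralizer ({n} : Set G) ∧ IsConj z u) = 1 := by
  obtain ⟨k, hk, e1⟩ := M24_order_five (h.ρ_mem n) (h.orderOf_ρ hn (Or.inl rfl) e)
  obtain ⟨g, hg, -, m, hm, e2, rfl⟩ := h.toCoc.exists_conj hn hk e1
  have hr : Rep (ρ m) r5A := e2 ▸ inSub_r5A.rep
  refine ⟨by rw [Coc.card_fix_conj hg, h.toCoc.card_fix hm hr]; decide +kernel, ?_⟩
  rw [← cnt_congr_equiv (P := fun u => u ∈ V ⊓ centralizer ({m} : Set G) ∧ IsConj z u)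
    (MulAut.conj g).toEquiv fun u => ?_, h.toCoc.cnt_w (F := fun s => Nat.beq (J4B.act r5A s) s &&
      (!Nat.beq s 0 && !isDu s)) (fun _ hu => hu.1.1) fun s hs => ?_]
  · decide +kernel
  · rw [h.z_iff hs, mem_inf, mem_centralizer_singleton_iff, eq_comm, ← mul_inv_eq_iff_eq_mul,
      h.toCoc.conj_w hm hr hs, h.toCoc.w_inj (evS_act hr hs) hs]
    simp only [h.toCoc.w_mem hs, true_and, Bool.and_eq_true, Nat.beq_eq, Bool.not_eq_true',
      ← Bool.not_eq_true (Nat.beq s 0), ne_eq]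
  · rw [← conj_smul_centralizer_singleton, ← conj_smul_eq_of_mem_normalizer hg, ← smul_inf,
      conj_smul_eq_of_mem_normalizer hg]
    exact and_congr conj_mem_conj_smul_iff.symm
      ⟨fun e => e.trans (isConj_iff.2 ⟨g, rfl⟩), fun e => e.trans (isConj_iff.2 ⟨g, rfl⟩).symm⟩

theorem unique5 {n : G} (hn : n ∈ normalizer (V : Set G)) (e : orderOf n = 5) :
    ∃ s, (s ∈ V ⊓ centralizer ({n} : Set G) ∧ IsConj z s) ∧
      ∀ u, u ∈ V ⊓ centralizer ({n} : Set G) → IsConj z u → u = s := by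
  obtain ⟨s, hs⟩ := (Nat.card_eq_one_iff_exists).1 (h.cV5 hn e).2
  exact ⟨s, s.2, fun u h1 h2 => congrArg Subtype.val (hs ⟨u, h1, h2⟩)⟩

theorem exists_duad {t : G} (h1 : orderOf t = 2) (h2 : ¬ IsConj z t) :
    ∃ k : G, k * v {none, some 0} * k⁻¹ = t :=
  isConj_iff.1 ((h.two_classes t h1 {none, some 0} (by simp)).resolve_left h2)

variable [Finite G]

theorem card_duad_le {D : Finset GolayPt} (hD : D.card = 2) {a : G}
    (ha : a ∈ centralizer ({v D} : Set G)) {q : ℕ} (hq : q = 5 ∨ q = 7) (e : orderOf a = q) :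
    Nat.card ↥(centralizer ({v D} : Set G) ⊓ centralizer ({a} : Set G)) ≤
      Nat.card ↥(V ⊓ centralizer ({a} : Set G)) * (2 * q) := by
  have h1 := h.cent_duad D hD
  have h2 : ∀ g ∈ centralizer ({v D} : Set G), ρ g • D = D := fun g hg =>
    h.toCoc.smul_eq_of_comm (h1 hg) hD (mem_cent.1 hg)
  rw [h.toCoc.card_le _ (inf_le_left.trans h1)]
  refine Nat.mul_le_mul (card_le_of_le fun u hu => ⟨hu.2, hu.1.2⟩) (card_le_duad (h.ρ_mem a) hq
    (h.orderOf_ρ (h1 ha) hq e) hD (h2 a ha) (fun σ hσ => ?_) fun σ hσ => ?_) <;>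
    obtain ⟨g, hg, rfl⟩ := (h.toCoc.mem_map_hom (inf_le_left.trans h1)).1 hσ
  · refine ⟨h.ρ_mem g, mem_centralizer_singleton_iff.2 ?_⟩
    rw [← h.ρ_mul _ (h1 hg.1) _ (h1 ha), ← h.ρ_mul _ (h1 ha) _ (h1 hg.1),
      mem_centralizer_singleton_iff.1 hg.2]
  · exact h2 g hg.1

omit h [Finite G] in
theorem conj_back {k d a : G} (ha : a ∈ centralizer ({k * d * k⁻¹} : Set G)) :
    k⁻¹ * a * k ∈ centralizer ({d} : Set G) := by
  rwa [← conj_smul_centralizer_singleton, Solv.mem_conj_smul] at ha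

theorem card_t {t a : G} (h1 : orderOf t = 2) (h2 : ¬ IsConj z t)
    (ha : a ∈ centralizer ({t} : Set G)) :
    (orderOf a = 5 → Nat.card ↥(centralizer ({t} : Set G) ⊓ centralizer ({a} : Set G)) ≤ 80) ∧
    (orderOf a = 7 → Nat.card ↥(centralizer ({t} : Set G) ⊓ centralizer ({a} : Set G)) ≤ 56) := by
  obtain ⟨k, rfl⟩ := h.exists_duad h1 h2
  have h3 := conj_back ha
  have h4 := h.cent_duad _ (by simp) h3
  obtain ⟨b, rfl⟩ : ∃ b, a = k * b * k⁻¹ := ⟨k⁻¹ * a * k, by group⟩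
  rw [show k⁻¹ * (k * b * k⁻¹) * k = b by group] at h3 h4
  rw [card_cent_conj2, orderOf_conj']
  refine ⟨fun e => ?_, fun e => ?_⟩
  · have := h.card_duad_le (by simp) h3 (Or.inl rfl) e
    rwa [(h.cV5 h4 e).1] at this
  · have := h.card_duad_le (by simp) h3 (Or.inr rfl) e
    rwa [h.cV7 h4 e] at this

omit [Finite G] in
theorem le_cent_of_duad {D : Finset GolayPt} (hD : D.card = 2) {a s : G}
    (hs : s ∈ V ⊓ centralizer ({a} : Set G) ∧ IsConj z s)
    (hu : ∀ u, u ∈ V ⊓ centralizer ({a} : Set G) → IsConj z u → u = s) :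
    centralizer ({v D} : Set G) ⊓ centralizer ({a} : Set G) ≤ centralizer ({s} : Set G) :=
  fun g hg => mem_cent.2 (hu _ ⟨conj_mem_of_mem_normalizer (h.cent_duad D hD hg.1) hs.1.1,
    mul_mem (mul_mem (mem_inf.1 hg).2 (mem_inf.1 hs.1).2) (Subgroup.inv_mem _ (mem_inf.1 hg).2)⟩
    (hs.2.trans (isConj_iff.2 ⟨g, rfl⟩)))

omit [Finite G] in
theorem exists_z {t a : G} (h1 : orderOf t = 2) (h2 : ¬ IsConj z t)
    (ha : a ∈ centralizer ({t} : Set G)) (e : orderOf a = 5) :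
    ∃ s ∈ centralizer ({a} : Set G), IsConj z s ∧
      centralizer ({t} : Set G) ⊓ centralizer ({a} : Set G) ≤ centralizer ({s} : Set G) := by
  obtain ⟨k, rfl⟩ := h.exists_duad h1 h2
  have h3 := conj_back ha
  obtain ⟨b, rfl⟩ : ∃ b, a = k * b * k⁻¹ := ⟨k⁻¹ * a * k, by group⟩
  rw [show k⁻¹ * (k * b * k⁻¹) * k = b by group] at h3
  obtain ⟨s, hs, hu⟩ := h.unique5 (h.cent_duad _ (by simp) h3) (by rwa [orderOf_conj'] at e)
  refine ⟨k * s * k⁻¹, ?_, hs.2.trans (isConj_iff.2 ⟨k, rfl⟩), ?_⟩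
  · rw [← conj_smul_centralizer_singleton]; exact conj_mem_conj_smul k hs.1.2
  · rw [← conj_smul_centralizer_singleton, ← conj_smul_centralizer_singleton,
      ← conj_smul_centralizer_singleton, ← smul_inf]
    exact conj_smul_mono k (h.le_cent_of_duad (by simp) hs hu)

omit [Finite G] in
theorem not_inv {t a g : G} (h1 : orderOf t = 2) (h2 : ¬ IsConj z t)
    (ha : a ∈ centralizer ({t} : Set G)) (e : orderOf a = 7) (hg : g ∈ centralizer ({t} : Set G)) :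
    g * a * g⁻¹ ≠ a⁻¹ := fun e1 => by
  obtain ⟨k, rfl⟩ := h.exists_duad h1 h2
  have h3 := h.cent_duad _ (by simp) (conj_back ha)
  have h4 := h.cent_duad _ (by simp) (conj_back hg)
  refine not_inv_seven (h.ρ_mem _) (h.orderOf_ρ h3 (Or.inr rfl) (by
    rw [← e, ← orderOf_conj' k⁻¹ a, inv_inv])) (h.ρ_mem (k⁻¹ * g * k)) ?_
  rw [← h.toCoc.ρ_conj h4 h3, ← h.toCoc.ρ_inv h3]
  congr 1
  calc _ = k⁻¹ * (g * a * g⁻¹) * k := by group
    _ = _ := by rw [e1]; group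

end Tw

namespace Fw

variable {z x : G} {Q V : Subgroup G} {p ρ : G → Perm GolayPt} {v : Finset GolayPt → G}
  {κ : M24 →* G} (h : Fw z x Q V p v ρ κ)
include h

theorem zV : z ∈ V := h.w_z ▸ h.toCoc.w_mem (by decide +kernel)

theorem card_N3 : Nat.card ↥(Q ⊔ zpowers x) = 2 ^ 13 * 3 := by
  rw [card_sup_of_disjoint_of_le_normalizer (zpowers_le.2 (h.set.pre.norm h.set.xH))
    (eq_bot_iff.2 fun y hy => h.set.eq_one_of_mem hy.2 hy.1), h.set.cardQ, Nat.card_zpowers,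
    h.set.x3]

theorem card_p {K : Subgroup G} (hK : K ≤ centralizer ({z} : Set G)) : Nat.card K =
    Nat.card ↥(K ⊓ (Q ⊔ zpowers x)) * Nat.card ((K.subgroupOf _).map h.set.hom) :=
  card_eq_mul_map h.set.hom hK fun g => h.set.p_eq_one g g.2

theorem card_H : Nat.card (centralizer ({z} : Set G)) = 2 ^ 21 * 10395 := by
  rw [h.card_p le_rfl, inf_eq_right.2 (sup_le h.set.QH (zpowers_le.2 h.set.xH)), h.card_N3,
    show (2 ^ 21 * 10395 : ℕ) = 2 ^ 13 * 3 * 887040 by norm_num, ← card_D22]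
  congr 3
  ext σ
  exact ⟨fun ⟨k, _, e⟩ => e ▸ h.set.p_mem k, fun hσ => by
    obtain ⟨k, hk, -, e⟩ := h.set.p_surj σ hσ
    exact ⟨⟨k, hk⟩, hk, e⟩⟩

theorem card_Y : Nat.card ↥(normalizer (V : Set G) ⊓ centralizer ({z} : Set G)) = 2 ^ 21 * 135 := by
  have := card_inf_mul_relIndex (normalizer (V : Set G)) (centralizer ({z} : Set G))
  rw [h.idx, h.card_H] at this
  omega

theorem card_cent_s {s : G} (hs : s ∈ Q) (h1 : s ≠ z) (h2 : IsConj z s) [Finite G] :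
    Nat.card ↥(centralizer ({z} : Set G) ⊓ centralizer ({s} : Set G)) = 2 ^ 20 * 15 := by
  have h3 := cnt_conj_mul (centralizer ({z} : Set G)) s
  have h4 := (h.orbZ s hs h1 h2).1
  rw [← Nat.card_coe_set_eq] at h4
  rw [show cnt (fun g => ∃ k ∈ centralizer ({z} : Set G), k * s * k⁻¹ = g) = 1386 from h4,
    h.card_H] at h3
  omega

variable [Finite G]

theorem card_z_le {a : G} (ha : a ∈ centralizer ({z} : Set G)) {q : ℕ} (hq : q = 5 ∨ q = 7)
    (e : orderOf a = q) : Nat.card ↥(centralizer ({z} : Set G) ⊓ centralizer ({a} : Set G)) ≤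
      3 * Nat.card ↥(Q ⊓ centralizer ({a} : Set G)) * (2 * q) := by
  have : Fact q.Prime := ⟨by rcases hq with rfl | rfl <;> norm_num⟩
  have h1 : orderOf (p a) = q := by
    refine orderOf_eq_prime (by rw [← h.set.p_pow ha, ← e, pow_orderOf_eq_one, h.set.p_one])
      fun e1 => ?_
    have := orderOf_dvd_card' ((h.set.p_eq_one a ha).1 e1)
    rw [e, h.card_N3] at this
    rcases hq with rfl | rfl <;> norm_num at this
  rw [h.card_p inf_le_left]
  refine Nat.mul_le_mul ?_ (card_le_duad (D := {none, some 0}) (D22_le_M24 (h.set.p_mem a)) hq h1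
    (by simp) (mem_D22.1 (h.set.p_mem a)).2 ?_ ?_)
  · have h2 := card_mul_relIndex_of_le (le_sup_left : Q ≤ Q ⊔ zpowers x)
    rw [h.card_N3, h.set.cardQ, mul_right_inj' (by norm_num)] at h2
    rw [← card_inf_mul_relIndex Q, mul_comm]
    exact Nat.mul_le_mul (h2 ▸ relIndex_le_of_le_right inf_le_right (by rw [h2]; norm_num))
      (card_le_of_le fun g hg => ⟨hg.1, hg.2.1.2⟩)
  · rintro _ ⟨g, hg, rfl⟩
    refine ⟨D22_le_M24 (h.set.p_mem g), mem_centralizer_singleton_iff.2 ?_⟩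
    rw [h.set.hom_apply, ← h.set.p_mul _ g.2 _ ha, ← h.set.p_mul _ ha _ g.2]
    exact congrArg p (mem_centralizer_singleton_iff.1 hg.2)
  · rintro _ ⟨g, -, rfl⟩
    exact (mem_D22.1 (h.set.p_mem g)).2

theorem card_Q7 {a : G} (ha : a ∈ centralizer ({z} : Set G)) (e : orderOf a = 7) :
    Nat.card ↥(Q ⊓ centralizer ({a} : Set G)) = 2 := by
  have S := h.set.pre.toSympPair
  have k1 : ∀ s ∈ Q ⊓ centralizer ({a} : Set G), s ∉ zpowers z → s * s = z := fun s hs h1 => by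
    refine (S.mem_iff.1 (S.sq_mem s hs.1)).resolve_left fun h2 => ?_
    rw [S.mem_iff, not_or] at h1
    by_cases h3 : IsConj z s
    · have := orderOf_dvd_card' (show a ∈ _ ⊓ centralizer ({s} : Set G) from ⟨ha, cent_symm hs.2⟩)
      rw [h.card_cent_s hs.1 h1.2 h3, e] at this
      norm_num at this
    obtain ⟨k, hk, h4⟩ := h.invQ s hs.1 h2
    obtain ⟨D, hD, e1⟩ := h.duad_of h4 (by simpa using h1.1)
      fun h5 => h3 (h5.trans (isConj_iff.2 ⟨k, rfl⟩).symm)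
    have := orderOf_dvd_card' (show k * a * k⁻¹ ∈ normalizer (V : Set G) ⊓ _ from
      ⟨h.cent_duad D hD (by
        rw [e1, ← conj_smul_centralizer_singleton]; exact conj_mem_conj_smul k (cent_symm hs.2)),
        mul_mem (mul_mem hk ha) (Subgroup.inv_mem _ hk)⟩)
    rw [h.card_Y, orderOf_conj', e] at this
    norm_num at this
  have k2 := card_modEq (by norm_num) e (h.set.pre.norm ha)
  obtain ⟨n, e1⟩ := IsPGroup.iff_card.1 (S.isPGroup.to_le (inf_le_left : Q ⊓ centralizer {a} ≤ Q))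
  rw [h.set.cardQ, e1] at k2
  have k3 : n < 4 := by
    by_contra hc
    have l1 : 16 ≤ Nat.card ↥(Q ⊓ centralizer ({a} : Set G)) :=
      e1 ▸ Nat.pow_le_pow_right (n := 2) (by norm_num) (not_lt.1 hc)
    obtain ⟨b, hb, l2⟩ := exists_ne_two (by omega : 2 < Nat.card ↥(Q ⊓ centralizer ({a} : Set G))) z
    have l3 := k1 b hb (S.mem_iff.not.2 (not_or.2 l2))
    have l4 := cnt_conj_mul (Q ⊓ centralizer ({a} : Set G)) b
    have l5 : cnt (fun g => ∃ k ∈ Q ⊓ centralizer ({a} : Set G), k * b * k⁻¹ = g) ≤ 2 := by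
      classical
      refine (cnt_le (Q := (· ∈ ({b, z * b} : Finset G))) ?_).trans ?_
      · rintro _ ⟨k, hk, rfl⟩
        rcases S.comm_or hk.1 hb.1 with e2 | e2 <;> simp [e2]
      · exact (Nat.card_eq_finsetCard _).le.trans Finset.card_le_two
    have l6 : Nat.card (zpowers b) ≤ 4 := by
      rw [Nat.card_zpowers]
      exact orderOf_le_of_pow_eq_one (by norm_num) (by
        rw [show b ^ 4 = b * b * (b * b) by simp [pow_succ, mul_assoc], l3, S.mul_self])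
    obtain ⟨c, hc1, hc2⟩ : ∃ c ∈ Q ⊓ centralizer ({a} : Set G) ⊓ centralizer ({b} : Set G),
        c ∉ zpowers b := SetLike.not_le_iff_exists.1 fun l7 => by
      have := card_le_of_le l7
      nlinarith
    have l7 : zpowers z ≤ zpowers b := zpowers_le.2 (l3 ▸ mul_mem (mem_zpowers b) (mem_zpowers b))
    have l8 := k1 _ (mul_mem hb hc1.1) fun l9 => hc2 (by
      simpa using mul_mem (inv_mem (mem_zpowers b)) (l7 l9))
    rw [mul_assoc, ← mul_assoc c, mem_centralizer_singleton_iff.1 hc1.2, mul_assoc, ← mul_assoc, l3,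
      k1 c hc1.1 fun l9 => hc2 (l7 l9), S.mul_self] at l8
    exact S.ne_one l8.symm
  rw [e1]
  interval_cases n <;> simp_all

theorem card_z7 {s a : G} (hs : IsConj z s) (ha : a ∈ centralizer ({s} : Set G))
    (e : orderOf a = 7) : Nat.card ↥(centralizer ({s} : Set G) ⊓ centralizer ({a} : Set G)) ≤ 84 := by
  obtain ⟨k, rfl⟩ := isConj_iff.1 hs
  have h3 := Tw.conj_back ha
  obtain ⟨b, rfl⟩ : ∃ b, a = k * b * k⁻¹ := ⟨k⁻¹ * a * k, by group⟩
  rw [show k⁻¹ * (k * b * k⁻¹) * k = b by group] at h3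
  rw [orderOf_conj'] at e
  have := h.card_z_le h3 (Or.inr rfl) e
  rw [h.card_Q7 h3 e] at this
  rwa [card_cent_conj2]

omit [Finite G] in
theorem exists_model : ∃ f ∈ normalizer (V : Set G), orderOf f = 5 ∧
    f ∈ centralizer ({x} : Set G) := by
  refine ⟨κ ⟨_, inSub_pf.2⟩, h.κ_mem _, by rw [h.orderOf_κ, orderOf_pf], ?_⟩
  rw [← h.κ_x ⟨_, inSub_r3A.2⟩ rfl, mem_centralizer_singleton_iff]
  exact Tw.κ_comm ((inSub_pf.rep.comm_iff inSub_r3A.rep).1 (by decide +kernel))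

theorem five {a : G} (ha : a ∈ centralizer ({z} : Set G)) (e : orderOf a = 5) :
    Nat.card ↥(Q ⊓ centralizer ({a} : Set G)) ≤ 32 ∧
    cnt (fun s => (s ∈ Q ∧ s ≠ z ∧ IsConj z s) ∧ s ∈ centralizer ({a} : Set G)) ≤ 6 ∧
    ∃ t ∈ centralizer ({a} : Set G), orderOf t = 2 ∧ ¬ IsConj z t ∧
      centralizer ({t} : Set G) ⊓ centralizer ({a} : Set G) ≤ centralizer ({z} : Set G) := by
  have S := h.set.pre.toSympPair
  obtain ⟨f, hf, e1, hx⟩ := h.exists_model
  have hz := h.cent_x hx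
  obtain ⟨k, hk, e2⟩ := exists_conj_cent (by norm_num) (by rw [h.card_H]; norm_num) hz ha e1 e
  have hQ := conj_smul_eq_of_mem_normalizer (h.set.pre.norm hk)
  have k1 : Nat.card ↥(Q ⊓ centralizer ({f} : Set G)) ≤ 32 := by
    have l1 : Q ⊓ centralizer ({f} : Set G) ≤ normalizer (V : Set G) := inf_le_left.trans h.Q_le
    have l0 := h.toCoc.card_le _ l1
    obtain ⟨n, l2⟩ := IsPGroup.iff_card.1 (S.isPGroup.to_le (inf_le_left : Q ⊓ centralizer {f} ≤ Q))
    have l3 := card_le_of_le (show Q ⊓ centralizer ({f} : Set G) ⊓ V ≤ V ⊓ centralizer {f} from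
      fun u hu => ⟨hu.2, hu.1.2⟩)
    have l4 := card_dvd_of_le (show ((Q ⊓ centralizer ({f} : Set G)).subgroupOf _).map h.toCoc.hom ≤
      M24 ⊓ centralizer {ρ f} from fun σ hσ => by
        obtain ⟨g, hg, rfl⟩ := (h.toCoc.mem_map_hom l1).1 hσ
        refine ⟨h.ρ_mem g, mem_centralizer_singleton_iff.2 ?_⟩
        rw [← h.ρ_mul _ (l1 hg) _ hf, ← h.ρ_mul _ hf _ (l1 hg), mem_centralizer_singleton_iff.1 hg.2])
    rw [card_cent_five (h.ρ_mem f) (h.orderOf_ρ hf (Or.inl rfl) e1)] at l4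
    rw [(h.cV5 hf e1).1] at l3
    obtain ⟨m, -, l5⟩ := (Nat.dvd_prime_pow Nat.prime_two).1 (l2 ▸ Dvd.intro_left _ l0.symm)
    rw [l5] at l0 l4
    have l6 : m < 3 := by
      by_contra hc
      exact absurd ((pow_dvd_pow 2 (not_lt.1 hc)).trans l4) (by norm_num)
    interval_cases m <;> omega
  rw [← cent_of_conj e2]
  refine ⟨by rwa [← hQ, ← smul_inf, card_conj_smul], ?_, ?_⟩
  · rw [← cnt_congr_equiv (P := fun s => (s ∈ Q ∧ s ≠ z ∧ IsConj z s) ∧
      s ∈ centralizer ({f} : Set G)) (MulAut.conj k).toEquiv fun s => and_congr (and_congr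
        (mem_normalizer_iff.1 (h.set.pre.norm hk) s) (and_congr (not_congr ⟨fun e => by rw [e]; exact mem_cent.1 hk,
          fun e => (MulAut.conj k).injective (e.trans (mem_cent.1 hk).symm)⟩)
          ⟨fun e => e.trans (isConj_iff.2 ⟨k, rfl⟩), fun e => e.trans (isConj_iff.2 ⟨k, rfl⟩).symm⟩))
        conj_mem_conj_smul_iff.symm]
    have l0 : ∀ g ∈ centralizer ({z} : Set G), ∀ s, s ∈ Q ∧ s ≠ z ∧ IsConj z s →
        g * s * g⁻¹ ∈ Q ∧ g * s * g⁻¹ ≠ z ∧ IsConj z (g * s * g⁻¹) := fun g hg s hs =>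
      ⟨conj_mem_of_mem_normalizer (h.set.pre.norm hg) hs.1, fun e => hs.2.1
        ((MulAut.conj g).injective (e.trans (mem_cent.1 hg).symm)), hs.2.2.trans
        (isConj_iff.2 ⟨g, rfl⟩)⟩
    have l1 := cnt_modEq (by norm_num) e1 (l0 f hz)
    have l2 := cnt_modEq (by norm_num) h.set.x3 (P := fun s => (s ∈ Q ∧ s ≠ z ∧ IsConj z s) ∧
      s ∈ centralizer ({f} : Set G)) fun s hs => ⟨l0 x h.set.xH s hs.1,
        mul_mem (mul_mem (cent_symm hx) hs.2) (inv_mem (cent_symm hx))⟩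
    rw [cnt_eq_zero (P := fun g => _ ∧ g ∈ centralizer ({x} : Set G)) fun s hs =>
      (S.mem_iff.1 (h.set.fix s hs.1.1.1 (mem_centralizer_singleton_iff.1 hs.2).symm)).elim
        (h.ne_one_of_conj hs.1.1.2.2) hs.1.1.2.1] at l2
    have l3 := dvd_cnt_of_dvd_index_stabilizer (A := zpowers z) (n := 2)
      (fun s => (s ∈ Q ∧ s ≠ z ∧ IsConj z s) ∧ s ∈ centralizer ({f} : Set G)) (fun w s hs => by
        rcases S.mem_iff.1 w.2 with e3 | e3 <;> rw [Subgroup.smul_def, e3, smul_eq_mul]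
        · rwa [one_mul]
        obtain ⟨q, hq, e4⟩ := S.exists_conj_eq_mul' le_rfl hs.1.1 fun hc =>
          (S.mem_iff.1 (h.set.pre.cent hc)).elim (h.ne_one_of_conj hs.1.2.2) hs.1.2.1
        exact ⟨e4 ▸ l0 q (h.set.QH hq) s hs.1, mul_mem (cent_symm hz) hs.2⟩) fun s _ => by
        rw [IsCancelSMul.stabilizer_eq_bot, index_bot, Nat.card_zpowers, S.ord]
    have l4 := (cnt_le (P := fun s => (s ∈ Q ∧ s ≠ z ∧ IsConj z s) ∧ s ∈ centralizer ({f} : Set G))
      (Q := (· ∈ Q ⊓ centralizer ({f} : Set G))) fun s hs => ⟨hs.1.1, hs.2⟩).trans k1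
    by_cases l5 : ∃ s, s ∈ Q ∧ s ≠ z ∧ IsConj z s
    · obtain ⟨s, hs⟩ := l5
      have l6 := h.orbZ s hs.1 hs.2.1 hs.2.2
      rw [← Nat.card_coe_set_eq] at l6
      rw [cnt_congr (Q := fun g => ∃ k ∈ centralizer ({z} : Set G), k * s * k⁻¹ = g) (fun g =>
        ⟨fun hg => l6.2 g hg.1 hg.2.1 hg.2.2, fun ⟨k, hk, e⟩ => e ▸ l0 k hk s hs⟩),
        show cnt (fun g => ∃ k ∈ centralizer ({z} : Set G), k * s * k⁻¹ = g) = 1386 from l6.1] at l1
      omega
    · rw [cnt_eq_zero fun s hs => l5 ⟨s, hs.1⟩]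
      norm_num
  · obtain ⟨s, hs, hu⟩ := h.unique5 hf e1
    obtain rfl := hu z ⟨h.zV, cent_symm hz⟩ (IsConj.refl z)
    obtain ⟨t, ht, l1, l2⟩ := exists_ne_two (X := V ⊓ centralizer ({f} : Set G))
      (by rw [(h.cV5 hf e1).1]; norm_num) z
    have l3 : ¬ IsConj z t := fun e => l2 (hu t ht e)
    obtain ⟨D, hD, rfl⟩ := h.duad_of ht.1 l1 l3
    refine ⟨_, conj_mem_conj_smul k ht.2, by
      rw [orderOf_conj', orderOf_two (h.toCoc.v_sq D) l1], fun e => l3
      (e.trans (isConj_iff.2 ⟨k, rfl⟩).symm), ?_⟩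
    rw [← conj_smul_centralizer_singleton, ← smul_inf, ← mem_cent.1 hk,
      ← conj_smul_centralizer_singleton]
    exact conj_smul_mono k (h.le_cent_of_duad hD hs hu)

end Fw

end Cfsg.Lib.SporChar.J4C
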