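import Cfsg.Agent.SporChar.J4CP

/-! Small facts about `S₅` and `L₃(2)` and counting lemmas for the pentad subgroup. -/

set_option autoImplicit false
set_option maxRecDepth 100000

namespace Cfsg.Lib.SporChar.J4C

open Subgroup Equiv Cfsg.Lib.Spor Cfsg.Lib.Solv Cfsg.Lib.Solv.Count J4B Cfsg.Lib.Local
open scoped Pointwise

/-- A five-cycle. -/
def c5 : Perm (Fin 5) := finRotate 5

/-- A transposition. -/
def ta : Perm (Fin 5) := swap 0 1

/-- A double transposition. -/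
def tb : Perm (Fin 5) := swap 0 1 * swap 2 3

/-- An element conjugating the five-cycle to its square. -/
def r5 : Perm (Fin 5) := swap 1 2 * swap 2 4 * swap 4 3

theorem S5_invol : ∀ σ : Perm (Fin 5), σ * σ = 1 →
    σ = 1 ∨ (∃ k, k * ta * k⁻¹ = σ) ∨ ∃ k, k * tb * k⁻¹ = σ := by decide +kernel

theorem S5_cent : ∀ τ : Perm (Fin 5), τ * c5 = c5 * τ → ∃ i < 5, τ = c5 ^ i := by decide +kernel

theorem S5_r5 : r5 * c5 * r5⁻¹ = c5 ^ 2 := by decide +kernel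

theorem orderOf_c5 : orderOf c5 = 5 :=
  have : Fact (Nat.Prime 5) := ⟨by norm_num⟩
  orderOf_eq_prime (by decide +kernel) (by decide +kernel)

theorem orderOf_ta : orderOf ta = 2 := orderOf_eq_prime (by decide +kernel) (by decide +kernel)

theorem orderOf_tb : orderOf tb = 2 := orderOf_eq_prime (by decide +kernel) (by decide +kernel)

theorem card_cent_ta : Nat.card (centralizer ({ta} : Set (Perm (Fin 5)))) = 12 := by
  rw [Nat.card_congr (Equiv.subtypeEquivRight fun _ => mem_centralizer_singleton_iff),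
    Nat.card_eq_fintype_card]
  decide +kernel

theorem card_cent_tb : Nat.card (centralizer ({tb} : Set (Perm (Fin 5)))) = 8 := by
  rw [Nat.card_congr (Equiv.subtypeEquivRight fun _ => mem_centralizer_singleton_iff),
    Nat.card_eq_fintype_card]
  decide +kernel

theorem card_S5 : Nat.card (Perm (Fin 5)) = 120 := by
  rw [Nat.card_perm, Nat.card_eq_fintype_card, Fintype.card_fin]; rfl

/-- Matrices conjugating the standard transvection to the involutions. -/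
def lP : List (Matrix (Fin 3) (Fin 3) (ZMod 2)) :=
  [!![1,0,0;0,0,1;1,1,0], !![1,0,0;1,0,1;1,1,0], !![1,0,0;1,1,0;0,0,1], !![1,0,0;1,1,0;1,0,1],
    !![1,0,0;0,0,1;1,1,1], !![1,0,0;1,0,1;0,1,1], !![0,0,1;1,0,0;1,1,0], !![0,0,1;0,1,0;1,0,0],
    !![0,1,0;0,0,1;1,0,0], !![0,0,1;0,1,1;1,0,0], !![0,0,1;1,0,0;0,1,0], !![0,0,1;1,0,0;1,1,1],
    !![0,1,0;1,0,0;0,0,1], !![0,1,0;1,0,0;1,0,1], !![0,0,1;1,0,0;0,1,1], !![1,0,0;0,0,1;0,1,0],
    !![1,0,0;1,0,1;0,1,0], !![1,0,0;0,1,0;0,0,1], !![1,0,0;0,1,0;1,0,1], !![1,0,0;1,0,1;1,1,1],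
    !![1,0,0;0,0,1;0,1,1]]

theorem SL3_conj {a b : Matrix.SpecialLinearGroup (Fin 3) (ZMod 2)} (h1 : a * a = 1) (h2 : a ≠ 1)
    (h3 : b * b = 1) (h4 : b ≠ 1) : IsConj a b := by
  have k1 : ∀ A : Matrix (Fin 3) (Fin 3) (ZMod 2), A * A = 1 →
      A = 1 ∨ ∃ P ∈ lP, P * !![1,1,0;0,1,0;0,0,1] = A * P := by decide +kernel
  have k2 : ∀ P ∈ lP, P.det = 1 := by simp only [Matrix.det_fin_three]; decide +kernel
  have k3 : ∀ c : Matrix.SpecialLinearGroup (Fin 3) (ZMod 2), c * c = 1 → c ≠ 1 →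
      IsConj ⟨!![1,1,0;0,1,0;0,0,1], by rw [Matrix.det_fin_three]; decide⟩ c := fun c e1 e2 => by
    obtain ⟨P, hP, e⟩ := (k1 c.1 (congrArg Subtype.val e1)).resolve_left fun e => e2 (Subtype.ext e)
    exact isConj_iff.2 ⟨⟨P, k2 P hP⟩, mul_inv_eq_iff_eq_mul.2 (Subtype.ext e)⟩
  exact (k3 a h1 h2).symm.trans (k3 b h3 h4)

theorem aut_equiv_SL3 {U : Type*} [Group U] [Finite U] [ElemAb 2 U] (h : Nat.card U = 8) :
    Nonempty (MulAut U ≃* Matrix.SpecialLinearGroup (Fin 3) (ZMod 2)) := by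
  obtain ⟨e⟩ := Vec.nonempty_autEquivGL (p := 2) (V := U) (n := 3) h
  refine ⟨e.trans (MulEquiv.ofBijective Matrix.SpecialLinearGroup.toGL
    ⟨Matrix.SpecialLinearGroup.toGL_injective, fun g => ⟨⟨g.1, ?_⟩, Units.ext rfl⟩⟩).symm⟩
  exact (by decide : ∀ a : ZMod 2, a ≠ 0 → a = 1) _ (Matrix.GeneralLinearGroup.det g).ne_zero

variable {G : Type*} [Group G]

theorem exists_phi {K : Subgroup G} (h : K.index = 5) : ∃ φ : G →* Perm (Fin 5), φ.ker ≤ K := by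
  have : Finite (G ⧸ K) := Nat.finite_of_card_ne_zero (by rw [← index_eq_card, h]; norm_num)
  let e : G ⧸ K ≃ Fin 5 := Finite.equivFinOfCardEq (by rw [← index_eq_card, h])
  refine ⟨e.permCongrHom.toMonoidHom.comp (MulAction.toPermHom G (G ⧸ K)), fun g hg => ?_⟩
  refine normalCore_le K (normalCore_eq_ker K ▸ ?_)
  exact e.permCongrHom.injective (hg.trans (map_one _).symm)

theorem conj_pow' {g y : G} {i : ℕ} (e : g * y * g⁻¹ = y ^ i) (n : ℕ) :
    g ^ n * y * (g ^ n)⁻¹ = y ^ i ^ n := by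
  induction n with
  | zero => simp
  | succ n ih =>
    rw [pow_succ', pow_succ', pow_mul, ← e, conj_pow, ← ih]
    group

variable [Finite G]

theorem exists_pow_of_mem {y g : G} (h : g ∈ zpowers y) : ∃ i < orderOf y, g = y ^ i := by
  obtain ⟨n, rfl⟩ := (mem_powers_iff_mem_zpowers.2 h : g ∈ Submonoid.powers y)
  exact ⟨_, Nat.mod_lt n (orderOf_pos y), (pow_mod_orderOf y n).symm⟩

theorem card_eq_mul_cent {K : Subgroup G} {y : G} {S : Finset ℕ} (h1 : ∀ i ∈ S, i < orderOf y)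
    (h2 : ∀ k ∈ K, ∃ i ∈ S, k * y * k⁻¹ = y ^ i) (h3 : ∀ i ∈ S, ∃ k ∈ K, k * y * k⁻¹ = y ^ i) :
    Nat.card K = S.card * Nat.card ↥(K ⊓ centralizer ({y} : Set G)) := by
  classical
  rw [← cnt_conj_mul K y, cnt_congr (Q := (· ∈ S.image (y ^ ·))) fun g => ?_, cnt_def,
    Nat.card_eq_finsetCard, Finset.card_image_of_injOn fun i hi j hj e =>
      pow_injOn_Iio_orderOf (h1 i hi) (h1 j hj) e]
  rw [Finset.mem_image]
  constructor
  · rintro ⟨k, hk, rfl⟩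
    obtain ⟨i, hi, e⟩ := h2 k hk
    exact ⟨i, hi, e.symm⟩
  · rintro ⟨i, hi, rfl⟩
    exact h3 i hi

/-- A subgroup with two non-fused classes of involutions containing their centralizers. -/
theorem le_of_two_classes {C X : Subgroup G} (hX : X ≤ C) {a b : G} (ha : a ∈ X) (hb : b ∈ X)
    (a2 : orderOf a = 2) (b2 : orderOf b = 2) (hab : ¬ IsConj a b)
    (h : ∀ w ∈ X, orderOf w = 2 → ∃ k ∈ X, k * a * k⁻¹ = w ∨ k * b * k⁻¹ = w)
    (h1 : C ⊓ centralizer ({a} : Set G) ≤ X) (h2 : C ⊓ centralizer ({b} : Set G) ≤ X) : C ≤ X := by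
  have k1 : ∀ w ∈ X, orderOf w = 2 → C ⊓ centralizer ({w} : Set G) ≤ X := fun w hw e g hg => by
    obtain ⟨k, hk, e1⟩ := h w hw e
    have l1 : k⁻¹ * g * k ∈ C := mul_mem (mul_mem (inv_mem (hX hk)) hg.1) (hX hk)
    have l2 : k⁻¹ * g * k ∈ X := by
      rcases e1 with rfl | rfl
      exacts [h1 ⟨l1, Tw.conj_back hg.2⟩, h2 ⟨l1, Tw.conj_back hg.2⟩]
    simpa [mul_assoc] using mul_mem (mul_mem hk l2) (inv_mem hk)
  intro g hg
  have l1 : g * a * g⁻¹ ∈ C := mul_mem (mul_mem hg (hX ha)) (inv_mem hg)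
  have l2 : orderOf (g * a * g⁻¹) = 2 := by rw [orderOf_conj', a2]
  obtain ⟨w, l3, l4, l5, l6⟩ := exists_invol_commute_of_not_isConj l2 b2
    fun e => hab ((isConj_iff.2 ⟨g, rfl⟩).trans e)
  have l7 : w ∈ C := zpowers_le.2 (mul_mem l1 (hX hb)) l3
  obtain ⟨k, hk, e⟩ := h _ (k1 w (h2 ⟨l7, mem_centralizer_singleton_iff.2 l6.eq.symm⟩) l4
    ⟨l1, mem_centralizer_singleton_iff.2 l5.eq⟩) l2
  have l8 := e.resolve_right fun e => hab ((isConj_iff.2 ⟨g, rfl⟩).trans (isConj_iff.2 ⟨k, e⟩).symm)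
  have l9 := h1 (show k⁻¹ * g ∈ C ⊓ centralizer ({a} : Set G) from ⟨mul_mem (C.inv_mem (hX hk)) hg,
    mem_cent.2 (by
      calc _ = k⁻¹ * (g * a * g⁻¹) * k := by group
        _ = a := by rw [← l8]; group)⟩)
  simpa using mul_mem hk l9

/-- An involution centralizes at least the square root of an elementary abelian group. -/
theorem card_le_sq {U : Subgroup G} (hU : ∀ u ∈ U, u * u = 1) {c : G}
    (hc : c ∈ normalizer (U : Set G)) (h2 : c * c = 1) :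
    Nat.card U ≤ Nat.card ↥(U ⊓ centralizer ({c} : Set G)) ^ 2 := by
  rw [← cnt_conj_mul U c, pow_two]
  refine Nat.mul_le_mul_right _ ((cnt_le (Q := fun g => g * c⁻¹ ∈ U ⊓ centralizer ({c} : Set G))
    ?_).trans (cnt_congr_equiv (Q := (· ∈ U ⊓ centralizer ({c} : Set G))) (Equiv.mulRight c⁻¹)
      fun _ => Iff.rfl).le)
  rintro _ ⟨u, hu, rfl⟩
  have l1 : c * u⁻¹ * c⁻¹ ∈ U := conj_mem_of_mem_normalizer hc (inv_mem hu)
  have l2 : u * c * u⁻¹ * c⁻¹ ∈ U := by simpa [mul_assoc] using mul_mem hu l1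
  refine ⟨l2, mem_centralizer_singleton_iff.2 ?_⟩
  conv_lhs => rw [← inv_eq_of_mul_eq_one_right (hU _ l2)]
  simp only [mul_inv_rev, inv_inv, inv_eq_of_mul_eq_one_right h2, mul_assoc]

theorem not_sq_dvd {P : Subgroup G} {p : ℕ} (hp : p.Prime) (h1 : Nat.card P = p)
    (h2 : ¬ p ^ 2 ∣ Nat.card (normalizer (P : Set G))) : ¬ p ^ 2 ∣ Nat.card G :=
  have : Fact p.Prime := ⟨hp⟩
  fun h => h2 (Sylow.prime_pow_dvd_card_normalizer (n := 1) h (h1.trans (pow_one p).symm))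

end Cfsg.Lib.SporChar.J4C
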