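import Cfsg.Agent.SporChar.J4CT

/-! Groups of type `J₄`: the trio subgroup `U` of order eight and the order of its normalizer. -/

set_option autoImplicit false
set_option maxRecDepth 100000

namespace Cfsg.Lib.SporChar.J4C

open Subgroup Equiv Cfsg.Lib.Spor Cfsg.Lib.Spor.MP Cfsg.Lib.SporChar.J4 Cfsg.Lib.Solv
  Cfsg.Lib.Solv.Count J4B MulAction Cfsg.Lib.Local
open scoped Pointwise

variable {G : Type*} [Group G]

/-- The trio subgroup of order eight. -/
def pU (v : Finset GolayPt → G) : Subgroup G := closure {v (sm 2880), v (sm 356), v (sm 2310)}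

/-- The element of order seven. -/
noncomputable def y0 (κ : M24 →* G) : G := κ ⟨_, inSub_py.2⟩

theorem uS_ev : ∀ s ∈ uS, evS s = true := by decide +kernel

theorem cnt_compl [Finite G] {U W : Subgroup G} (h : W ≤ U) :
    cnt (fun u => u ∈ U ∧ u ∉ W) + Nat.card W = Nat.card U := by
  rw [add_comm, ← cnt_congr (P := fun u => u ∈ U ∧ u ∈ W) (Q := (· ∈ W))
    (fun _ => ⟨fun e => e.2, fun e => ⟨h e, e⟩⟩) |>.trans (cnt_def _)]
  exact (cnt_add (· ∈ U) (· ∈ W)).symm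

namespace Tw

variable {z : G} {V : Subgroup G} {v : Finset GolayPt → G} {ρ : G → Perm GolayPt} {κ : M24 →* G}
  (h : Tw z V v ρ κ)
include h

theorem mem_U {g : G} : g ∈ pU v ↔ ∃ s ∈ uS, v (sm s) = g := by
  constructor
  · intro hg
    induction hg using closure_induction with
    | mem x hx =>
      rcases hx with rfl | rfl | rfl
      exacts [⟨_, by decide, rfl⟩, ⟨_, by decide, rfl⟩, ⟨_, by decide, rfl⟩]
    | one => exact ⟨0, by decide, h.toCoc.w_zero⟩
    | mul _ _ _ _ h1 h2 =>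
      obtain ⟨s, hs, rfl⟩ := h1
      obtain ⟨t, ht, rfl⟩ := h2
      exact ⟨s ^^^ t, (by decide +kernel : ∀ s ∈ uS, ∀ t ∈ uS, s ^^^ t ∈ uS) s hs t ht,
        h.toCoc.w_xor s t⟩
    | inv _ _ h1 =>
      obtain ⟨s, hs, rfl⟩ := h1
      exact ⟨s, hs, (inv_eq_of_mul_eq_one_right (h.toCoc.v_sq _)).symm⟩
  · rintro ⟨s, hs, rfl⟩
    obtain ⟨a, ha, b, hb, c, hc, rfl⟩ := (by decide +kernel : ∀ s ∈ uS, ∃ a ∈ [0, 2880],
      ∃ b ∈ [0, 356], ∃ c ∈ [0, 2310], s = a ^^^ b ^^^ c) s hs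
    rw [h.toCoc.w_xor, h.toCoc.w_xor]
    simp only [List.mem_cons, List.not_mem_nil, or_false] at ha hb hc
    refine mul_mem (mul_mem ?_ ?_) ?_
    · rcases ha with rfl | rfl
      exacts [h.toCoc.w_zero ▸ one_mem _, subset_closure (by simp)]
    · rcases hb with rfl | rfl
      exacts [h.toCoc.w_zero ▸ one_mem _, subset_closure (by simp)]
    · rcases hc with rfl | rfl
      exacts [h.toCoc.w_zero ▸ one_mem _, subset_closure (by simp)]

theorem w_U {s : ℕ} (hs : s ∈ uS) : v (sm s) ∈ pU v := h.mem_U.2 ⟨s, hs, rfl⟩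

theorem U_le : pU v ≤ V := fun _ hg => by
  obtain ⟨s, hs, rfl⟩ := h.mem_U.1 hg
  exact h.toCoc.w_mem (uS_ev s hs)

theorem sqU : ∀ u ∈ pU v, u * u = 1 := fun u hu => h.toCoc.sqV u (h.U_le hu)

theorem V_le_CU : V ≤ centralizer (pU v : Set G) := fun _ hg _ hu =>
  h.toCoc.commV (h.U_le hu) hg

theorem conj_U {u : G} (hu : u ∈ pU v) (h1 : u ≠ 1) : IsConj z u := by
  obtain ⟨s, hs, rfl⟩ := h.mem_U.1 hu
  exact (h.z_iff (uS_ev s hs)).2 ⟨fun e => h1 (e ▸ h.toCoc.w_zero),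
    (by decide +kernel : ∀ s ∈ uS, isDu s = false) s hs⟩

theorem card_U : Nat.card (pU v) = 8 := by
  refine (h.toCoc.cnt_w (P := (· ∈ pU v)) (F := fun s => uS.contains s) (fun _ hg => h.U_le hg)
    fun s hs => ?_).trans (by decide +kernel)
  rw [h.mem_U, List.contains_iff_mem]
  exact ⟨fun ⟨t, ht, e⟩ => (h.toCoc.w_inj (uS_ev t ht) hs).1 e ▸ ht, fun e => ⟨s, e, rfl⟩⟩

theorem elemAb_U : ElemAb 2 (pU v) :=
  ⟨fun a b => Subtype.ext (h.toCoc.commV (h.U_le a.2) (h.U_le b.2)),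
    fun a => Subtype.ext (by rw [Subgroup.coe_pow, pow_two, h.sqU _ a.2]; rfl)⟩

theorem rep_κ {t : ℕ} (ht : InSub M24 t) : Rep (ρ (κ ⟨_, ht.2⟩)) t := by
  rw [h.ρ_κ]; exact ht.rep

theorem mem_CU {n : G} (hn : n ∈ normalizer (V : Set G)) {t : ℕ} (r : Rep (ρ n) t) :
    n ∈ centralizer (pU v : Set G) ↔ cU t = true := by
  rw [cU, List.all_eq_true]
  refine ⟨fun e s hs => ?_, fun e u hu => ?_⟩
  · rw [Nat.beq_eq, ← h.toCoc.comm_w_iff hn r (uS_ev s hs)]
    exact e _ (h.w_U hs)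
  · obtain ⟨s, hs, rfl⟩ := h.mem_U.1 hu
    exact (h.toCoc.comm_w_iff hn r (uS_ev s hs)).2 (Nat.beq_eq ▸ e s hs)

theorem y_N : y0 κ ∈ normalizer (V : Set G) := h.κ_mem _

theorem rep_y : Rep (ρ (y0 κ)) py := h.rep_κ inSub_py

theorem orderOf_y : orderOf (y0 κ) = 7 := (h.orderOf_κ _).trans orderOf_py

variable [Finite G]

theorem mem_NU {n : G} (hn : n ∈ normalizer (V : Set G)) {t : ℕ} (r : Rep (ρ n) t)
    (e : nU t = true) : n ∈ normalizer (pU v : Set G) :=
  mem_normalizer_of_conj_mem fun u hu => by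
    obtain ⟨s, hs, rfl⟩ := h.mem_U.1 hu
    rw [h.toCoc.conj_w hn r (uS_ev s hs)]
    exact h.w_U (List.contains_iff_mem.1 (List.all_eq_true.1 e s hs))

theorem y_NU : y0 κ ∈ normalizer (pU v : Set G) := h.mem_NU h.y_N h.rep_y (by decide +kernel)

theorem equiv_aut : Nonempty (MulAut (pU v) ≃* Matrix.SpecialLinearGroup (Fin 3) (ZMod 2)) :=
  have := h.elemAb_U
  aut_equiv_SL3 h.card_U

theorem card_aut : Nat.card (MulAut (pU v)) = 168 := by
  obtain ⟨e⟩ := h.equiv_aut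
  rw [Nat.card_congr e.toEquiv, PK.card_SL32]

end Tw

namespace Fw

variable {z x : G} {Q V : Subgroup G} {p ρ : G → Perm GolayPt} {v : Finset GolayPt → G}
  {κ : M24 →* G} (h : Fw z x Q V p v ρ κ)
include h

theorem z_U : z ∈ pU v := h.w_z ▸ h.w_U (by decide)

theorem U_le_Q : pU v ≤ Q := fun _ hg => by
  obtain ⟨s, hs, rfl⟩ := h.mem_U.1 hg
  exact h.memW s (uS_ev s hs) ((by decide +kernel : ∀ s ∈ uS, inW s = true) s hs)

theorem trans_U {u : G} (hu : u ∈ pU v) (h1 : u ≠ 1) :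
    ∃ i : ℕ, y0 κ ^ i * z * (y0 κ ^ i)⁻¹ = u := by
  obtain ⟨s, hs, rfl⟩ := h.mem_U.1 hu
  obtain ⟨i, -, e⟩ := (by decide +kernel : ∀ s ∈ uS, s ≠ 0 → ∃ i < 7,
    J4B.act (ppow py i) 2880 = s) s hs fun e => h1 (e ▸ h.toCoc.w_zero)
  refine ⟨i, ?_⟩
  rw [← h.w_z, h.toCoc.conj_w (pow_mem h.y_N i) (by
    rw [h.toCoc.ρ_pow h.y_N]; exact h.rep_y.pow i) (by decide +kernel), e]

variable [Finite G]

theorem sing : Singular (pU v) := by
  refine singular_of (h.set.eq_qOf ▸ h.set.pre) h.sqU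
    (fun u hu h1 => isConj_iff.1 (h.conj_U hu h1)) fun u hu w hw h1 _ => ?_
  obtain ⟨i, rfl⟩ := h.trans_U hu h1
  rw [qOf_conj, Solv.mem_conj_smul, ← h.set.eq_qOf]
  exact h.U_le_Q (inv_conj_mem_of_mem_normalizer (pow_mem h.y_NU i) hw)

theorem Q_NU : Q ≤ normalizer (pU v : Set G) :=
  h.set.eq_qOf ▸ h.sing.qOf_le_normalizer h.z_U h.set.pre.ne_one

omit [Finite G] in
theorem iSup_le : (⨆ u ∈ ((pU v : Set G) \ {1}), qOf u) ≤ normalizer (V : Set G) := by
  refine iSup₂_le fun u hu => ?_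
  obtain ⟨i, rfl⟩ := h.trans_U hu.1 hu.2
  rw [qOf_conj, ← h.set.eq_qOf, conj_smul_le_iff]
  exact fun q hq => mul_mem (mul_mem (pow_mem h.y_N i) (h.Q_le hq)) (inv_mem (pow_mem h.y_N i))

theorem card_step {W : Subgroup G} (hW : W ≤ pU v) {b : G} (hb : b ∈ pU v) (h1 : b ∉ W) :
    Nat.card ↥(normalizer (pU v : Set G) ⊓ centralizer (W : Set G)) = (8 - Nat.card W) *
      Nat.card ↥(normalizer (pU v : Set G) ⊓ centralizer (W : Set G) ⊓ centralizer {b}) := by
  rw [← cnt_conj_mul _ b, ← h.card_U, ← cnt_compl hW, Nat.add_sub_cancel]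
  congr 1
  refine cnt_congr fun c => ⟨?_, fun hc => ?_⟩
  · rintro ⟨k, hk, rfl⟩
    refine ⟨conj_mem_of_mem_normalizer hk.1 hb, fun e => h1 ?_⟩
    have := hk.2 _ e
    rw [inv_mul_cancel_right, mul_right_inj] at this
    rwa [← this] at e
  · obtain ⟨q, hq, e⟩ := h.sing.exists_move hW hb hc.1 h1 hc.2
    exact ⟨q, ⟨h.sing.iSup_le_normalizer hq.1, hq.2⟩, e⟩

omit [Finite G] in
theorem x_rep : x ∈ normalizer (V : Set G) ∧ Rep (ρ x) r3A := by
  rw [← h.κ_x ⟨_, inSub_r3A.2⟩ rfl]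
  exact ⟨h.κ_mem _, h.rep_κ inSub_r3A⟩

theorem cent_le_NU : centralizer ({z} : Set G) ⊓ centralizer {v (sm 356)} ≤
    normalizer (pU v : Set G) := fun g hg => by
  refine mem_normalizer_of_conj_mem fun u hu => (closure_le
    ((pU v).comap (MulAut.conj g).toMonoidHom)).2 ?_ hu
  have k1 : g * x * g⁻¹ ∈ normalizer (pU v : Set G) :=
    sup_le h.Q_NU (zpowers_le.2 (h.mem_NU h.x_rep.1 h.x_rep.2 (by decide +kernel)))
      ((h.set.p_eq_one _ (mul_mem (mul_mem hg.1 h.set.xH) (Subgroup.inv_mem _ hg.1))).1 (by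
        rw [h.set.p_conj hg.1 h.set.xH, h.set.p_x, mul_one, mul_inv_cancel]))
  rintro _ (rfl | rfl | rfl) <;> show g * _ * g⁻¹ ∈ pU v
  · rw [h.w_z, mem_cent.1 hg.1]; exact h.z_U
  · rw [mem_cent.1 hg.2]; exact h.w_U (by decide)
  · have k2 := conj_mem_of_mem_normalizer k1 (h.w_U (s := 356) (by decide))
    rw [← mem_cent.1 hg.2] at k2
    rw [show (2310 : ℕ) = J4B.act r3A 356 by decide +kernel,
      ← h.toCoc.conj_w h.x_rep.1 h.x_rep.2 (by decide +kernel)]
    convert k2 using 1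
    group

theorem card_NU : Nat.card (normalizer (pU v : Set G)) = 2 ^ 21 * 315 := by
  have S := h.set.pre.toSympPair
  have k0 : v (sm 356) ≠ 1 ∧ v (sm 356) ≠ z := by
    rw [← h.w_z, Ne, Ne, h.toCoc.w_eq_one (by decide +kernel),
      h.toCoc.w_inj (by decide +kernel) (by decide +kernel)]
    decide
  have k1 := h.card_step bot_le h.z_U S.ne_one
  have k2 := h.card_step (zpowers_le.2 h.z_U) (h.w_U (s := 356) (by decide))
    (S.mem_iff.not.2 (not_or.2 k0))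
  rw [centralizer_zpowers_eq_sing, inf_assoc, inf_eq_right.2 h.cent_le_NU, Nat.card_zpowers, S.ord,
    h.card_cent_s (h.U_le_Q (h.w_U (by decide))) k0.2 (h.conj_U (h.w_U (by decide)) k0.1)] at k2
  rw [Subgroup.coe_bot, show centralizer ({1} : Set G) = ⊤ from
    eq_top_iff.2 fun g _ => mem_cent.2 (by simp), inf_top_eq, k2, Subgroup.card_bot] at k1
  omega

theorem card_eq_168 {X : Subgroup G} (hX : X ≤ normalizer (pU v : Set G))
    (h1 : normalizer (V : Set G) ⊓ normalizer (pU v : Set G) ≤ X) :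
    Nat.card X = Nat.card ↥(X ⊓ centralizer (pU v : Set G)) * 168 := by
  rw [card_eq_mul_map (pU v).normalizerMonoidHom hX (R := centralizer (pU v : Set G)) fun g => by
    rw [← MonoidHom.mem_ker, normalizerMonoidHom_ker, mem_subgroupOf], ← h.card_aut, ← card_top (G := MulAut _)]
  congr 3
  refine eq_top_iff.2 fun φ _ => ?_
  obtain ⟨g, hg, e⟩ := h.sing.exists_induces φ
  exact ⟨⟨g, h.sing.iSup_le_normalizer hg⟩, h1 ⟨h.iSup_le hg, h.sing.iSup_le_normalizer hg⟩,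
    MulEquiv.ext fun u => Subtype.ext (e u)⟩

theorem card_CU : Nat.card (centralizer (pU v : Set G)) = 2 ^ 18 * 15 := by
  have := h.card_eq_168 le_rfl inf_le_right
  rw [inf_eq_right.2 (centralizer_le_normalizer _), h.card_NU] at this
  omega

omit [Finite G] in
theorem not_five {n : G} (hn : n ∈ normalizer (V : Set G) ⊓ centralizer (pU v : Set G)) :
    orderOf n ≠ 5 := fun e => by
  obtain ⟨s, -, hu⟩ := h.unique5 hn.1 e
  have k1 : ∀ t ∈ uS, t ≠ 0 → v (sm t) = s := fun t ht h1 =>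
    hu _ ⟨h.U_le (h.w_U ht), mem_centralizer_singleton_iff.2 (hn.2 _ (h.w_U ht))⟩
      (h.conj_U (h.w_U ht) ((h.toCoc.w_eq_one (uS_ev t ht)).not.2 h1))
  exact absurd ((h.toCoc.w_inj (by decide +kernel) (by decide +kernel)).1
    ((k1 356 (by decide) (by decide)).trans (k1 2880 (by decide) (by decide)).symm)) (by decide)

theorem card_CMU : Nat.card ↥(normalizer (V : Set G) ⊓ centralizer (pU v : Set G)) = 2 ^ 18 * 3 := by
  have k1 := h.toCoc.card_le (normalizer (V : Set G) ⊓ centralizer (pU v : Set G)) inf_le_left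
  have k2 := pk_le_card (H := ((normalizer (V : Set G) ⊓ centralizer (pU v : Set G)).subgroupOf
    _).map h.toCoc.hom) (gens := gD) (cert := cD) (fun t ht => by
      have l1 := inSub_M24 (List.all_eq_true.1 (by decide +kernel : gD.all isM24 = true) t ht)
      exact ⟨l1.1, (h.toCoc.mem_map_hom inf_le_left).2 ⟨_, ⟨h.κ_mem _, (h.mem_CU (h.κ_mem _)
        (h.rep_κ l1)).2 (List.all_eq_true.1 (by decide +kernel : gD.all cU = true) t ht)⟩,
        h.ρ_κ _⟩⟩) (by decide +kernel)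
  rw [inf_eq_right.2 (le_inf le_normalizer h.V_le_CU), h.toCoc.cardV] at k1
  rw [show PK.certOrder cD = 384 by decide +kernel] at k2
  have k3 := card_dvd_of_le (inf_le_right : normalizer (V : Set G) ⊓ centralizer (pU v : Set G) ≤ _)
  rw [h.card_CU, show 2 ^ 18 * 15 = 2 ^ 18 * 3 * 5 by norm_num] at k3
  refine le_antisymm (Nat.le_of_dvd (by norm_num) (Nat.Coprime.dvd_of_dvd_mul_right
    ((Nat.Prime.coprime_iff_not_dvd (by norm_num)).2 fun e => ?_).symm k3)) (by omega)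
  obtain ⟨n, hn, e1⟩ := exists_order (by norm_num) e
  exact h.not_five hn e1

theorem relIndex_NU : (normalizer (V : Set G)).relIndex (normalizer (pU v : Set G)) = 5 := by
  have k1 := h.card_eq_168 inf_le_right le_rfl
  have k2 := card_inf_mul_relIndex (normalizer (V : Set G)) (normalizer (pU v : Set G))
  rw [inf_assoc, inf_eq_right.2 (centralizer_le_normalizer _), h.card_CMU] at k1
  rw [k1, h.card_NU] at k2
  omega

end Fw

end Cfsg.Lib.SporChar.J4C
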