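import Cfsg.Agent.SporChar.J4CU

/-! Groups of type `J₄`: the subgroup `L = O₂(N(U))` of order `2 ^ 15`. -/

set_option autoImplicit false
set_option maxRecDepth 100000

namespace Cfsg.Lib.SporChar.J4C

open Subgroup Equiv Cfsg.Lib.Spor Cfsg.Lib.Spor.MP Cfsg.Lib.SporChar.J4 Cfsg.Lib.Solv
  Cfsg.Lib.Solv.Count J4B MulAction Cfsg.Lib.Local
open scoped Pointwise

variable {G : Type*} [Group G]

section Ker

variable {N : Subgroup G} {A : Type*} [Group A] {φ : N →* A}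

/-- The kernel as a subgroup of the ambient group. -/
def kerG (φ : N →* A) : Subgroup G := φ.ker.map N.subtype

theorem mem_kerG (g : N) : φ g = 1 ↔ (g : G) ∈ kerG φ :=
  ⟨fun e => ⟨g, e, rfl⟩, fun ⟨_, e, e1⟩ => Subtype.ext e1 ▸ e⟩

theorem kerG_le : kerG φ ≤ N := map_subtype_le _

theorem norm_kerG : N ≤ normalizer (kerG φ : Set G) := le_normalizer_map_subtype _

theorem card_kerG (φ : N →* A) {X : Subgroup G} (hX : X ≤ N) :
    ∃ m, m ∣ Nat.card A ∧ Nat.card X = Nat.card ↥(X ⊓ kerG φ) * m :=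
  ⟨_, card_subgroup_dvd_card _, card_eq_mul_map φ hX mem_kerG⟩

theorem mem_kerG_of_pow {g : G} (hg : g ∈ N) {m n : ℕ} (h : m.Coprime n) (h1 : g ^ m = 1)
    (h2 : φ ⟨g, hg⟩ ^ n = 1) : g ∈ kerG φ := by
  refine (mem_kerG ⟨g, hg⟩).1 (orderOf_eq_one_iff.1 (Nat.eq_one_of_dvd_coprimes h
    (orderOf_dvd_of_pow_eq_one ?_) (orderOf_dvd_of_pow_eq_one h2)))
  rw [← map_pow, show (⟨g, hg⟩ : N) ^ m = 1 from Subtype.ext h1, map_one]

theorem equiv_of_card [Finite A] {X R : Subgroup G} (hX : X ≤ N) (hR : ∀ g : N, φ g = 1 ↔ (g : G) ∈ R)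
    (h1 : X ⊓ R = ⊥) (h2 : Nat.card X = Nat.card A) :
    ∃ e : X ≃* A, ∀ g : X, e g = φ ⟨g, hX g.2⟩ :=
  ⟨MulEquiv.ofBijective (φ.comp (inclusion hX)) ((Nat.bijective_iff_injective_and_card _).2
    ⟨(injective_iff_map_eq_one _).2 fun g e => Subtype.ext
      (mem_bot.1 (h1.le ⟨g.2, (hR ⟨g, hX g.2⟩).1 e⟩)), h2⟩), fun _ => rfl⟩

end Ker

theorem comm_mem_left {K : Subgroup G} {a g : G} (ha : a ∈ K) (hg : g ∈ normalizer (K : Set G)) :
    a * g * a⁻¹ * g⁻¹ ∈ K := by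
  simpa [mul_assoc] using mul_mem ha (conj_mem_of_mem_normalizer hg (inv_mem ha))

theorem comm_mem_right {K : Subgroup G} {a g : G} (ha : a ∈ K) (hg : g ∈ normalizer (K : Set G)) :
    g * a * g⁻¹ * a⁻¹ ∈ K := mul_mem (conj_mem_of_mem_normalizer hg ha) (inv_mem ha)

/-- The largest normal 2-subgroup of the normalizer of `U`. -/
def pL {v : Finset GolayPt → G} (φ : normalizer (pU v : Set G) →* Perm (Fin 5)) : Subgroup G :=
  centralizer (pU v : Set G) ⊓ kerG φ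

/-- The subgroup `S₅`. -/
noncomputable def pI (v : Finset GolayPt → G) (κ : M24 →* G) : Subgroup G :=
  centralizer (pU v : Set G) ⊓ centralizer {y0 κ}

theorem norm_pL {v : Finset GolayPt → G} {φ : normalizer (pU v : Set G) →* Perm (Fin 5)} :
    normalizer (pU v : Set G) ≤ normalizer (pL φ : Set G) :=
  le_normalizer_inf (normalizer_le_normalizer_centralizer _) norm_kerG

theorem pI_le {v : Finset GolayPt → G} {κ : M24 →* G} : pI v κ ≤ normalizer (pU v : Set G) :=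
  inf_le_left.trans (centralizer_le_normalizer _)

/-- The frame with the action of `N(U)` on five points. -/
structure Pw (z x : G) (Q V : Subgroup G) (p : G → Perm GolayPt) (v : Finset GolayPt → G)
    (ρ : G → Perm GolayPt) (κ : M24 →* G) (φ : normalizer (pU v : Set G) →* Perm (Fin 5)) : Prop
    extends Fw z x Q V p v ρ κ where
  K_le : kerG φ ≤ normalizer (V : Set G)

theorem Fw.exists_pw [Finite G] {z x : G} {Q V : Subgroup G} {p ρ : G → Perm GolayPt}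
    {v : Finset GolayPt → G} {κ : M24 →* G} (h : Fw z x Q V p v ρ κ) :
    ∃ φ, Pw z x Q V p v ρ κ φ := by
  obtain ⟨φ, e⟩ := exists_phi h.relIndex_NU
  exact ⟨φ, h, fun _ ⟨_, e1, e2⟩ => e2 ▸ e e1⟩

namespace Pw

variable {z x : G} {Q V : Subgroup G} {p ρ : G → Perm GolayPt} {v : Finset GolayPt → G}
  {κ : M24 →* G} {φ : normalizer (pU v : Set G) →* Perm (Fin 5)} [Finite G]
  (h : Pw z x Q V p v ρ κ φ)
include h

omit [Finite G] in
theorem V_NU : V ≤ normalizer (pU v : Set G) := h.V_le_CU.trans (centralizer_le_normalizer _)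

theorem y_K : y0 κ ∈ kerG φ :=
  mem_kerG_of_pow h.y_NU (m := 7) (n := 120) (by norm_num) (h.orderOf_y ▸ pow_orderOf_eq_one _)
    (card_S5 ▸ pow_card_eq_one')

theorem not_V_le : ¬ V ≤ kerG φ := fun e => by
  have := h.relIndex_NU
  rw [relIndex_eq_one.2 fun n hn => mem_normalizer_iff_conj_smul_eq.2 (h.uniq _
    ((conj_smul_le_iff.2 fun u hu => conj_mem_of_mem_normalizer (norm_kerG hn) (e hu)).trans h.K_le)
    (fun a ha => by
      obtain ⟨u, hu, rfl⟩ := mem_conj_smul_iff_exists.1 ha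
      rw [conj_mul, h.toCoc.sqV u hu, mul_one, mul_inv_cancel])
    (by rw [card_conj_smul, h.toCoc.cardV]))] at this
  omega

theorem CV_y : V ⊓ centralizer {y0 κ} ⊓ kerG φ = ⊥ := by
  have k1 : ∀ u ∈ V ⊓ centralizer {y0 κ}, u = 1 ∨ ∃ s ∈ [697, 3445, 4044], v (sm s) = u :=
    fun u hu => by
      obtain ⟨s, hs, rfl⟩ := h.toCoc.w_surj hu.1
      rcases (by decide +kernel : ∀ s < 4096, evS s = true → J4B.act py s = s →
        s = 0 ∨ s ∈ [697, 3445, 4044]) s (evS_lt hs) hs ((h.toCoc.comm_w_iff h.y_N h.rep_y hs).1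
          (mem_centralizer_singleton_iff.1 hu.2)) with rfl | e
      exacts [Or.inl h.toCoc.w_zero, Or.inr ⟨s, e, rfl⟩]
  refine eq_bot_iff.2 fun u hu => (k1 u hu.1).resolve_right fun ⟨s, hs, e⟩ => h.not_V_le
    fun w hw => ?_
  obtain ⟨l, hl, e1⟩ := exists_cent (g := w) (by rw [h.orderOf_y]; decide) (L := V ⊓ kerG φ)
    ((IsPGroup.of_card h.toCoc.cardV).to_le inf_le_left)
    (zpowers_le.1 (le_normalizer_inf (zpowers_le.2 h.y_N) (zpowers_le.2 (norm_kerG h.y_NU))))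
    ⟨comm_mem_right hw h.y_N, comm_mem_left h.y_K (norm_kerG (h.V_NU hw))⟩
  refine ((kerG φ).mul_mem_cancel_left hl.2).1 ?_
  rcases k1 _ ⟨mul_mem hl.1 hw, e1⟩ with e2 | ⟨t, ht, e2⟩
  · exact e2 ▸ one_mem _
  obtain ⟨i, -, l1, rfl⟩ := (by decide +kernel : ∀ s ∈ [697, 3445, 4044], ∀ t ∈ [697, 3445, 4044],
    ∃ i < 3, evS s = true ∧ J4B.act (ppow px i) s = t) s hs t ht
  have l2 := h.κ_mem ⟨_, inSub_px.2⟩
  rw [← e2, ← h.toCoc.conj_w (pow_mem l2 i) (by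
    rw [h.toCoc.ρ_pow l2]; exact (h.rep_κ inSub_px).pow i) l1, e]
  exact conj_mem_of_mem_normalizer (norm_kerG (pow_mem (h.mem_NU l2 (h.rep_κ inSub_px)
    (by decide +kernel)) i)) hu.2

omit [Finite G] in
theorem duad_y {m : ℕ} (h1 : m < 2 ^ 24) (h2 : popc m = 2) (h3 : apM py m = m) :
    (maskSet m).card = 2 ∧ v (maskSet m) ∈ V ⊓ centralizer {y0 κ} := by
  have k1 : (maskSet m).card = 2 := by rw [card_maskSet, h2]
  have k2 : Even (maskSet m).card := k1 ▸ even_two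
  exact ⟨k1, h.toCoc.v_mem k2, cent_symm (mem_cent.2 (by
    rw [h.conj _ h.y_N _ k2, (h.rep_y.smul_maskSet_eq_iff m h1).2 h3]))⟩

theorem L_inf : pL φ ⊓ centralizer {y0 κ} = ⊥ := by
  refine eq_bot_iff.2 fun l hl => ?_
  have k0 := h.K_le hl.1.2
  have k1 : ∀ m < 2 ^ 24, popc m = 2 → apM py m = m → ρ l • maskSet m = maskSet m :=
    fun m h1 h2 h3 => by
      obtain ⟨l1, l2⟩ := h.duad_y h1 h2 h3
      refine h.toCoc.smul_eq_of_comm k0 l1 (mul_inv_eq_one.1 (mem_bot.1 (h.CV_y.le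
        ⟨⟨comm_mem_right l2.1 k0, ?_⟩, comm_mem_left hl.1.2 (norm_kerG (h.V_NU l2.1))⟩)))
      exact mul_mem (mul_mem (mul_mem (mem_inf.1 hl).2 (mem_inf.1 l2).2)
        (Subgroup.inv_mem _ (mem_inf.1 hl).2)) (Subgroup.inv_mem _ (mem_inf.1 l2).2)
  refine h.CV_y.le ⟨⟨(h.ρ_eq_one l k0).1 (eq_one_of_cent_py ⟨h.ρ_mem l,
    mem_centralizer_singleton_iff.2 ?_⟩ ((h.mem_CU k0 (rep_pack _)).1 hl.1.1)
    (k1 _ (by norm_num) (by decide +kernel) (by decide +kernel))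
    (k1 _ (by norm_num) (by decide +kernel) (by decide +kernel))), hl.2⟩, hl.1.2⟩
  rw [← show ρ (y0 κ) = toPerm py from h.ρ_κ _, ← h.ρ_mul _ k0 _ h.y_N, ← h.ρ_mul _ h.y_N _ k0]
  exact congrArg ρ (mem_centralizer_singleton_iff.1 hl.2)

theorem card_L : Nat.card (pL φ) = 2 ^ 15 := by
  let T := normalizer (V : Set G) ⊓ pI v κ
  have k1 := h.toCoc.card_le T inf_le_left
  have k2 := pk_le_card (H := (T.subgroupOf _).map h.toCoc.hom) (gens := [px, pt]) (cert := cS)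
    (fun t ht => by
      have l1 : InSub M24 t ∧ cU t = true ∧ MP.comm t py = true := by
        simp only [List.mem_cons, List.not_mem_nil, or_false] at ht
        rcases ht with rfl | rfl
        exacts [⟨inSub_px, by decide +kernel⟩, ⟨inSub_pt, by decide +kernel⟩]
      exact ⟨l1.1.1, (h.toCoc.mem_map_hom inf_le_left).2 ⟨_, ⟨h.κ_mem _, (h.mem_CU (h.κ_mem _)
        (h.rep_κ l1.1)).2 l1.2.1, mem_centralizer_singleton_iff.2
          (Tw.κ_comm ((l1.1.rep.comm_iff inSub_py.rep).1 l1.2.2))⟩, h.ρ_κ _⟩⟩) (by decide +kernel)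
  have k3 := card_le_of_le (show V ⊓ centralizer {y0 κ} ≤ T ⊓ V from
    fun u hu => ⟨⟨le_normalizer hu.1, h.V_le_CU hu.1, hu.2⟩, hu.1⟩)
  rw [h.cV7 h.y_N h.orderOf_y] at k3
  rw [show PK.certOrder cS = 6 by decide +kernel] at k2
  have k4 := card_le_of_le (show pL φ ⊔ T ≤ normalizer (V : Set G) ⊓ centralizer (pU v : Set G) from
    sup_le (fun l hl => ⟨h.K_le hl.2, hl.1⟩) fun t ht => ⟨ht.1, ht.2.1⟩)
  rw [card_sup_of_disjoint_of_le_normalizer (inf_le_right.trans (pI_le.trans norm_pL))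
    (eq_bot_iff.2 fun g hg => h.L_inf.le ⟨hg.1, hg.2.2.2⟩), h.card_CMU] at k4
  obtain ⟨m, k5, k6⟩ := card_kerG φ (centralizer_le_normalizer (pU v : Set G))
  have k7 := Nat.le_of_dvd (by norm_num) (card_S5 ▸ k5)
  have k8 := Nat.mul_le_mul k3 k2
  rw [h.card_CU] at k6
  change _ = Nat.card (pL φ) * m at k6
  rw [← k1] at k8
  nlinarith

theorem isPGroup_L : IsPGroup 2 (pL φ) := IsPGroup.of_card h.card_L

omit [Finite G] in
theorem U_le_of {W : Subgroup G} (hy : y0 κ ∈ normalizer (W : Set G)) {c : G} (h1 : c ∈ pU v)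
    (h2 : c ≠ 1) (h3 : c ∈ W) : pU v ≤ W := fun u hu => by
  obtain ⟨i, rfl⟩ := h.trans_U h1 h2
  rcases eq_or_ne u 1 with rfl | h4
  · exact one_mem _
  obtain ⟨j, rfl⟩ := h.trans_U hu h4
  exact conj_mem_of_mem_normalizer (pow_mem hy j) ((mem_normalizer_iff.1 (pow_mem hy i) z).2 h3)

theorem U_le_L : pU v ≤ pL φ := by
  refine le_inf (h.U_le.trans h.V_le_CU) (h.U_le_of (norm_kerG h.y_NU)
    (comm_mem_right h.z_U h.y_NU) (fun e => ?_) (comm_mem_left h.y_K (norm_kerG (h.V_NU h.zV))))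
  rw [mul_inv_eq_one, mul_inv_eq_iff_eq_mul, ← h.w_z, eq_comm,
    h.toCoc.comm_w_iff h.y_N h.rep_y (by decide +kernel)] at e
  exact absurd e (by decide +kernel)

theorem dec_CU {g : G} (hg : g ∈ centralizer (pU v : Set G)) : ∃ l ∈ pL φ, l * g ∈ pI v κ := by
  obtain ⟨l, hl, e⟩ := exists_cent (g := g) (by rw [h.orderOf_y]; decide) h.isPGroup_L
    (norm_pL h.y_NU) ⟨comm_mem_right hg (normalizer_le_normalizer_centralizer _ h.y_NU),
      comm_mem_left h.y_K (norm_kerG (centralizer_le_normalizer _ hg))⟩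
  exact ⟨l, hl, mul_mem hl.1 hg, e⟩

theorem I_inf : pI v κ ⊓ kerG φ = ⊥ :=
  eq_bot_iff.2 fun _ hg => h.L_inf.le ⟨⟨hg.1.1, hg.2⟩, hg.1.2⟩

theorem card_I : Nat.card (pI v κ) = 120 := by
  have k1 := card_sup_of_disjoint_of_le_normalizer (pI_le (v := v) (κ := κ).trans (norm_pL (φ := φ)))
    (eq_bot_iff.2 fun _ hg => h.I_inf.le ⟨hg.2, hg.1.2⟩)
  rw [le_antisymm (sup_le inf_le_left inf_le_left : pL φ ⊔ pI v κ ≤ centralizer (pU v : Set G))
    (fun g hg => by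
      obtain ⟨l, hl, e⟩ := h.dec_CU hg
      exact (mul_mem_cancel_left (mem_sup_left hl)).1 (mem_sup_right e)), h.card_CU, h.card_L] at k1
  omega

theorem exists_eI : ∃ e : pI v κ ≃* Perm (Fin 5), ∀ g : pI v κ, e g = φ ⟨g, pI_le g.2⟩ :=
  equiv_of_card pI_le mem_kerG h.I_inf (h.card_I.trans card_S5.symm)

end Pw

end Cfsg.Lib.SporChar.J4C
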