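import Cfsg.Agent.SporChar.J4BThree
import Cfsg.Agent.SporChar.J4CF
import Cfsg.Agent.Bender.TwoRank
import Cfsg.Agent.Solv.CoprimeSylow
import Cfsg.Agent.TIW.Count

/-! Groups of type `J₄` of the right order: centralizers of elements of small prime order. -/

set_option autoImplicit false
set_option maxRecDepth 100000

namespace Cfsg.Lib.SporChar.J4D

open Subgroup Equiv Cfsg.Lib.Spor Cfsg.Lib.Spor.MP Cfsg.Lib.SporChar.J4 Cfsg.Lib.Solv
  Cfsg.Lib.Solv.Count J4B J4C MulAction Cfsg.Lib.Local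
open scoped Pointwise

variable {G : Type*} [Group G]

theorem prime_dvd {q : ℕ} (hq : q.Prime) (h : q ∣ 86775571046077562880) :
    q = 2 ∨ q = 3 ∨ q = 5 ∨ q = 7 ∨ q = 11 ∨ q = 23 ∨ q = 29 ∨ q = 31 ∨ q = 37 ∨ q = 43 := by
  rw [show (86775571046077562880 : ℕ) = 2 ^ 21 * (3 ^ 3 * (5 * (7 * (11 ^ 3 * (23 * (29 * (31 *
    (37 * 43)))))))) by norm_num] at h
  simp only [hq.dvd_mul] at h
  have k : ∀ r : ℕ, r.Prime → q ∣ r → q = r := fun r hr => (Nat.prime_dvd_prime_iff_eq hq hr).1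
  rcases h with h | h | h | h | h | h | h | h | h | h
  · simp [k 2 (by norm_num) (hq.dvd_of_dvd_pow h)]
  · simp [k 3 (by norm_num) (hq.dvd_of_dvd_pow h)]
  · simp [k 5 (by norm_num) h]
  · simp [k 7 (by norm_num) h]
  · simp [k 11 (by norm_num) (hq.dvd_of_dvd_pow h)]
  · simp [k 23 (by norm_num) h]
  · simp [k 29 (by norm_num) h]
  · simp [k 31 (by norm_num) h]
  · simp [k 37 (by norm_num) h]
  · simp [k 43 (by norm_num) h]

theorem card_cent_of_conj {a b : G} (h : IsConj a b) :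
    Nat.card (centralizer ({b} : Set G)) = Nat.card (centralizer ({a} : Set G)) := by
  obtain ⟨k, rfl⟩ := isConj_iff.1 h
  rw [← conj_smul_centralizer_singleton, card_conj_smul]

theorem card_cent_of_zp {k a b : G} (e : MulAut.conj k • zpowers a = zpowers b) :
    Nat.card (centralizer ({b} : Set G)) = Nat.card (centralizer ({a} : Set G)) := by
  rw [← cent_of_conj e, card_conj_smul]

theorem cent_conj_mem {k a c : G} (h : c ∈ centralizer ({k * a * k⁻¹} : Set G)) :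
    k⁻¹ * c * k ∈ centralizer ({a} : Set G) := by
  rw [mem_cent] at h ⊢
  calc _ = k⁻¹ * (c * (k * a * k⁻¹) * c⁻¹) * k := by group
    _ = _ := by rw [h]; group

theorem card_cent_eleven {g : Perm GolayPt} (hg : g ∈ M24) (h : orderOf g = 11) :
    M24 ⊓ centralizer {g} = zpowers g := by
  obtain ⟨r, hr, h1, h2, -⟩ := class_data hg
  rw [(by decide +kernel : ∀ r ∈ reps24, r.2.1 = 11 → r.2.2 = 11) r hr (h1 ▸ h)] at h2
  exact (eq_of_le_of_card_ge (zpowers_le.2 (mem_inf.2 ⟨hg, mem_cent.2 (by group)⟩))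
    (by rw [h2, Nat.card_zpowers, h])).symm

theorem not_inv_eleven {σ g : Perm GolayPt} (hσ : σ ∈ Spor.M22) (h : orderOf σ = 11)
    (hg : g ∈ Spor.M22) : g * σ * g⁻¹ ≠ σ⁻¹ := fun e => by
  have h3 := isClassList_M22.not_conj (i := 10) (j := 11) (by norm_num) (by decide +kernel)
  have h2 : (toPerm (reps22.getD 10 (0, 0, 0)).1)⁻¹ = toPerm (reps22.getD 11 (0, 0, 0)).1 :=
    (inSub_M24 (by decide +kernel)).rep.inv.eq_of_peq (inSub_M24 (by decide +kernel)).rep
      (by decide +kernel)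
  obtain ⟨r, hr, k, hk, rfl⟩ := isClassList_M22.all σ hσ
  rw [J4C.orderOf_conj', isClassList_M22.ord r hr] at h
  have h4 : k⁻¹ * g * k * toPerm r.1 * (k⁻¹ * g * k)⁻¹ = (toPerm r.1)⁻¹ := by
    calc _ = k⁻¹ * (g * (k * toPerm r.1 * k⁻¹) * g⁻¹) * k := by group
      _ = _ := by rw [e]; group
  refine h3 ⟨k⁻¹ * g * k, mul_mem (mul_mem (inv_mem hk) hg) hk, ?_⟩
  rcases (by decide +kernel : ∀ r ∈ reps22, r.2.1 = 11 → r.1 = (reps22.getD 10 (0, 0, 0)).1 ∨
    r.1 = (reps22.getD 11 (0, 0, 0)).1) r hr h with e1 | e1 <;> rw [e1] at h4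
  · rw [h4, h2]
  · rw [← h2] at h4 ⊢
    rw [← inv_inj, conj_inv, h4]

variable [Finite G]

/-- The odd core of a subgroup with an isolated involution. -/
theorem exists_O {C : Subgroup G} {z : G} (hz : z ∈ C) (h2 : orderOf z = 2)
    (hi : ∀ t ∈ C, t ∈ centralizer ({z} : Set G) → t * t = 1 → t ∈ zpowers z) :
    ∃ O : Subgroup G, O ≤ C ∧ C ≤ normalizer (O : Set G) ∧ Odd (Nat.card O) ∧
      O ⊔ C ⊓ centralizer ({z} : Set G) = C ∧
      ∀ a ∈ C, C ≤ centralizer ({a} : Set G) → Odd (orderOf a) → a ∈ O := by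
  have h3 : IsIsolatedInvolution (⟨z, hz⟩ : C) := ⟨by rw [← Subgroup.orderOf_coe, h2], fun g e => by
    have e1 : orderOf ((g : G) * z * (g : G)⁻¹) = 2 := by rw [J4C.orderOf_conj', h2]
    have e2 := hi _ (g * ⟨z, hz⟩ * g⁻¹).2
      (mem_centralizer_singleton_iff.2 (congrArg Subtype.val e.eq).symm)
      (by rw [← pow_two, ← orderOf_dvd_iff_pow_eq_one]; exact e1.dvd)
    obtain ⟨i, hi, e3⟩ := exists_pow_of_mem e2
    rw [h2] at hi
    refine Subtype.ext ?_
    interval_cases i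
    · exact absurd (show orderOf ((g : G) * z * (g : G)⁻¹) = 1 from orderOf_eq_one_iff.2
        (e3.trans (pow_zero _))) (by rw [e1]; norm_num)
    · exact e3.trans (pow_one _)⟩
  have h4 := congrArg (Subgroup.map C.subtype) (Bender.oddCore_sup_centralizer_of_isolated h3)
  rw [Subgroup.map_sup, map_cent, ← MonoidHom.range_eq_map, range_subtype] at h4
  refine ⟨_, map_subtype_le _, ?_, ?_, h4, fun a ha h5 h6 => ?_⟩
  · exact le_normalizer_map_subtype _
  · rw [card_map_of_injective C.subtype_injective]; exact odd_card_oddCore C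
  · refine ⟨⟨a, ha⟩, le_pPrimeCore (N := zpowers _) ⟨fun n hn g => ?_⟩ ?_ (mem_zpowers _), rfl⟩
    · obtain ⟨i, rfl⟩ := hn
      rw [← conj_zpow, show g * ⟨a, ha⟩ * g⁻¹ = ⟨a, ha⟩ from Subtype.ext (mem_cent.1 (h5 g.2))]
      exact zpow_mem (mem_zpowers _) i
    · rw [Nat.card_zpowers, ← Subgroup.orderOf_coe]; exact Nat.coprime_two_right.2 h6

/-- The order of the group and the orbits on the cosets of `2^11:M₂₄`. -/
structure Dt (z x : G) (Q : Subgroup G) (p : G → Perm GolayPt) (v : Finset GolayPt → G)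
    (ρ : G → Perm GolayPt) (κ : M24 →* G) : Prop extends Sp z x Q p v ρ κ where
  card : Nat.card G = 86775571046077562880
  orb : ∃ a b : G ⧸ normalizer (toFr.V : Set G), ∀ q, q = a ∨
    q ∈ orbit (normalizer (toFr.V : Set G)) b ∨
    11 ∣ (orbit (normalizer (toFr.V : Set G)) q).ncard

end Cfsg.Lib.SporChar.J4D

namespace Cfsg.Lib.SporChar.J4B.Sp

open Subgroup Equiv Cfsg.Lib.Spor Cfsg.Lib.Spor.MP Cfsg.Lib.SporChar.J4 Cfsg.Lib.Solv
  Cfsg.Lib.Solv.Count J4B J4C J4D MulAction Cfsg.Lib.Local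
open scoped Pointwise

variable {G : Type*} [Group G] [Finite G] {z x : G} {Q : Subgroup G} {p ρ : G → Perm GolayPt}
  {v : Finset GolayPt → G} {κ : M24 →* G} (h : Sp z x Q p v ρ κ)
include h

theorem fw : Fw z x Q h.V p v ρ κ := fw_of_out h.toOut

theorem c7 {a : G} (e : orderOf a = 7) : Nat.card (centralizer ({a} : Set G)) = 840 := by
  obtain ⟨φ, k⟩ := h.fw.exists_pw
  obtain ⟨g, hg⟩ := exists_conj_zp (S := zpowers a) (by norm_num) k.not_49
    (by rw [Nat.card_zpowers, e]) k.orderOf_y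
  rw [card_cent_of_zp hg, k.card_cent_y]

theorem c5 {a : G} (e : orderOf a = 5) : Nat.card (centralizer ({a} : Set G)) = 6720 := by
  obtain ⟨φ, k⟩ := h.fw.exists_pw
  obtain ⟨f, hf⟩ := k.exists_f
  obtain ⟨g, hg⟩ := exists_conj_zp (S := zpowers a) (by norm_num) (k.not_25 hf)
    (by rw [Nat.card_zpowers, e]) (k.ord_f hf)
  rw [card_cent_of_zp hg, ← k.cent_f hf, k.card_X hf]

theorem card_d : Nat.card (centralizer ({v {none, some 0}} : Set G)) = 2 ^ 11 * 887040 := by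
  have h1 := h.cent_duad {none, some 0} rfl
  have he : Even ({none, some 0} : Finset GolayPt).card := ⟨1, rfl⟩
  rw [h.coc.card_le _ h1, inf_eq_right.2 fun u hu => mem_centralizer_singleton_iff.2
    (h.coc.commV hu (h.coc.v_mem he)), h.coc.cardV, ← card_D22]
  congr 3
  ext σ
  rw [h.coc.mem_map_hom h1, mem_D22]
  refine ⟨fun ⟨k, hk, e⟩ => e ▸ ⟨h.coc.ρ_mem k, h.coc.smul_eq_of_comm (h1 hk) rfl (mem_cent.1 hk)⟩,
    fun hσ => ⟨κ ⟨σ, hσ.1⟩, mem_cent.2 ?_, h.ρ_κ _⟩⟩
  rw [h.fw.κ_conj _ he, hσ.2]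

theorem card_two {a : G} (e : orderOf a = 2) :
    IsConj z a ∧ Nat.card (centralizer ({a} : Set G)) = 2 ^ 21 * 10395 ∨
    IsConj (v {none, some 0}) a ∧ Nat.card (centralizer ({a} : Set G)) = 2 ^ 11 * 887040 :=
  (h.two_classes a e {none, some 0} rfl).imp (fun k => ⟨k, by rw [card_cent_of_conj k, h.fw.card_H]⟩)
    fun k => ⟨k, by rw [card_cent_of_conj k, h.card_d]⟩

theorem c3 {a : G} (e : orderOf a = 3) : Nat.card (centralizer ({a} : Set G)) = 6 * 443520 := by
  rw [card_cent_of_conj (h.one_class e), h.cardC]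

end Cfsg.Lib.SporChar.J4B.Sp

namespace Cfsg.Lib.SporChar.J4D.Dt

open Subgroup Equiv Cfsg.Lib.Spor Cfsg.Lib.Spor.MP Cfsg.Lib.SporChar.J4 Cfsg.Lib.Solv
  Cfsg.Lib.Solv.Count J4B J4C MulAction Cfsg.Lib.Local
open scoped Pointwise

variable {G : Type*} [Group G] [Finite G] {z x : G} {Q : Subgroup G} {p ρ : G → Perm GolayPt}
  {v : Finset GolayPt → G} {κ : M24 →* G} (h : Dt z x Q p v ρ κ)
include h

omit [Finite G] in
theorem dvd (K : Subgroup G) : Nat.card K ∣ 86775571046077562880 := h.card ▸ K.card_subgroup_dvd_card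

/-- An element of small prime order that commutes with `a`. -/
theorem dvd_small {a : G} {q : ℕ} (hq : q = 2 ∨ q = 3 ∨ q = 5 ∨ q = 7)
    (h1 : q ∣ Nat.card (centralizer ({a} : Set G))) :
    orderOf a ∣ 2 ^ 21 * 10395 ∧ (q = 5 ∨ q = 7 → orderOf a ∣ 6720) := by
  obtain ⟨b, hb, e⟩ := exists_order (by rcases hq with rfl | rfl | rfl | rfl <;> norm_num) h1
  have h2 := orderOf_dvd_card' (cent_symm hb)
  rcases hq with rfl | rfl | rfl | rfl
  · refine ⟨?_, by norm_num⟩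
    rcases h.card_two e with k | k <;> exact h2.trans (by rw [k.2]; try norm_num)
  · exact ⟨h2.trans (by rw [h.c3 e]; norm_num), by norm_num⟩
  · rw [h.c5 e] at h2
    exact ⟨h2.trans (by norm_num), fun _ => h2⟩
  · rw [h.c7 e] at h2
    exact ⟨h2.trans (by norm_num), fun _ => h2.trans (by norm_num)⟩

theorem not57 {a : G} (e : orderOf a = 11) :
    ¬ 5 ∣ Nat.card (centralizer ({a} : Set G)) ∧ ¬ 7 ∣ Nat.card (centralizer ({a} : Set G)) :=
  ⟨fun k => by have := (h.dvd_small (by norm_num) k).2 (by norm_num); rw [e] at this; norm_num at this,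
    fun k => by have := (h.dvd_small (by norm_num) k).2 (by norm_num); rw [e] at this; norm_num at this⟩

end Cfsg.Lib.SporChar.J4D.Dt
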