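import Cfsg.Agent.SporChar.J4BCoc

/-! Lists of class representatives, and their behaviour under the passage to sections. -/

set_option autoImplicit false

namespace Cfsg.Lib.SporChar.J4D

open Subgroup Cfsg.Lib.Solv Cfsg.Lib.Solv.Count

variable {G : Type*} [Group G] {K : Subgroup G} {P P' : G → Prop} {L L' : List G}

/-- Conjugacy under `K`. -/
def Cj (K : Subgroup G) (a b : G) : Prop := ∃ k ∈ K, k * a * k⁻¹ = b

theorem Cj.refl (K : Subgroup G) (a : G) : Cj K a a := ⟨1, one_mem _, by simp⟩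

theorem Cj.symm {a b : G} (h : Cj K a b) : Cj K b a := by
  obtain ⟨k, hk, rfl⟩ := h
  exact ⟨k⁻¹, inv_mem hk, by group⟩

theorem Cj.trans {a b c : G} (h : Cj K a b) (h' : Cj K b c) : Cj K a c := by
  obtain ⟨k, hk, rfl⟩ := h
  obtain ⟨l, hl, rfl⟩ := h'
  exact ⟨l * k, mul_mem hl hk, by group⟩

theorem Cj.mono {K' : Subgroup G} (e : K ≤ K') {a b : G} (h : Cj K a b) : Cj K' a b :=
  h.imp fun _ h => ⟨e h.1, h.2⟩

theorem Cj.isConj {a b : G} (h : Cj K a b) : IsConj a b :=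
  have ⟨k, _, e⟩ := h
  isConj_iff.2 ⟨k, e⟩

theorem cj_top {a b : G} : Cj ⊤ a b ↔ IsConj a b :=
  ⟨Cj.isConj, fun h => have ⟨k, e⟩ := isConj_iff.1 h; ⟨k, trivial, e⟩⟩

theorem Cj.pow {a b : G} (h : Cj K a b) (n : ℕ) : Cj K (a ^ n) (b ^ n) := by
  obtain ⟨k, hk, rfl⟩ := h
  exact ⟨k, hk, conj_pow.symm⟩

theorem Cj.pow_eq_one {a b : G} (h : Cj K a b) {n : ℕ} (e : a ^ n = 1) : b ^ n = 1 := by
  obtain ⟨k, -, e1⟩ := h.pow n
  rw [← e1, e, mul_one, mul_inv_cancel]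

/-- `L` represents the `K`-classes of the elements of `K` with the property `P`. -/
structure Reps (K : Subgroup G) (P : G → Prop) (L : List G) : Prop where
  mem : ∀ a ∈ L, a ∈ K ∧ P a
  pair : L.Pairwise fun a b => ¬ Cj K a b
  all : ∀ g ∈ K, P g → ∃ a ∈ L, Cj K a g

/-- There are `m` classes of elements of `K` with the property `P`. -/
def NCl (K : Subgroup G) (P : G → Prop) (m : ℕ) : Prop := ∃ L : List G, L.length = m ∧ Reps K P L

theorem Reps.ncl (h : Reps K P L) : NCl K P L.length := ⟨L, rfl, h⟩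

theorem Reps.congr (h : Reps K P L) (e : ∀ g ∈ K, P g ↔ P' g) : Reps K P' L :=
  ⟨fun a ha => ⟨(h.mem a ha).1, (e a (h.mem a ha).1).1 (h.mem a ha).2⟩, h.pair,
    fun g hg h1 => h.all g hg ((e g hg).2 h1)⟩

theorem NCl.congr {m : ℕ} (h : NCl K P m) (e : ∀ g ∈ K, P g ↔ P' g) : NCl K P' m :=
  h.imp fun _ h => ⟨h.1, h.2.congr e⟩

theorem Reps.append (h : Reps K P L) (h' : Reps K P' L')
    (e : ∀ a b, P a → P' b → ¬ Cj K a b) : Reps K (fun g => P g ∨ P' g) (L ++ L') :=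
  ⟨fun a ha => (List.mem_append.1 ha).elim (fun k => ⟨(h.mem a k).1, Or.inl (h.mem a k).2⟩)
      fun k => ⟨(h'.mem a k).1, Or.inr (h'.mem a k).2⟩,
    List.pairwise_append.2 ⟨h.pair, h'.pair, fun a ha b hb => e a b (h.mem a ha).2 (h'.mem b hb).2⟩,
    fun g hg k => k.elim (fun k => (h.all g hg k).imp fun _ k => ⟨List.mem_append_left _ k.1, k.2⟩)
      fun k => (h'.all g hg k).imp fun _ k => ⟨List.mem_append_right _ k.1, k.2⟩⟩

theorem NCl.add {m m' : ℕ} (h : NCl K P m) (h' : NCl K P' m')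
    (e : ∀ a b, P a → P' b → ¬ Cj K a b) : NCl K (fun g => P g ∨ P' g) (m + m') := by
  obtain ⟨L, rfl, h⟩ := h
  obtain ⟨L', rfl, h'⟩ := h'
  exact ⟨_, List.length_append, h.append h' e⟩

theorem reps_single {a : G} (h1 : a ∈ K) (h2 : P a) (h3 : ∀ g ∈ K, P g → Cj K a g) : Reps K P [a] :=
  ⟨by simp [h1, h2], by simp, fun g hg k => ⟨a, by simp, h3 g hg k⟩⟩

theorem Reps.eq_of_cj (h : Reps K P L) {a b : G} (ha : a ∈ L) (hb : b ∈ L) (e : Cj K a b) :
    a = b := by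
  by_contra h1
  have : Std.Symm fun a b => ¬ Cj K a b := ⟨fun _ _ k e => k e.symm⟩
  exact h.pair.forall ha hb h1 e

theorem Reps.nodup (h : Reps K P L) : L.Nodup :=
  h.pair.imp fun {a b} k (e : a = b) => k (e ▸ Cj.refl K a)

theorem NCl.card {m : ℕ} (h : NCl (⊤ : Subgroup G) P m) (e : ∀ g, P g) :
    Nat.card (ConjClasses G) = m := by
  obtain ⟨L, rfl, h⟩ := h
  classical
  rw [← List.toFinset_card_of_nodup h.nodup, ← Nat.card_eq_finsetCard]
  refine (Nat.card_eq_of_bijective (fun a : L.toFinset => ConjClasses.mk a.1) ⟨fun a b k => ?_,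
    fun c => ?_⟩).symm
  · exact Subtype.ext (h.eq_of_cj (List.mem_toFinset.1 a.2) (List.mem_toFinset.1 b.2)
      (cj_top.2 (ConjClasses.mk_eq_mk_iff_isConj.1 k)))
  · obtain ⟨g, rfl⟩ := ConjClasses.mk_surjective c
    obtain ⟨a, ha, k⟩ := h.all g trivial (e g)
    exact ⟨⟨a, List.mem_toFinset.2 ha⟩, ConjClasses.mk_eq_mk_iff_isConj.2 k.isConj⟩

/-- The section of one element. -/
theorem NCl.sec {a b n m : ℕ} (h1 : ∀ g : G, g ^ a = 1 → g ^ n = g) (h2 : ∀ g : G, g ^ b = 1 → g ^ n = 1)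
    (h3 : ∀ g : G, g ^ (a * b) = 1 → (g ^ n) ^ b = g ^ b) {u : G} (h4 : u ∈ K) (h5 : u ^ a = 1)
    (h : NCl (K ⊓ centralizer {u}) (· ^ b = 1) m) :
    NCl K (fun g => g ^ (a * b) = 1 ∧ Cj K u (g ^ n)) m := by
  obtain ⟨L, rfl, h⟩ := h
  have k1 : ∀ y ∈ L, Commute u y := fun y hy =>
    (mem_centralizer_singleton_iff.1 (h.mem y hy).1.2).symm
  have k2 : ∀ y ∈ L, (u * y) ^ n = u := fun y hy => by
    rw [(k1 y hy).mul_pow, h1 u h5, h2 y (h.mem y hy).2, mul_one]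
  refine ⟨L.map (u * ·), List.length_map _, fun g hg => ?_, List.pairwise_map.2
    (h.pair.imp_of_mem fun {y y'} hy hy' e e0 => e ?b), fun g hg e0 => ?c⟩
  · obtain ⟨y, hy, rfl⟩ := List.mem_map.1 hg
    refine ⟨mul_mem h4 (h.mem y hy).1.1, ?_, (k2 y hy).symm ▸ Cj.refl K u⟩
    rw [(k1 y hy).mul_pow, pow_mul, h5, pow_mul', (h.mem y hy).2, one_pow, one_pow, mul_one]
  case b =>
    obtain ⟨k, hk, e1⟩ := e0
    have e2 : k * u * k⁻¹ = u := by
      have := congrArg (· ^ n) e1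
      simpa only [conj_pow, k2 y hy, k2 y' hy'] using this
    refine ⟨k, ⟨hk, mem_centralizer_singleton_iff.2 (mul_inv_eq_iff_eq_mul.1 e2)⟩,
      mul_left_cancel (a := u) ?_⟩
    rw [← e1, ← conj_mul, e2]
  case c =>
    obtain ⟨e, k, hk, e1⟩ := e0
    have e2 : (k⁻¹ * g * k⁻¹⁻¹) ^ n = u := by rw [conj_pow, ← e1]; group
    have e3 : (k⁻¹ * g * k⁻¹⁻¹) ^ (a * b) = 1 := by rw [conj_pow, e]; group
    have e4 : k⁻¹ * g * k⁻¹⁻¹ ∈ K := mul_mem (mul_mem (inv_mem hk) hg) (inv_mem (inv_mem hk))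
    have e5 : Cj K (k⁻¹ * g * k⁻¹⁻¹) g := ⟨k, hk, by group⟩
    generalize k⁻¹ * g * k⁻¹⁻¹ = c at e2 e3 e4 e5
    have e6 : Commute u c := e2 ▸ Commute.pow_self c n
    obtain ⟨y, hy, l, hl, e7⟩ := h.all (u⁻¹ * c) (mem_inf.2 ⟨mul_mem (inv_mem h4) e4,
      mem_centralizer_singleton_iff.2 ((Commute.refl u).inv_left.mul_left e6.symm)⟩)
      (by rw [e6.inv_left.mul_pow, inv_pow, ← e2, h3 c e3, inv_mul_cancel])
    refine ⟨_, List.mem_map_of_mem hy, Cj.trans ⟨l, hl.1, ?_⟩ e5⟩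
    rw [← conj_mul, e7, mul_inv_eq_iff_eq_mul.2 (mem_centralizer_singleton_iff.1 hl.2),
      mul_inv_cancel_left]

/-- Classes are counted section by section. -/
theorem NCl.mul {a b : ℕ} (hab : a.Coprime b) {ms : List ℕ} (h : Reps K (· ^ a = 1) L)
    (hf : List.Forall₂ (fun u m => NCl (K ⊓ centralizer {u}) (· ^ b = 1) m) L ms) :
    NCl K (· ^ (a * b) = 1) ms.sum := by
  obtain ⟨n, e1, e2⟩ := Nat.chineseRemainder hab 1 0
  have h1 : ∀ g : G, g ^ a = 1 → g ^ n = g := fun g e =>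
    (pow_eq_pow_of_modEq e1 e).trans (pow_one g)
  have h2 : ∀ g : G, g ^ b = 1 → g ^ n = 1 := fun g e =>
    (pow_eq_pow_of_modEq e2 e).trans (pow_zero g)
  have h3 : ∀ g : G, g ^ (a * b) = 1 → (g ^ n) ^ b = g ^ b := fun g e => by
    rw [pow_right_comm, h1 _ (by rw [← pow_mul', e])]
  have key : ∀ {L ms}, List.Forall₂ (fun u m => NCl (K ⊓ centralizer {u}) (· ^ b = 1) m) L ms →
      (∀ u ∈ L, u ∈ K ∧ u ^ a = 1) → (L.Pairwise fun a b => ¬ Cj K a b) →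
      NCl K (fun g => g ^ (a * b) = 1 ∧ ∃ u ∈ L, Cj K u (g ^ n)) ms.sum := by
    intro L ms hf
    induction hf with
    | nil => exact fun _ _ => ⟨[], rfl, by simp, by simp, by simp⟩
    | cons k _ ih =>
      intro k1 k2
      rw [List.forall_mem_cons] at k1
      rw [List.pairwise_cons] at k2
      refine ((k.sec h1 h2 h3 k1.1.1 k1.1.2).add (ih k1.2 k2.2)
        fun c d hc ⟨_, u, hu, e⟩ e3 => k2.1 u hu ((hc.2.trans (e3.pow n)).trans e.symm)).congr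
        fun g _ => ?_
      simp only [List.mem_cons, exists_eq_or_imp, and_or_left]
  exact (key hf h.mem h.pair).congr fun g hg => and_iff_left_of_imp fun e =>
    h.all _ (pow_mem hg n) (by rw [pow_right_comm, h2 _ (by rw [← pow_mul, e])])

theorem inf_cent_one : K ⊓ centralizer {1} = K :=
  inf_eq_left.2 fun _ _ => mem_centralizer_singleton_iff.2 (by simp)

/-- Transport along an injective homomorphism. -/
theorem Reps.map {A : Type*} [Group A] {f : A →* G} (hf : Function.Injective f) {B : Subgroup A}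
    {R : A → Prop} {L : List A} (h : Reps B R L) (e : ∀ a, R a ↔ P (f a)) :
    Reps (B.map f) P (L.map f) := by
  refine ⟨fun g hg => ?_, List.pairwise_map.2 (h.pair.imp fun k ⟨_, ⟨c, hc, rfl⟩, e1⟩ =>
    k ⟨c, hc, hf (by rw [map_mul, map_mul, map_inv, e1])⟩), ?_⟩
  · obtain ⟨a, ha, rfl⟩ := List.mem_map.1 hg
    exact ⟨mem_map_of_mem f (h.mem a ha).1, (e a).1 (h.mem a ha).2⟩
  · rintro _ ⟨a, ha, rfl⟩ k
    obtain ⟨c, hc, l, hl, rfl⟩ := h.all a ha ((e a).2 k)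
    exact ⟨_, List.mem_map_of_mem hc, f l, mem_map_of_mem f hl, by simp⟩

/-- Passage to a larger group that induces no further fusion. -/
theorem Reps.sup {X : Subgroup G} (h : Reps X P L) (h1 : X ≤ K) (h2 : ∀ g ∈ K, P g → g ∈ X)
    (h3 : ∀ k ∈ K, ∃ l ∈ X, ∀ g ∈ X, k * g * k⁻¹ = l * g * l⁻¹) : Reps K P L :=
  ⟨fun a ha => ⟨h1 (h.mem a ha).1, (h.mem a ha).2⟩, h.pair.imp_of_mem fun ha _ e ⟨k, hk, e1⟩ =>
    have ⟨l, hl, e2⟩ := h3 k hk
    e ⟨l, hl, (e2 _ (h.mem _ ha).1).symm.trans e1⟩,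
    fun g hg k => (h.all g (h2 g hg k) k).imp fun _ k => ⟨k.1, k.2.mono h1⟩⟩

variable [Finite G]

theorem exists_reps (K : Subgroup G) (P : G → Prop) : ∃ L, Reps K P L := by
  have key : ∀ l : List G, ∃ L : List G, (∀ a ∈ L, a ∈ K ∧ P a) ∧
      (L.Pairwise fun a b => ¬ Cj K a b) ∧ ∀ g ∈ l, g ∈ K → P g → ∃ a ∈ L, Cj K a g := by
    intro l
    induction l with
    | nil => exact ⟨[], by simp, by simp, by simp⟩
    | cons g l ih =>
      obtain ⟨L, h1, h2, h3⟩ := ih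
      by_cases e : g ∈ K → P g → ∃ a ∈ L, Cj K a g
      · exact ⟨L, h1, h2, List.forall_mem_cons.2 ⟨e, h3⟩⟩
      push Not at e
      exact ⟨g :: L, List.forall_mem_cons.2 ⟨⟨e.1, e.2.1⟩, h1⟩,
        List.pairwise_cons.2 ⟨fun a ha k => e.2.2 a ha k.symm, h2⟩, List.forall_mem_cons.2
        ⟨fun _ _ => ⟨g, by simp, Cj.refl K g⟩, fun c hc k1 k2 =>
          (h3 c hc k1 k2).imp fun _ k => ⟨List.mem_cons_of_mem _ k.1, k.2⟩⟩⟩
  have := Fintype.ofFinite G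
  obtain ⟨L, h1, h2, h3⟩ := key Finset.univ.toList
  exact ⟨L, h1, h2, fun g => h3 g (by simp)⟩

/-- The class equation for an invariant set of elements with centralizers of equal order. -/
theorem Reps.cnt_mul (h : Reps K P L) (hP : ∀ a b, P a → Cj K a b → P b) {c : ℕ}
    (hc : ∀ a ∈ L, Nat.card ↥(K ⊓ centralizer ({a} : Set G)) = c) :
    cnt (fun g => g ∈ K ∧ P g) * c = L.length * Nat.card K := by
  have key : ∀ L : List G, (∀ a ∈ L, Nat.card ↥(K ⊓ centralizer ({a} : Set G)) = c) →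
      (L.Pairwise fun a b => ¬ Cj K a b) →
      cnt (fun g => ∃ a ∈ L, Cj K a g) * c = L.length * Nat.card K := by
    intro L
    induction L with
    | nil => exact fun _ _ => by rw [cnt_eq_zero (by simp)]; simp
    | cons a L ih =>
      intro k1 k2
      rw [List.forall_mem_cons] at k1
      rw [List.pairwise_cons] at k2
      rw [cnt_add _ (Cj K a), add_mul, List.length_cons, add_mul, one_mul, add_comm, ← ih k1.2 k2.2,
        ← J4B.cnt_conj_mul K a, k1.1]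
      congr 2
      · exact cnt_congr fun g => ⟨fun ⟨⟨b, hb, e⟩, e1⟩ => ⟨b, (List.mem_cons.1 hb).resolve_left
          fun e2 => e1 (e2 ▸ e), e⟩, fun ⟨b, hb, e⟩ => ⟨⟨b, List.mem_cons_of_mem _ hb, e⟩,
            fun e1 => k2.1 b hb (e1.trans e.symm)⟩⟩
      · exact cnt_congr fun g => ⟨fun k => k.2, fun k => ⟨⟨a, by simp, k⟩, k⟩⟩
  rw [← key L hc h.pair]
  congr 1
  exact cnt_congr fun g => ⟨fun k => h.all g k.1 k.2, fun ⟨a, ha, k, hk, e⟩ =>
    ⟨e ▸ mul_mem (mul_mem hk (h.mem a ha).1) (inv_mem hk), hP a g (h.mem a ha).2 ⟨k, hk, e⟩⟩⟩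

end Cfsg.Lib.SporChar.J4D
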