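import Cfsg.Agent.SporChar.J4DA
import Cfsg.Agent.SporChar.J4DK
import Cfsg.Agent.SporChar.J4PDefs

/-! Groups of type `J₄`: the classes in the 3-section. -/

set_option autoImplicit false
set_option maxRecDepth 100000

namespace Cfsg.Lib.SporChar.J4D

open Subgroup Equiv Cfsg.Lib.Spor Cfsg.Lib.Spor.MP J4B

theorem length_le_card {G : Type*} [Group G] [Finite G] {K : Subgroup G} {L : List G}
    (h1 : L.Nodup) (h2 : ∀ a ∈ L, a ∈ K) : L.length ≤ Nat.card K := by
  classical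
  rw [← List.toFinset_card_of_nodup h1, ← Nat.card_eq_finsetCard]
  exact Nat.card_le_card_of_injective (fun a => ⟨a.1, h2 _ (List.mem_toFinset.1 a.2)⟩)
    fun a b e => Subtype.ext (congrArg Subtype.val e :)

theorem card_le_map {A B : Type*} [Group A] [Group B] [Finite A] (f : A →* B) (D : Subgroup A) :
    Nat.card D ≤ Nat.card f.ker * Nat.card (D.map f) := by
  rw [← (f.domRestrict D).ker.card_mul_index, index_ker, MonoidHom.domRestrict_range]
  exact Nat.mul_le_mul_right _ (Nat.card_le_card_of_injective (fun a => ⟨a.1.1, a.2⟩)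
    fun a b e => Subtype.ext (Subtype.ext (congrArg Subtype.val e :)))

/-- The order and the centraliser order of an element of `M₂₂`. -/
noncomputable def iv (σ : Perm GolayPt) : ℕ × ℕ :=
  (orderOf σ, Nat.card ↥(Spor.M22 ⊓ centralizer {σ}))

theorem iv_of {r : ℕ × ℕ × ℕ} (hr : r ∈ reps22) {g : Perm GolayPt} (hg : g ∈ Spor.M22) :
    iv (g * toPerm r.1 * g⁻¹) = r.2 :=
  Prod.ext (((MulAut.conj g).orderOf_eq _).trans (isClassList_M22.ord r hr))
    (isClassList_M22.card_cent_conj hr hg rfl)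

theorem iv_conj {σ g : Perm GolayPt} (hσ : σ ∈ Spor.M22) (hg : g ∈ Spor.M22) :
    iv (g * σ * g⁻¹) = iv σ := by
  obtain ⟨r, hr, k, hk, rfl⟩ := isClassList_M22.all σ hσ
  rw [iv_of hr hk, ← iv_of hr (mul_mem hg hk)]
  exact congrArg iv (by group)

theorem iv_mem {σ : Perm GolayPt} (hσ : σ ∈ Spor.M22) : iv σ ∈ reps22.map Prod.snd := by
  obtain ⟨r, hr, k, hk, rfl⟩ := isClassList_M22.all σ hσ
  exact iv_of hr hk ▸ List.mem_map_of_mem hr

theorem conj_of_iv {σ τ : Perm GolayPt} (hσ : σ ∈ Spor.M22) (hτ : τ ∈ Spor.M22) (e : iv σ = iv τ)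
    (h : (iv σ).1 ∣ 8) : ∃ g ∈ Spor.M22, g * σ * g⁻¹ = τ := by
  obtain ⟨r, hr, k, hk, rfl⟩ := isClassList_M22.all σ hσ
  obtain ⟨s, hs, l, hl, rfl⟩ := isClassList_M22.all τ hτ
  rw [iv_of hr hk] at e h
  rw [iv_of hs hl] at e
  obtain rfl := (by decide +kernel : ∀ r ∈ reps22, ∀ s ∈ reps22, r.2 = s.2 → r.2.1 ∣ 8 → r = s)
    r hr s hs e h
  exact ⟨l * k⁻¹, mul_mem hl (inv_mem hk), by group⟩

/-- The product in `2^11:M₂₄`. -/
def mM (a b : ℕ × ℕ) : ℕ × ℕ := (a.1 ^^^ J4B.act a.2 b.1, pmul a.2 b.2)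

/-- Codes of elements of the centraliser of `x`. -/
def okM (a : ℕ × ℕ) : Bool :=
  evS a.1 && isM24 a.2 && comm a.2 r3A && Nat.beq (J4B.act r3A a.1) a.1

/-- An involution of `M₂₄` commuting with `r3A`. -/
def tM : ℕ := 964048898635769892387945499611696129

/-- The centraliser of `(318, tM)`. -/
def lM : List (ℕ × ℕ) := [0, 232, 834, 938, 2050, 2282, 2880, 2984].flatMap fun s =>
  [(1355, 548008664198992417340242073871256608), (1355, 551079900670444549335984422336400416),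
   (1355, 553569436499586175051397272032054304), (1141, 568777693186629215780209743777335297),
   (1141, 561464296310043261105638022964152321), (1141, 545781070459213698682304670810081281),
   (1141, 565358637805557322458242112113607778), (1141, 551902451101335670649151749909120098),
   (1141, 556165466090652150387061278764958818), (1355, 554498916438115199299612469852405827),
   (1355, 560166103256717014686351757069549635), (1355, 549675728844597128139355694293876803),
   (0, 984818244535754528103549039458486304), (0, 961409415667826064667231448532617248),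
   (0, 976909097487365034896521273070946336), (318, 966524305707331546023444058503973889),
   (318, 969197940164372444974111772687535105), (318, 964048898635769892387945499611696129),
   (0, 970538992418718774876113737513730146), (0, 965303519456600785448949461860515938),
   (0, 975610944048082250968563615089590370), (318, 967943160906634882443693203669386307),
   (318, 980803003228400856654373140367934531), (318, 971794524352047128985108789576336451)].map
    fun a : ℕ × ℕ => (s ^^^ a.1, a.2)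

theorem lM_ok : ∀ a ∈ lM, okM a = true ∧ mM a (318, tM) = mM (318, tM) a := by decide +kernel

theorem lM_pair : lM.Pairwise fun a b => a.1 = b.1 → peq a.2 b.2 = false := by decide +kernel

theorem okM_iff {a : ℕ × ℕ} (h : okM a = true) :
    evS a.1 = true ∧ isM24 a.2 = true ∧ comm a.2 r3A = true ∧ J4B.act r3A a.1 = a.1 := by
  simpa only [okM, Bool.and_eq_true, Nat.beq_eq, and_assoc] using h

/-- The element with a given code. -/
noncomputable def wk {G : Type*} [Group G] (v : Finset GolayPt → G) (κ : M24 →* G) (a : ℕ × ℕ) : G :=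
  v (sm a.1) * κ (J4P.el a.2)

theorem wk_one {G : Type*} [Group G] (v : Finset GolayPt → G) (κ : M24 →* G) (s : ℕ) :
    wk v κ (s, pid) = v (sm s) := by
  rw [wk, J4P.el_eq (σ := 1) rep_one, map_one, mul_one]

end Cfsg.Lib.SporChar.J4D

namespace Cfsg.Lib.SporChar.J4B.Sp

open Subgroup Equiv Cfsg.Lib.Local Cfsg.Lib.Solv Cfsg.Lib.Spor Cfsg.Lib.Spor.MP Cfsg.Lib.SporChar.J4
  J4B J4C J4D J4P
open scoped Pointwise

variable {G : Type*} [Group G] [Finite G] {z x : G} {Q : Subgroup G} {p ρ : G → Perm GolayPt}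
  {v : Finset GolayPt → G} {κ : M24 →* G} (h : Sp z x Q p v ρ κ)
include h

omit [Finite G] in
theorem wk_mul {a b : ℕ × ℕ} (ha : okM a = true) (hb : okM b = true) :
    wk v κ a * wk v κ b = wk v κ (mM a b) := by
  have r := rep_el (okM_iff ha).2.1
  rw [wk, wk, wk, mM, h.coc.w_xor, el_eq (σ := el a.2 * el b.2) (r.mul (rep_el (okM_iff hb).2.1)),
    map_mul, ← h.coc.conj_w (h.κ_mem _) (h.rep_κ r) (okM_iff hb).1]
  group

omit [Finite G] in
theorem wk_mem {a : ℕ × ℕ} (ha : okM a = true) : wk v κ a ∈ centralizer ({x} : Set G) := by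
  obtain ⟨h1, h2, h3, h4⟩ := okM_iff ha
  refine mul_mem (mem_centralizer_singleton_iff.2 ((h.coc.comm_w_iff h.xN h.rep_x h1).2 h4)) ?_
  rw [el, dif_pos h2]
  exact h.κ_mem_C (inSub_M24 h2) h3

theorem mem22 {c : G} (hc : c ∈ centralizer ({x} : Set G)) : p c ∈ Spor.M22 :=
  h.inner c (h.cent_x hc) (mem_cent_iff.1 hc)

theorem two_eq {N : ℕ} (hN : (2 * N).Coprime 3) {a b : G} (ha : a ∈ centralizer ({x} : Set G))
    (hb : b ∈ centralizer ({x} : Set G)) (e : p a = p b) (h1 : a ^ N = 1) (h2 : b ^ N = 1) :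
    a = b ∨ a = b * z := by
  have h3 := mul_mem (inv_mem hb) ha
  obtain ⟨w, hw, y, ⟨i, rfl⟩, e'⟩ := h.ker_cent (h.cent_x h3) (by
    rw [h.p_mul _ (h.cent_x (inv_mem hb)) _ (h.cent_x ha), h.p_inv (h.cent_x hb), e, inv_mul_cancel])
    (mem_centralizer_singleton_iff.1 h3).symm
  rw [inv_mul_eq_iff_eq_mul] at e'
  have c1 : Commute b w := h.comm_z (h.cent_x hb) hw
  have c2 : Commute b x := mem_centralizer_singleton_iff.1 hb
  have c3 : Commute x w := h.comm_z h.xH hw
  have c4 : w ^ 2 = 1 := by rcases h.pre.mem_iff.1 hw with rfl | rfl <;> simp [sq, h.pre.mul_self]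
  have c5 : (x ^ i) ^ (2 * N) = 1 := by
    have : a ^ (2 * N) = 1 := by rw [mul_comm, pow_mul, h1, one_pow]
    rwa [e', (c1.mul_right (c2.zpow_right i)).mul_pow, (c3.symm.zpow_right i).mul_pow, pow_mul w, c4,
      pow_mul' b, h2, one_pow, one_pow, one_mul, one_mul] at this
  have c6 : (x ^ i) ^ 3 = 1 := by rw [← zpow_natCast, zpow_comm, zpow_natCast, h.cube, one_zpow]
  have c7 := pow_gcd_eq_one.2 ⟨c5, c6⟩
  rw [hN, pow_one] at c7
  simp only [c7, mul_one] at e'
  exact (h.pre.mem_iff.1 hw).imp (fun e => by rw [e', e, mul_one]) fun e => by rw [e', e]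

theorem cj_z {a b : G} (e : Cj (centralizer {x}) a b) : Cj (centralizer {x}) (a * z) (b * z) := by
  obtain ⟨k, hk, rfl⟩ := e
  exact ⟨k, hk, by rw [← mul_assoc, mul_assoc _ z, ← h.comm_z (h.cent_x (inv_mem hk))
    (mem_zpowers z), ← mul_assoc]⟩

theorem not_cj {c : G} (hc : c ∈ centralizer ({x} : Set G))
    (e : ∀ τ ∈ Spor.M22 ⊓ centralizer {p c}, ∃ d ∈ centralizer ({x} : Set G), p d = τ ∧ d * c = c * d) :
    ¬ Cj (centralizer {x}) c (c * z) := by
  rintro ⟨k, hk, e1⟩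
  have e2 := congrArg p e1
  rw [h.p_conj (h.cent_x hk) (h.cent_x hc), h.p_mul _ (h.cent_x hc) _ h.zH, h.p_z, mul_one,
    mul_inv_eq_iff_eq_mul] at e2
  obtain ⟨d, hd, e3, e4⟩ := e _ ⟨h.mem22 hk, mem_centralizer_singleton_iff.2 e2⟩
  have h1 := mul_mem (inv_mem hd) hk
  have e5 := (h.central_iff h1).2 (by
    rw [h.p_mul _ (h.cent_x (inv_mem hd)) _ (h.cent_x hk), h.p_inv (h.cent_x hd), e3,
      inv_mul_cancel]) c hc
  refine h.pre.ne_one (mul_left_cancel (a := c) ?_)
  rw [← e1, mul_one]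
  calc _ = d * (d⁻¹ * k * c) * k⁻¹ := by group
    _ = d * c * d⁻¹ := by rw [← e5]; group
    _ = c := by rw [e4, mul_inv_cancel_right]

variable {N : ℕ} (hN : (2 * N).Coprime 3) (h16 : 16 ∣ N)
include hN h16

theorem fibre {c g : G} (hc : c ∈ centralizer ({x} : Set G)) (h1 : c ^ 16 = 1)
    (h8 : (iv (p c)).1 ∣ 8) (hg : g ∈ centralizer ({x} : Set G)) (h2 : g ^ N = 1)
    (e : iv (p g) = iv (p c)) : Cj (centralizer {x}) c g ∨ Cj (centralizer {x}) (c * z) g := by
  obtain ⟨τ, hτ, e1⟩ := conj_of_iv (h.mem22 hc) (h.mem22 hg) e.symm h8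
  obtain ⟨k, hk, h3, rfl⟩ := h.lift hτ
  have h4 := mem_cent_iff.2 h3
  obtain ⟨n, rfl⟩ := h16
  rcases h.two_eq hN hg (mul_mem (mul_mem h4 hc) (inv_mem h4)) (by rw [h.p_conj hk (h.cent_x hc), e1])
    h2 (by rw [conj_pow, pow_mul, h1]; group) with e2 | e2
  · exact Or.inl ⟨k, h4, e2.symm⟩
  · exact Or.inr (e2 ▸ h.cj_z ⟨k, h4, rfl⟩)

theorem ncl_cons {c : G} (hc : c ∈ centralizer ({x} : Set G)) (h1 : c ^ 16 = 1) {t : ℕ × ℕ}
    (ht : iv (p c) = t) (h8 : t.1 ∣ 8) {T : List (ℕ × ℕ)} (hT : t ∉ T) {m n : ℕ}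
    (hn : n = 1 ∧ Cj (centralizer {x}) c (c * z) ∨ n = 2 ∧ ¬ Cj (centralizer {x}) c (c * z))
    (hm : NCl (centralizer {x}) (fun g => g ^ N = 1 ∧ iv (p g) ∈ T) m) :
    NCl (centralizer {x}) (fun g => g ^ N = 1 ∧ iv (p g) ∈ t :: T) (n + m) := by
  subst ht
  have hz := mem_cent_symm h.xH
  have h2 : c ^ N = 1 := orderOf_dvd_iff_pow_eq_one.1 ((orderOf_dvd_of_pow_eq_one h1).trans h16)
  have h3 : NCl (centralizer {x})
      (fun g => g ∈ centralizer ({x} : Set G) ∧ g ^ N = 1 ∧ iv (p g) = iv (p c)) n := by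
    rcases hn with ⟨rfl, e⟩ | ⟨rfl, e⟩
    · exact (reps_single hc ⟨hc, h2, rfl⟩ fun g hg k =>
        (h.fibre hN h16 hc h1 h8 hg k.2.1 k.2.2).elim id e.trans).ncl
    · refine Reps.ncl (L := [c, c * z]) ⟨?_, by simpa using e, fun g hg k => by
        simpa using h.fibre hN h16 hc h1 h8 hg k.2.1 k.2.2⟩
      simp only [List.mem_cons, List.not_mem_nil, or_false, forall_eq_or_imp, forall_eq]
      refine ⟨⟨hc, hc, h2, trivial⟩, mul_mem hc hz, mul_mem hc hz, ?_, by
        rw [h.p_mul _ (h.cent_x hc) _ h.zH, h.p_z, mul_one]⟩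
      rw [(show Commute c z from mem_centralizer_singleton_iff.1 (h.cent_x hc)).mul_pow, h2, one_mul]
      exact orderOf_dvd_iff_pow_eq_one.1 (h.pre.ord ▸ Dvd.dvd.trans (by norm_num) h16)
  refine (h3.add hm fun a b k1 k2 ⟨k, hk, e⟩ => hT ?_).congr fun g hg => by
    rw [and_iff_right hg, List.mem_cons, and_or_left]
  rw [← k1.2.2, ← iv_conj (h.mem22 k1.1) (h.mem22 hk), ← h.p_conj (h.cent_x hk) (h.cent_x k1.1), e]
  exact k2.2

omit hN h16 in
theorem ord_w {s : ℕ} (hs : okM (s, pid) = true) (h0 : s ≠ 0) (h1 : s ≠ 2880) :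
    p (v (sm s)) ≠ 1 ∧ p (v (sm s)) ^ 2 = 1 := by
  have hc := wk_one v κ s ▸ h.wk_mem hs
  have he := (okM_iff hs).1
  have h2 : v (sm s) ^ 2 = 1 := by rw [sq, h.coc.v_sq]
  refine ⟨fun e => ?_, by rw [← h.p_pow (h.cent_x hc), h2, h.p_one]⟩
  rcases h.two_eq (N := 2) (by norm_num) hc (one_mem _) (e.trans h.p_one.symm) h2 (one_pow _) with
    e1 | e1
  · exact h0 ((h.coc.w_eq_one he).1 e1)
  · rw [one_mul, ← h.w_z] at e1
    exact h1 ((h.coc.w_inj he (by decide +kernel)).1 e1)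

omit hN h16 in
theorem ord_four {a : ℕ × ℕ} {s : ℕ} (ha : okM a = true) (e : mM a a = (s, pid))
    (hs : okM (s, pid) = true) (h0 : s ≠ 0) (h1 : s ≠ 2880) :
    wk v κ a ^ 16 = 1 ∧ (iv (p (wk v κ a)) = (4, 32) ∨ iv (p (wk v κ a)) = (4, 16)) := by
  have hc := h.wk_mem ha
  have h2 : wk v κ a ^ 2 = v (sm s) := by rw [sq, h.wk_mul ha ha, e, wk_one]
  have h3 := h.ord_w hs h0 h1
  rw [← h2, h.p_pow (h.cent_x hc), ← pow_mul] at h3
  refine ⟨by rw [show 16 = 2 * (2 * 4) from rfl, pow_mul, h2, pow_mul, sq, h.coc.v_sq, one_pow],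
    (by decide +kernel : ∀ t ∈ reps22.map Prod.snd, t.1 = 4 → t = (4, 32) ∨ t = (4, 16)) _
      (iv_mem (h.mem22 hc)) (orderOf_eq_prime_pow (p := 2) (n := 1) h3.1 h3.2)⟩

omit hN h16 in
theorem class4A : iv (p (wk v κ (318, tM))) = (4, 32) ∧
    ¬ Cj (centralizer {x}) (wk v κ (318, tM)) (wk v κ (318, tM) * z) := by
  have h0 : okM (318, tM) = true := by decide +kernel
  have hc := h.wk_mem h0
  have h1 := (h.ord_four (s := 834) h0 (by decide +kernel) (by decide +kernel) (by norm_num)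
    (by norm_num)).2
  have h2 := length_le_card (K := centralizer {x} ⊓ centralizer {wk v κ (318, tM)})
    (L := lM.map (wk v κ)) (List.pairwise_map.2 (lM_pair.imp_of_mem fun {a b} ha hb e e1 => by
      have ka := okM_iff (lM_ok a ha).1
      have kb := okM_iff (lM_ok b hb).1
      have e2 := congrArg ρ e1
      rw [wk, wk, h.ρ_mul (h.coc.w_mem ka.1), h.ρ_mul (h.coc.w_mem kb.1)] at e2
      rw [wk, wk, Subtype.ext e2, mul_left_inj, h.coc.w_inj ka.1 kb.1] at e1
      exact absurd (((rep_el ka.2.1).eq_iff (rep_el kb.2.1)).1 e2) (by rw [e e1]; decide)))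
    fun g hg => by
      obtain ⟨a, ha, rfl⟩ := List.mem_map.1 hg
      exact ⟨h.wk_mem (lM_ok a ha).1, mem_centralizer_singleton_iff.2 (by
        rw [h.wk_mul (lM_ok a ha).1 h0, h.wk_mul h0 (lM_ok a ha).1, (lM_ok a ha).2])⟩
  generalize wk v κ (318, tM) = c at *
  obtain ⟨y, h3, h4⟩ := h.center_eq
  have h5 := card_le_map h.homC ((centralizer {x} ⊓ centralizer {c}).subgroupOf (centralizer {x}))
  rw [h.ker_homC, h4, Nat.card_zpowers, h3, Nat.card_congr (subgroupOfEquivOfLe inf_le_left).toEquiv]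
    at h5
  have h6 : ((centralizer {x} ⊓ centralizer {c}).subgroupOf (centralizer {x})).map h.homC ≤
      Spor.M22 ⊓ centralizer {p c} := by
    rintro _ ⟨d, hd, rfl⟩
    refine ⟨h.mem22 d.2, mem_centralizer_singleton_iff.2 ?_⟩
    change p d * p c = p c * p d
    rw [← h.p_mul _ (h.cent_x d.2) _ (h.cent_x hc), ← h.p_mul _ (h.cent_x hc) _ (h.cent_x d.2),
      show (d : G) * c = c * d from mem_centralizer_singleton_iff.1 hd.2]
  have h7 := card_le_of_le h6
  have h8 : (lM.map fun _ => c).length = 192 := by rw [List.length_map]; decide +kernel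
  rw [List.length_map] at h2 h8
  have h9 : iv (p c) = (4, 32) := h1.resolve_right fun e => by
    have : Nat.card ↥(Spor.M22 ⊓ centralizer {p c}) = 16 := congrArg Prod.snd e
    omega
  have h10 : Nat.card ↥(Spor.M22 ⊓ centralizer {p c}) = 32 := congrArg Prod.snd h9
  refine ⟨h9, h.not_cj hc fun τ hτ => ?_⟩
  rw [← eq_of_le_of_card_ge h6 (by omega)] at hτ
  obtain ⟨d, hd, rfl⟩ := hτ
  exact ⟨d, d.2, rfl, mem_centralizer_singleton_iff.1 hd.2⟩

theorem ncl_two (hM : N = 2 ^ 21) : NCl (centralizer {x}) (· ^ N = 1) 9 := by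
  have k0 : NCl (centralizer ({x} : Set G)) (fun g => g ^ N = 1 ∧ iv (p g) ∈ []) 0 :=
    Reps.ncl (L := []) ⟨by simp, by simp, by simp⟩
  have k1 := h.ncl_cons hN h16 (one_mem _) (one_pow _) (t := (1, 443520))
    ((by decide +kernel : ∀ t ∈ reps22.map Prod.snd, t.1 = 1 → t = (1, 443520)) _
      (iv_mem (h.mem22 (one_mem _))) (by rw [h.p_one]; exact orderOf_one)) (by decide) (by decide)
    (Or.inr ⟨rfl, fun ⟨k, _, e⟩ => h.pre.ne_one (by rw [← one_mul z, ← e]; group)⟩) k0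
  have hd : okM (2282, pid) = true := by decide +kernel
  have h1 := h.ord_w hd (by norm_num) (by norm_num)
  have k2 := h.ncl_cons hN h16 (wk_one v κ _ ▸ h.wk_mem hd)
    (by rw [show 16 = 2 * 8 from rfl, pow_mul, sq, h.coc.v_sq, one_pow]) (t := (2, 384))
    ((by decide +kernel : ∀ t ∈ reps22.map Prod.snd, t.1 = 2 → t = (2, 384)) _
      (iv_mem (h.mem22 (wk_one v κ _ ▸ h.wk_mem hd))) (orderOf_eq_prime h1.2 h1.1)) (by decide)
    (by decide) (Or.inr ⟨rfl, fun e => by
      have e1 := e.isConj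
      nth_rw 1 [← h.w_z, ← h.coc.w_xor] at e1
      exact absurd ((h.type_w (by decide +kernel)).1
        (((h.type_w (by decide +kernel)).2 (by decide +kernel)).trans e1.symm)).2
        (by decide +kernel)⟩) k1
  have ha : okM (318, tM) = true := by decide +kernel
  have h2 := (h.ord_four (s := 834) ha (by decide +kernel) (by decide +kernel) (by norm_num)
    (by norm_num)).1
  have k3 := h.ncl_cons hN h16 (h.wk_mem ha) h2 h.class4A.1 (by decide) (by decide)
    (Or.inr ⟨rfl, h.class4A.2⟩) k2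
  have hb : okM (3191, tM) = true := by decide +kernel
  have h3 := h.ord_four (s := 2282) hb (by decide +kernel) hd (by norm_num) (by norm_num)
  have h4 : Cj (centralizer {x}) (wk v κ (3191, tM)) (wk v κ (3191, tM) * z) := by
    have hk : okM (1355, 568777693186629215780209743777335297) = true := by decide +kernel
    refine ⟨_, h.wk_mem hk, mul_inv_eq_iff_eq_mul.2 ?_⟩
    rw [← h.w_z, ← wk_one v κ, h.wk_mul hk hb, mul_assoc, h.wk_mul (by decide +kernel) hk,
      h.wk_mul hb (by decide +kernel)]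
    exact congrArg _ (by decide +kernel)
  have k4 := h.ncl_cons hN h16 (h.wk_mem hb) h3.1 (h3.2.resolve_left fun e => h.class4A.2 (by
    rcases h.fibre (N := 16) (by norm_num) dvd_rfl (h.wk_mem ha) h2 (by rw [h.class4A.1]; decide)
      (h.wk_mem hb) h3.1 (e.trans h.class4A.1.symm) with e1 | e1
    · exact (e1.trans h4).trans (h.cj_z e1).symm
    · have := h.cj_z e1
      rw [mul_assoc, h.pre.mul_self, mul_one] at this
      exact (this.trans h4.symm).trans e1.symm)) (by decide) (by decide) (Or.inl ⟨rfl, h4⟩) k3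
  have hr : (970090398290860516393695858876011200, 8, 8) ∈ reps22 := by decide +kernel
  obtain ⟨d, hd', h5, h6⟩ := h.lift (isClassList_M22.mem _ hr).2
  have h7 := mem_cent_iff.2 h5
  have h8 : orderOf (p d) = 8 := h6 ▸ isClassList_M22.ord _ hr
  have h9 : p (d ^ 9) = p d := by rw [h.p_pow hd', pow_succ, ← h8, pow_orderOf_eq_one, one_mul]
  have h10 : Nat.card ↥(Spor.M22 ⊓ centralizer {p d}) = 8 := h6 ▸ isClassList_M22.cent _ hr
  have k5 := h.ncl_cons hN h16 (pow_mem h7 9) (by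
      obtain ⟨i, e⟩ := h.mem_zx.2 ⟨pow_mem h7 8, by rw [h.p_pow hd', ← h8, pow_orderOf_eq_one]⟩
      rw [← pow_mul, show 9 * 16 = 8 * (6 * 3) from rfl, pow_mul, ← e, pow_mul, ← zpow_natCast _ 6,
        zpow_comm, zpow_natCast, ← h.ord_zx, pow_orderOf_eq_one, one_zpow, one_pow])
    (t := (8, 8)) (by rw [h9, iv, h8, h10]) (by decide) (by decide)
    (Or.inr ⟨rfl, h.not_cj (pow_mem h7 9) fun τ hτ => by
      rw [h9, ← eq_of_le_of_card_ge (zpowers_le.2 (mem_inf.2
        ⟨h.mem22 h7, mem_centralizer_singleton_iff.2 rfl⟩)) (by rw [h10, Nat.card_zpowers, h8])] at hτ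
      obtain ⟨i, -, rfl⟩ := exists_pow_of_mem hτ
      exact ⟨_, pow_mem h7 i, h.p_pow hd' i, (Commute.refl d).pow_pow i 9⟩⟩) k4
  refine k5.congr fun g hg => and_iff_left_of_imp fun e => ?_
  exact (by decide +kernel : ∀ t ∈ reps22.map Prod.snd, t.1 ∣ 2 ^ 21 → t ∈ _) _ (iv_mem (h.mem22 hg))
    (orderOf_dvd_of_pow_eq_one (by rw [← hM, ← h.p_pow (h.cent_x hg), e, h.p_one]))

omit hN h16 in
theorem sec3 : Reps ⊤ (fun g => g ^ 27 = 1) [1, x] ∧
    NCl (⊤ ⊓ centralizer {x}) (fun g => g ^ (2 ^ 21) = 1) 9 := by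
  have h1 : x ≠ 1 := fun e => absurd h.x3 (by rw [e, orderOf_one]; norm_num)
  rw [top_inf_eq]
  refine ⟨⟨?_, ?_, fun g _ hg => ?_⟩, h.ncl_two (N := 2 ^ 21) (by norm_num) (by norm_num) rfl⟩
  · simp [show 27 = 3 * 9 from rfl, pow_mul, h.cube, -Nat.reduceMul]
  · simp only [List.pairwise_cons, List.mem_singleton, forall_eq, List.not_mem_nil, false_imp_iff,
      implies_true, List.Pairwise.nil, and_true]
    exact fun ⟨c, _, e⟩ => h1 (by rw [← e]; group)
  · by_cases e1 : g = 1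
    · exact ⟨1, by simp, e1 ▸ Cj.refl _ _⟩
    have : Fact (Nat.Prime 3) := ⟨Nat.prime_three⟩
    obtain ⟨S, hS⟩ := h.exists_sylow
    obtain ⟨n, -, hn⟩ := (Nat.dvd_prime_pow Nat.prime_three (m := 3)).1 (orderOf_dvd_of_pow_eq_one hg)
    obtain ⟨T, hT⟩ := (IsPGroup.of_card (n := n) (by rw [Nat.card_zpowers, hn]) :
      IsPGroup 3 (zpowers g)).exists_le_sylow
    obtain ⟨k, rfl⟩ := MulAction.exists_smul_eq G T S
    have h2 : k * g * k⁻¹ ∈ centralizer ({x} : Set G) :=
      hS (smul_mem_pointwise_smul _ (MulAut.conj k) _ (hT (mem_zpowers g)))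
    have h3 : (k * g * k⁻¹) ^ 27 = 1 := by rw [conj_pow, hg]; group
    exact ⟨x, by simp, cj_top.2 ((isConj_cj _ _ _).1 (h.conj_of_three h2 (orderOf_dvd_iff_pow_eq_one.1
      ((by decide +kernel : ∀ t ∈ reps22.map Prod.snd, t.1 ∣ 27 → t.1 ∣ 3) _ (iv_mem (h.mem22 h2))
        (orderOf_dvd_of_pow_eq_one (by rw [← h.p_pow (h.cent_x h2), h3, h.p_one])))) h3
      fun e => e1 (conj_eq_one_iff.1 e)))⟩

end Cfsg.Lib.SporChar.J4B.Sp
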