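import Cfsg.Agent.SporChar.J4DS5A

/-! Groups of type `J₄`: the classes in the 5-section. -/

set_option autoImplicit false
set_option maxRecDepth 100000
set_option linter.style.haveILetI false

namespace Cfsg.Lib.SporChar.J4D

open Subgroup Matrix Cfsg.Lib.SporChar.J4C

variable {G : Type*} [Group G]

theorem exists_e3 {J U : Subgroup G} {ε : V3 → G} (add : ∀ a b, ε (a + b) = ε a * ε b)
    (inj : Function.Injective ε) (hU : ∀ g, g ∈ U ↔ ∃ a, ε a = g) (h1 : U ≤ J)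
    (h2 : J ≤ normalizer (U : Set G)) (h3 : J ⊓ centralizer (U : Set G) ≤ U)
    (h4 : ∀ α : MulAut U, ∃ j : normalizer (U : Set G), (j : G) ∈ J ∧ U.normalizerMonoidHom j = α) :
    ∃ π, E3 J ε π := by
  have hε : ∀ a, ε a ∈ U := fun a => (hU _).2 ⟨a, rfl⟩
  have k1 : ∀ k : G, ∃ A : M3, k ∈ J → ∀ a, k * ε a * k⁻¹ = ε (A *ᵥ a) := fun k => by
    by_cases hk : k ∈ J
    swap
    · exact ⟨1, fun e => absurd e hk⟩
    choose F hF using fun a => (hU _).1 ((mem_normalizer_iff.1 (h2 hk) _).1 (hε a))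
    refine ⟨LinearMap.toMatrix' ((AddMonoidHom.mk' F fun a b => inj ?_).toZModLinearMap 2),
      fun _ a => ?_⟩
    · rw [add, hF, hF, hF, add]; group
    · rw [LinearMap.toMatrix'_mulVec]; exact (hF a).symm
  choose π hπ using k1
  refine ⟨π, add, inj, fun a => h1 (hε a), hπ, fun A hA => ?_, fun k hk e => (hU k).1 (h3 ⟨hk, ?_⟩)⟩
  · let e : Multiplicative V3 ≃* U := MulEquiv.ofBijective
      (MonoidHom.mk' (fun a => ⟨ε a.toAdd, hε _⟩) fun a b => Subtype.ext (add _ _))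
      ⟨fun a b k => inj (congrArg Subtype.val k), fun u => by
        obtain ⟨a, ha⟩ := (hU _).1 u.2
        exact ⟨Multiplicative.ofAdd a, Subtype.ext ha⟩⟩
    have k2 : Function.Injective A.mulVec :=
      mulVec_injective_of_isUnit ((isUnit_iff_isUnit_det A).2 (by rw [d1_iff.1 hA]; exact isUnit_one))
    let β : Multiplicative V3 ≃* Multiplicative V3 := MulEquiv.ofBijective
      (MonoidHom.mk' (fun a => Multiplicative.ofAdd (A *ᵥ a.toAdd)) fun a b =>
        congrArg Multiplicative.ofAdd (mulVec_add _ _ _))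
      (Finite.injective_iff_bijective.1 fun a b k => k2 k)
    obtain ⟨j, hj, e1⟩ := h4 (e.symm.trans (β.trans e))
    refine ⟨j, hj, Matrix.toLin'.injective (LinearMap.ext fun a => inj ?_)⟩
    have := congrArg (fun α : MulAut U => (α (e (Multiplicative.ofAdd a)) : G)) e1
    simp only [normalizerMonoidHom_apply_apply_coe, MulEquiv.trans_apply,
      MulEquiv.symm_apply_apply] at this
    exact (hπ j hj a).symm.trans this
  · intro u hu
    obtain ⟨a, rfl⟩ := (hU u).1 hu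
    have := hπ k hk a
    rw [e, one_mulVec] at this
    exact (mul_inv_eq_iff_eq_mul.1 this).symm

/-- The syndrome of a vector. -/
def cd (a : V3) : ℕ :=
  (if a 0 = 1 then 2880 else 0) ^^^ (if a 1 = 1 then 356 else 0) ^^^ (if a 2 = 1 then 2310 else 0)

end Cfsg.Lib.SporChar.J4D

namespace Cfsg.Lib.SporChar.J4B.Sp

open Subgroup Equiv Cfsg.Lib.Spor Cfsg.Lib.Spor.MP Cfsg.Lib.SporChar.J4 J4B J4C J4D
open scoped Pointwise

variable {G : Type*} [Group G] [Finite G] {z x : G} {Q : Subgroup G} {p ρ : G → Perm GolayPt}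
  {v : Finset GolayPt → G} {κ : M24 →* G} (h : Sp z x Q p v ρ κ)
include h

theorem sec5 : ∃ f : G, Reps ⊤ (fun g => g ^ 5 = 1) [1, f] ∧
    NCl (⊤ ⊓ centralizer {f}) (fun g => g ^ (27 * 2 ^ 21) = 1) 9 := by
  obtain ⟨φ, k⟩ := h.fw.exists_pw
  obtain ⟨f, hc⟩ := k.exists_f
  have hf := k.ord_f hc
  have h5 : f ^ 5 = 1 := hf ▸ pow_orderOf_eq_one _
  have h1 : f ≠ 1 := fun e => by rw [e, orderOf_one] at hf; omega
  have hcd : ∀ a, cd a ∈ uS := by decide +kernel
  refine ⟨f, ⟨?_, ?_, fun g _ hg => ?_⟩, ?_⟩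
  · simp [h5]
  · simp only [List.pairwise_cons, List.mem_singleton, forall_eq, List.not_mem_nil, false_imp_iff,
      implies_true, List.Pairwise.nil, and_true]
    exact fun ⟨c, _, e⟩ => h1 (by rw [← e]; group)
  · by_cases e1 : g = 1
    · exact ⟨1, by simp, e1 ▸ Cj.refl _ _⟩
    haveI := Fact.mk (by norm_num : Nat.Prime 5)
    obtain ⟨c, e⟩ := exists_conj_zp (S := zpowers f) (by norm_num) (k.not_25 hc)
      (by rw [Nat.card_zpowers, hf]) (orderOf_eq_prime hg e1)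
    have h4 : c * g * c⁻¹ ∈ zpowers f := e ▸ smul_mem_pointwise_smul _ _ _ (mem_zpowers g)
    obtain ⟨i, hi, e2⟩ := exists_pow_of_mem h4
    obtain ⟨ε, he⟩ := k.exists_eI
    rw [hf] at hi
    obtain ⟨r, hr⟩ := (by decide +kernel : ∀ i < 5, i ≠ 0 → ∃ r : Perm (Fin 5),
      r * J4C.c5 * r⁻¹ = J4C.c5 ^ i) i hi (by rintro rfl; exact e1 (by simpa using e2))
    have h6 : ε.symm r * ⟨f, hc.1⟩ * (ε.symm r)⁻¹ = ⟨f, hc.1⟩ ^ i := ε.injective (by
      rw [map_mul, map_mul, map_inv, map_pow, ε.apply_symm_apply, he, hc.2, hr])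
    exact ⟨f, by simp, Cj.trans ⟨ε.symm r, trivial, congrArg Subtype.val h6⟩
      ⟨c⁻¹, trivial, by rw [Subgroup.coe_pow, ← e2]; group⟩⟩
  · have hUJ : pU v ≤ kerG φ ⊓ centralizer {f} := (k.J_inf hc).ge.trans inf_le_left
    obtain ⟨π, e3⟩ := exists_e3 (J := kerG φ ⊓ centralizer {f}) (U := pU v)
      (ε := fun a => v (sm (cd a))) (fun a b => by
        rw [(by decide +kernel : ∀ a b, cd (a + b) = cd a ^^^ cd b), k.toCoc.w_xor])
      (fun a b e => (by decide +kernel : ∀ a b, cd a = cd b → a = b) a b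
        ((k.toCoc.w_inj (uS_ev _ (hcd a)) (uS_ev _ (hcd b))).1 e))
      (fun g => k.mem_U.trans ⟨fun ⟨s, hs, e⟩ => ((by decide +kernel : ∀ s ∈ uS, ∃ a, cd a = s)
        s hs).imp fun a e1 => by rw [e1, e], fun ⟨a, e⟩ => ⟨_, hcd a, e⟩⟩)
      hUJ (inf_le_left.trans kerG_le) (k.J_inf hc).le (k.exists_J hc)
    have hQ := k.set.pre.toSympPair
    obtain ⟨L, e4, hL⟩ := e3.ncl (R := Q ⊓ centralizer {f}) (fun r hr => ⟨Pw.two_K hc (k.Q_NU hr.1)
      hr.2 (by
        rw [show r ^ 4 = r * r * (r * r) by simp only [pow_succ, pow_zero, one_mul, mul_assoc]]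
        rcases hQ.mem_iff.1 (hQ.sq_mem r hr.1) with e | e <;> rw [e]
        exacts [one_mul _, hQ.mul_self]), hr.2⟩)
      (fun a => ⟨k.U_le_Q (k.w_U (hcd a)), (hUJ (k.w_U (hcd a))).2⟩) (k.cent_z_f hc).2
      (fun r hr s hs => by
        rw [show cd ![1, 0, 0] = 2880 by decide +kernel, k.w_z]
        exact hQ.comm_or hr.1 hs.1) (N := 27 * 2 ^ 21) (by norm_num) (by norm_num)
    exact ⟨L, e4, hL.dp (k.J_inf_f hc) ((k.cent_f hc).symm.trans (Pw.X_eq hc))
      (by rw [hf]; norm_num)⟩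

end Cfsg.Lib.SporChar.J4B.Sp
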