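import Cfsg.Agent.SporChar.J4DA
import Cfsg.Agent.SporChar.J4DK

/-! Groups of type `J₄`: the classes in the 7-sections. -/

set_option autoImplicit false
set_option maxRecDepth 100000
set_option linter.style.haveILetI false

namespace Cfsg.Lib.SporChar.J4D

open Subgroup Equiv Cfsg.Lib.SporChar.J4C

variable {G : Type*} [Group G]

theorem dec_sup_zp {X : Subgroup G} {y : G} (h : X ≤ centralizer ({y} : Set G)) {g : G}
    (hg : g ∈ X ⊔ zpowers y) : ∃ a ∈ X, ∃ i : ℤ, g = a * y ^ i := by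
  have h1 := (zp_le_norm h)
  rw [← SetLike.mem_coe, coe_mul_of_right_le_normalizer_left _ _ h1] at hg
  obtain ⟨a, ha, _, ⟨i, rfl⟩, rfl⟩ := hg
  exact ⟨a, ha, i, rfl⟩

/-- Classes of elements of order prime to `y` in `C(y) = X × ⟨y⟩`. -/
theorem Reps.dp {X : Subgroup G} {y : G} (h1 : X ⊓ zpowers y = ⊥)
    (h2 : centralizer ({y} : Set G) = X ⊔ zpowers y) {N : ℕ} (hN : N.Coprime (orderOf y))
    {L : List G} (h : Reps X (· ^ N = 1) L) : Reps (⊤ ⊓ centralizer {y}) (· ^ N = 1) L := by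
  have h3 : X ≤ centralizer ({y} : Set G) := h2 ▸ le_sup_left
  have h4 : ∀ a ∈ X, Commute a y := fun a ha => mem_centralizer_singleton_iff.1 (h3 ha)
  refine h.sup (le_inf le_top h3) (fun g hg e => ?_) fun k hk => ?_
  · obtain ⟨a, ha, i, rfl⟩ := dec_sup_zp h3 (h2 ▸ hg.2)
    rw [((h4 a ha).zpow_right i).mul_pow, mul_eq_one_iff_eq_inv] at e
    have h5 : (y ^ i) ^ N ∈ X ⊓ zpowers y :=
      mem_inf.2 ⟨by rw [← inv_mem_iff, ← e]; exact pow_mem ha N, pow_mem (zpow_mem (mem_zpowers y) i) N⟩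
    rw [h1, mem_bot] at h5
    have h6 : y ^ i = 1 := orderOf_eq_one_iff.1 (Nat.eq_one_of_dvd_coprimes hN
      (orderOf_dvd_of_pow_eq_one h5) (orderOf_dvd_of_mem_zpowers (zpow_mem (mem_zpowers y) i)))
    rwa [h6, mul_one]
  · obtain ⟨a, ha, i, rfl⟩ := dec_sup_zp h3 (h2 ▸ hk.2)
    refine ⟨a, ha, fun g hg => ?_⟩
    rw [mul_assoc a, ← ((h4 g hg).zpow_right i).eq]; group

/-- All classes of a subgroup through an isomorphism. -/
theorem Reps.of_equiv {A : Type*} [Group A] {X : Subgroup G} (e : X ≃* A) {N : ℕ} {L : List A}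
    (h : Reps ⊤ (· ^ N = 1) L) :
    Reps X (· ^ N = 1) (L.map (X.subtype.comp e.symm.toMonoidHom)) := by
  have h0 : Function.Injective (X.subtype.comp e.symm.toMonoidHom) :=
    X.subtype_injective.comp e.symm.injective
  have h1 := h.map (P := (· ^ N = 1)) h0 fun a => by rw [← map_pow, map_eq_one_iff _ h0]
  rwa [← MonoidHom.range_eq_map, MonoidHom.range_comp, MonoidHom.range_eq_top.2 e.symm.surjective,
    ← MonoidHom.range_eq_map, range_subtype] at h1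

/-- Representatives of the classes of `S₅`. -/
def s5L : List (Perm (Fin 5)) :=
  [1, swap 0 1, swap 0 1 * swap 2 3, swap 0 1 * swap 1 2, swap 0 1 * swap 1 2 * swap 2 3,
    swap 0 1 * swap 1 2 * swap 3 4, swap 0 1 * swap 1 2 * swap 2 3 * swap 3 4]

theorem reps_S5 {N : ℕ} (hN : 60 ∣ N) : Reps (⊤ : Subgroup (Perm (Fin 5))) (· ^ N = 1) s5L := by
  have h1 : ∀ g ∈ s5L, g ^ 60 = 1 := by decide +kernel
  have h2 : ∀ g : Perm (Fin 5), ∃ a ∈ s5L, a.cycleType = g.cycleType := by decide +kernel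
  have h3 : s5L.Pairwise fun a b => a.cycleType ≠ b.cycleType := by decide +kernel
  refine ⟨fun a ha => ⟨trivial, ?_⟩, h3.imp fun k e => k (Perm.isConj_iff_cycleType_eq.1 e.isConj),
    fun g _ _ => (h2 g).imp fun a k => ⟨k.1, cj_top.2 (Perm.isConj_iff_cycleType_eq.2 k.2)⟩⟩
  obtain ⟨m, rfl⟩ := hN
  rw [pow_mul, h1 a ha, one_pow]

end Cfsg.Lib.SporChar.J4D

namespace Cfsg.Lib.SporChar.J4B.Sp

open Subgroup Equiv Cfsg.Lib.Spor Cfsg.Lib.Spor.MP Cfsg.Lib.SporChar.J4 J4B J4C J4D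
open scoped Pointwise

variable {G : Type*} [Group G] [Finite G] {z x : G} {Q : Subgroup G} {p ρ : G → Perm GolayPt}
  {v : Finset GolayPt → G} {κ : M24 →* G} (h : Sp z x Q p v ρ κ)
include h

theorem sec7 : ∃ y : G, Reps ⊤ (fun g => g ^ 7 = 1) [1, y, y⁻¹] ∧
    NCl (⊤ ⊓ centralizer {y}) (fun g => g ^ (5 * (27 * 2 ^ 21)) = 1) 7 ∧
    NCl (⊤ ⊓ centralizer {y⁻¹}) (fun g => g ^ (5 * (27 * 2 ^ 21)) = 1) 7 := by
  obtain ⟨φ, k⟩ := h.fw.exists_pw
  have hy := k.orderOf_y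
  have h7 : y0 κ ^ 7 = 1 := hy ▸ pow_orderOf_eq_one _
  have h1 : y0 κ ≠ 1 := fun e => by rw [e, orderOf_one] at hy; omega
  obtain ⟨e, -⟩ := k.exists_eI
  have h2 := (((reps_S5 (N := 5 * (27 * 2 ^ 21)) (by norm_num)).of_equiv e).dp k.I_inf_y k.cent_y (by rw [hy]; norm_num)).ncl
  refine ⟨y0 κ, ⟨?_, ?_, fun g _ hg => ?_⟩, h2, ?_⟩
  · simp [h7]
  · have k1 : ∀ a : G, a ≠ 1 → ¬ Cj ⊤ 1 a := fun a ha ⟨c, _, e⟩ => ha (by rw [← e]; group)
    simp only [List.pairwise_cons, List.mem_cons, List.not_mem_nil, or_false, forall_eq_or_imp,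
      forall_eq, false_imp_iff, implies_true, List.Pairwise.nil, and_true]
    exact ⟨⟨k1 _ h1, k1 _ (inv_ne_one.2 h1)⟩, fun ⟨c, _, e⟩ => k.not_inv_y c e⟩
  · by_cases e1 : g = 1
    · exact ⟨1, by simp, e1 ▸ Cj.refl _ _⟩
    haveI := Fact.mk (by norm_num : Nat.Prime 7)
    have h3 := orderOf_eq_prime hg e1
    obtain ⟨c, hc⟩ := exists_conj_zp (S := zpowers (y0 κ)) (by norm_num) k.not_49
      (by rw [Nat.card_zpowers, hy]) h3
    have h4 : c * g * c⁻¹ ∈ zpowers (y0 κ) := hc ▸ smul_mem_pointwise_smul _ _ _ (mem_zpowers g)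
    obtain ⟨i, hi, e2⟩ := exists_pow_of_mem h4
    have h5 : Cj ⊤ (y0 κ ^ i) g := ⟨c⁻¹, trivial, by rw [← e2]; group⟩
    have h6 : ∀ j ∈ ({1, 2, 4} : Finset ℕ), Cj ⊤ (y0 κ) (y0 κ ^ j) := fun j hj =>
      (k.exists_exp_y hj).imp fun _ e => ⟨trivial, e.2⟩
    have h8 : ∀ j ∈ ({1, 2, 4} : Finset ℕ), Cj ⊤ (y0 κ)⁻¹ (y0 κ ^ (7 - j)) := fun j hj => by
      obtain ⟨d, -, e3⟩ := h6 j hj
      refine ⟨d, trivial, ?_⟩
      rw [← conj_inv, e3, inv_eq_iff_mul_eq_one, ← pow_add, Nat.add_sub_cancel' (by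
        simp only [Finset.mem_insert, Finset.mem_singleton] at hj; omega), h7]
    rw [hy] at hi
    interval_cases i
    · exact absurd (by rw [pow_zero] at e2; simpa using e2) e1
    · exact ⟨_, by simp, (h6 1 (by simp)).trans h5⟩
    · exact ⟨_, by simp, (h6 2 (by simp)).trans h5⟩
    · exact ⟨_, by simp, (h8 4 (by simp)).trans h5⟩
    · exact ⟨_, by simp, (h6 4 (by simp)).trans h5⟩
    · exact ⟨_, by simp, (h8 2 (by simp)).trans h5⟩
    · exact ⟨_, by simp, (h8 1 (by simp)).trans h5⟩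
  · rwa [← cent_eq_of_mem (inv_mem (mem_zpowers _)) (by rw [zpowers_inv]; exact mem_zpowers _)]

end Cfsg.Lib.SporChar.J4B.Sp
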