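import Cfsg.Agent.SporChar.J4DD
import Cfsg.Agent.SporChar.J4DE
import Cfsg.Agent.SporChar.J4DS3
import Cfsg.Agent.SporChar.J4DS5
import Cfsg.Agent.SporChar.J4DS7

/-! Groups of type `J₄`: the 11-sections, the large primes, and the number of classes. -/

set_option autoImplicit false
set_option maxRecDepth 100000
set_option linter.style.haveILetI false

namespace Cfsg.Lib.SporChar.J4D

open Subgroup Equiv Cfsg.Lib.Spor Cfsg.Lib.Spor.MP Cfsg.Lib.SporChar.J4 Cfsg.Lib.Solv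
  Cfsg.Lib.Solv.Count J4B J4C MulAction Cfsg.Lib.Local
open scoped Pointwise

variable {G : Type*} [Group G]

theorem not_cj_one {K : Subgroup G} {a : G} (ha : a ≠ 1) : ¬ Cj K 1 a :=
  fun ⟨c, _, e⟩ => ha (by rw [← e]; group)

theorem ncl_one {K : Subgroup G} {N : ℕ} (h : ∀ g ∈ K, g ^ N = 1 → g = 1) : NCl K (· ^ N = 1) 1 :=
  (reps_single (P := (· ^ N = 1)) (one_mem K) (one_pow N) fun g hg e => h g hg e ▸ Cj.refl K 1).ncl

theorem NCl.top {K : Subgroup G} {P : G → Prop} {m : ℕ} (h : NCl K P m) :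
    NCl (K ⊓ centralizer {1}) P m := by rwa [inf_cent_one]

theorem pow_gcd_card {K : Subgroup G} {g : G} (hg : g ∈ K) {N : ℕ} (e : g ^ N = 1) :
    g ^ Nat.gcd N (Nat.card K) = 1 :=
  orderOf_dvd_iff_pow_eq_one.1 (Nat.dvd_gcd (orderOf_dvd_of_pow_eq_one e) (orderOf_dvd_card' hg))

variable [Finite G]

/-- Sylow's theorem inside a subgroup, by orders. -/
theorem exists_conj_mem {K R : Subgroup G} {q n m : ℕ} (hq : q.Prime) (h1 : R ≤ K)
    (h2 : Nat.card R = q ^ n) (h3 : Nat.card K = q ^ n * m) (h4 : ¬ q ∣ m) {y : G} (hy : y ∈ K)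
    {j : ℕ} (e : y ^ q ^ j = 1) : ∃ k ∈ K, k * y * k⁻¹ ∈ R := by
  haveI := Fact.mk hq
  have h5 : Nat.card (R.subgroupOf K) = q ^ n := by
    rw [← h2]; exact Nat.card_congr (subgroupOfEquivOfLe h1).toEquiv
  have h6 : ¬ q ∣ (R.subgroupOf K).index := by
    rw [← (R.subgroupOf K).card_mul_index, h5, Nat.mul_right_inj (pow_pos hq.pos n).ne'] at h3
    rwa [h3]
  obtain ⟨i, -, h7⟩ := (Nat.dvd_prime_pow hq).1 (orderOf_dvd_of_pow_eq_one e)
  obtain ⟨k, hk, h8⟩ := exists_conj_le_sylow' ((IsPGroup.of_card h5).toSylow h6) (zpowers_le.2 hy)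
    (IsPGroup.of_card (n := i) (by rw [Nat.card_zpowers, h7]))
  obtain ⟨c, hc, e1⟩ := h8 y (mem_zpowers y)
  exact ⟨k, hk, e1 ▸ hc⟩

theorem ncl_three {K : Subgroup G} {x : G} (hx : x ∈ K) (h3 : orderOf x = 3)
    (h9 : ¬ 9 ∣ Nat.card K) (hn : ¬ Cj K x x⁻¹) : NCl K (· ^ 3 = 1) 3 := by
  have h0 : x ^ 3 = 1 := h3 ▸ pow_orderOf_eq_one x
  have h1 : x ≠ 1 := fun e => by rw [e, orderOf_one] at h3; omega
  refine ⟨[1, x, x⁻¹], rfl, by simp [hx, h0, one_mem], ?_, fun g hg e => ?_⟩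
  · simp only [List.pairwise_cons, List.mem_cons, List.not_mem_nil, or_false, forall_eq_or_imp,
      forall_eq, false_imp_iff, implies_true, List.Pairwise.nil, and_true]
    exact ⟨⟨not_cj_one h1, not_cj_one (inv_ne_one.2 h1)⟩, hn⟩
  by_cases e1 : g = 1
  · exact ⟨1, by simp, e1 ▸ Cj.refl _ _⟩
  haveI := Fact.mk Nat.prime_three
  obtain ⟨c, hc, e2⟩ := exists_conj_cent Nat.prime_three h9 hg hx (orderOf_eq_prime e e1) h3
  have h4 : c * g * c⁻¹ ∈ zpowers x := e2 ▸ smul_mem_pointwise_smul _ _ _ (mem_zpowers g)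
  obtain ⟨i, hi, e3⟩ := exists_pow_of_mem h4
  have h5 : Cj K (x ^ i) g := ⟨c⁻¹, inv_mem hc, by rw [← e3]; group⟩
  rw [h3] at hi
  interval_cases i
  · exact absurd (by rw [pow_zero] at e3; simpa using e3) e1
  · exact ⟨x, by simp, by rwa [pow_one] at h5⟩
  · exact ⟨x⁻¹, by simp, by rwa [eq_inv_of_mul_eq_one_left ((pow_succ x 2).symm.trans h0)] at h5⟩

/-- The section of a self-centralizing Sylow subgroup of prime order. -/
theorem NCl.step {r m t b c : ℕ} (hr : r.Prime) {a : G} (ha : orderOf a = r)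
    (h2 : ¬ r ^ 2 ∣ Nat.card G) (hc : ∀ a : G, orderOf a = r → centralizer {a} = zpowers a)
    (hn : Nat.card (normalizer (zpowers a : Set G)) = r * m) (ht : r - 1 = t * m) (hb : r.Coprime b)
    (h : NCl (⊤ : Subgroup G) (· ^ b = 1) c) : NCl (⊤ : Subgroup G) (· ^ (r * b) = 1) (c + t) := by
  haveI := Fact.mk hr
  obtain ⟨L, hL⟩ := exists_reps (normalizer (zpowers a : Set G))
    fun g => g ∈ zpowers a ∧ g ∉ (⊥ : Subgroup G)
  have k0 : ∀ y ∈ zpowers a, y ^ r = 1 := fun y hy =>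
    orderOf_dvd_iff_pow_eq_one.1 (ha ▸ orderOf_dvd_of_mem_zpowers hy)
  have k1 : ∀ y ∈ L, orderOf y = r := fun y hy =>
    orderOf_eq_prime (k0 y (hL.mem y hy).2.1) (hL.mem y hy).2.2
  have k2 : ∀ y ∈ L, zpowers y = zpowers a := fun y hy => eq_of_le_of_card_ge
    (zpowers_le.2 (hL.mem y hy).2.1) (by rw [Nat.card_zpowers, Nat.card_zpowers, ha, k1 y hy])
  have k3 := hL.cnt_mul (c := r) (fun y y' hy ⟨k, hk, e⟩ => ⟨e ▸ conj_mem_of_mem_normalizer hk hy.1,
    fun e1 => hy.2 (by rw [← e] at e1; simpa using e1)⟩) fun y hy => by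
      rw [hc y (k1 y hy), k2 y hy, inf_eq_right.2 le_normalizer, Nat.card_zpowers, ha]
  have k4 := cnt_compl (bot_le : ⊥ ≤ zpowers a)
  rw [Subgroup.card_bot, Nat.card_zpowers, ha] at k4
  rw [cnt_congr (Q := fun u => u ∈ zpowers a ∧ u ∉ (⊥ : Subgroup G))
    (fun g => ⟨fun k => k.2, fun k => ⟨le_normalizer k.1, k⟩⟩), hn, Nat.eq_sub_of_add_eq k4, ht] at k3
  have k5 : L.length = t := by
    have := hr.two_le
    have k6 : 0 < m := Nat.pos_of_ne_zero fun e => by rw [e] at ht; omega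
    exact (Nat.eq_of_mul_eq_mul_right (Nat.mul_pos hr.pos k6) (by rw [← k3]; ring)).symm
  have k6 : Reps (⊤ : Subgroup G) (· ^ r = 1) (1 :: L) := by
    refine ⟨List.forall_mem_cons.2 ⟨by simp, fun y hy => ⟨trivial, k0 y (hL.mem y hy).2.1⟩⟩,
      List.pairwise_cons.2 ⟨fun y hy => not_cj_one (hL.mem y hy).2.2, hL.pair.imp_of_mem
        fun {y y'} hy hy' e ⟨k, _, e1⟩ => e ⟨k, k2 y hy ▸ mem_norm_zp
          (by rw [e1, k2 y hy]; exact (hL.mem y' hy').2.1), e1⟩⟩, fun g _ e => ?_⟩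
    by_cases e1 : g = 1
    · exact ⟨1, by simp, e1 ▸ Cj.refl _ _⟩
    obtain ⟨k, e2⟩ := exists_conj_zp (S := zpowers a) hr h2 (by rw [Nat.card_zpowers, ha])
      (orderOf_eq_prime e e1)
    have h4 : k * g * k⁻¹ ∈ zpowers a := e2 ▸ smul_mem_pointwise_smul _ _ _ (mem_zpowers g)
    obtain ⟨y, hy, e3⟩ := hL.all _ (le_normalizer h4) ⟨h4, fun e4 => e1 (by simpa using e4)⟩
    exact ⟨y, List.mem_cons_of_mem _ hy, (e3.mono le_top).trans ⟨k⁻¹, trivial, by group⟩⟩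
  have k7 := NCl.mul hb (ms := c :: L.map fun _ => 1) k6 (.cons h.top
    (List.forall₂_map_right_iff.2 (List.forall₂_same.2 fun y hy => ncl_one fun g hg e => by
      have := pow_gcd_card hg e
      rwa [top_inf_eq, hc y (k1 y hy), Nat.card_zpowers, k1 y hy, hb.symm, pow_one] at this)))
  simpa [k5] using k7

namespace El

variable {z x g w : G} {Q U : Subgroup G} {p ρ : G → Perm GolayPt}
  {v : Finset GolayPt → G} {κ : M24 →* G} (h : El z x g w Q U p v ρ κ)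
include h

theorem sec_w : NCl (⊤ ⊓ centralizer {w}) (· ^ (7 * (5 * (27 * 2 ^ 21))) = 1) 2 := by
  rw [top_inf_eq]
  obtain ⟨t, ht, e⟩ := exists_order (K := centralizer {w}) Nat.prime_two (by rw [h.cw]; norm_num)
  have h1 : t ≠ 1 := fun e1 => by rw [e1, orderOf_one] at e; omega
  refine ⟨[1, t], rfl, ?_, by simpa using not_cj_one h1, fun y hy e1 => ?_⟩
  · simp only [List.forall_mem_cons, one_pow, one_mem, ht, and_self, true_and, List.not_mem_nil,
      false_imp_iff, implies_true, and_true]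
    exact orderOf_dvd_iff_pow_eq_one.1 (by rw [e]; norm_num)
  by_cases e2 : y = 1
  · exact ⟨1, by simp, e2 ▸ Cj.refl _ _⟩
  have h2 := pow_gcd_card hy e1
  rw [h.cw, show Nat.gcd (7 * (5 * (27 * 2 ^ 21))) 242 = 2 by norm_num] at h2
  obtain ⟨c, hc, e3⟩ := exists_conj_cent Nat.prime_two (by rw [h.cw]; norm_num) hy ht
    (orderOf_eq_prime h2 e2) e
  have h4 : c * y * c⁻¹ ∈ zpowers t := e3 ▸ smul_mem_pointwise_smul _ _ _ (mem_zpowers y)
  exact ⟨t, by simp, c⁻¹, inv_mem hc, by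
    rw [← eq_of_two e h4 fun e4 => e2 (by simpa using e4)]; group⟩

theorem not_cj_x : ¬ Cj (centralizer {g}) x x⁻¹ := by
  rintro ⟨k, hk, e⟩
  have hR := h.toDt.toSp.card_R h.gx h.g11
  have h1 : Q ⊓ centralizer ({g} : Set G) ≤ normalizer (U : Set G) := inf_le_right.trans h.normU
  have h2 : Nat.card ↥(U ⊔ Q ⊓ centralizer ({g} : Set G)) = 11 ^ 3 * 8 := by
    rw [card_sup_of_disjoint_of_le_normalizer h1 (inf_eq_bot_of_coprime_card
      (by rw [h.cardU, hR]; norm_num)), h.cardU, hR]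
  have h3 : x ∈ normalizer ((U ⊔ Q ⊓ centralizer ({g} : Set G) : Subgroup G) : Set G) :=
    zpowers_le.1 (le_normalizer_sup (zpowers_le.2 (h.normU (cent_symm h.gx))) (le_normalizer_inf
      (zpowers_le.2 (h.pre.norm h.xH)) ((zpowers_le.2 (cent_symm h.gx)).trans le_normalizer)))
  have h4 : U ⊔ Q ⊓ centralizer ({g} : Set G) ⊔ zpowers x = centralizer {g} :=
    eq_of_le_of_card_ge (sup_le (sup_le h.U_le inf_le_right) (zpowers_le.2 (cent_symm h.gx))) (by
      rw [card_sup_of_disjoint_of_le_normalizer (zpowers_le.2 h3) (inf_eq_bot_of_coprime_card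
        (by rw [h2, Nat.card_zpowers, h.x3]; norm_num)), h2, Nat.card_zpowers, h.x3, h.cg]
      norm_num)
  obtain ⟨m, hm, _, ⟨i, rfl⟩, rfl⟩ := (mem_sup_of_le_normalizer (zpowers_le.2 h3)).1 (h4 ▸ hk)
  have h5 : (x ^ 2)⁻¹ = m * (x * m⁻¹ * x⁻¹) := by
    rw [pow_two, mul_inv_rev]
    nth_rewrite 1 [← e]
    group
  have h6 := orderOf_dvd_card' (h5 ▸ mul_mem hm (conj_mem_of_mem_normalizer h3 (inv_mem hm)))
  rw [h2, orderOf_inv, Nat.Coprime.orderOf_pow (by rw [h.x3]; norm_num), h.x3] at h6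
  norm_num at h6

theorem not_three {i : G} (hi : i ∈ Q ⊓ centralizer ({g} : Set G)) (h1 : i ∉ zpowers z) {c : G}
    (hc : c ∈ centralizer ({g} : Set G) ⊓ centralizer {i}) : orderOf c ≠ 3 := fun e => by
  have S := h.toDt.toSp
  have h2 : i ≠ 1 := fun e1 => h1 (e1 ▸ one_mem _)
  have h3 : c ∈ centralizer ({z} : Set G) :=
    cent_symm (zpowers_le.2 (cent_symm hc.2) (S.z_mem_zp h.gx h.g11 hi h2))
  have h4 := (S.p_eq_one c h3).1 (S.p_eq_one_of h.gx h.g11 ⟨h3, hc.1⟩ (n := 3) (by norm_num)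
    (e ▸ pow_orderOf_eq_one c))
  refine S.not_cent_R h.gx h.g11 ⟨hc.1, h4⟩ e ?_
  have h5 := card_modEq Nat.prime_three e (zpowers_le.1 (le_normalizer_inf
    (zpowers_le.2 (S.pre.norm h3)) ((zpowers_le.2 hc.1).trans le_normalizer)))
  have h6 : zpowers z < Q ⊓ centralizer ({g} : Set G) ⊓ centralizer {c} :=
    lt_of_le_of_ne (zpowers_le.2 ⟨zpowers_le.2 hi (S.z_mem_zp h.gx h.g11 hi h2), cent_symm h3⟩)
      fun e1 => h1 (e1 ▸ ⟨hi, cent_symm hc.2⟩)
  have h7 := card_lt_of_lt h6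
  have h8 := card_dvd_of_le
    (inf_le_left : Q ⊓ centralizer ({g} : Set G) ⊓ centralizer ({c} : Set G) ≤ _)
  rw [Nat.card_zpowers, S.pre.ord] at h7
  rw [S.card_R h.gx h.g11] at h5 h8
  have h9 := Nat.le_of_dvd (by norm_num) h8
  refine inf_eq_left.1 (eq_of_le_of_card_ge inf_le_left ?_)
  rw [S.card_R h.gx h.g11]
  generalize Nat.card ↥(Q ⊓ centralizer ({g} : Set G) ⊓ centralizer ({c} : Set G)) = n at *
  interval_cases n <;> omega

theorem card_four {i : G} (hi : i ∈ Q ⊓ centralizer ({g} : Set G)) (h1 : i ∉ zpowers z) :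
    Nat.card ↥(centralizer ({g} : Set G) ⊓ (Q ⊔ zpowers x) ⊓ centralizer ({i} : Set G)) = 4 := by
  have S := h.toDt.toSp
  have h2 := card_dvd_of_le
    (inf_le_left : centralizer ({g} : Set G) ⊓ (Q ⊔ zpowers x) ⊓ centralizer ({i} : Set G) ≤ _)
  rw [S.card_N3g h.gx h.g11] at h2
  have h3 : ¬ 3 ∣ Nat.card ↥(centralizer ({g} : Set G) ⊓ (Q ⊔ zpowers x) ⊓
      centralizer ({i} : Set G)) := fun e => by
    obtain ⟨c, hc, e1⟩ := exists_order Nat.prime_three e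
    exact h.not_three hi h1 ⟨hc.1.1, hc.2⟩ e1
  have h4 : i * i ≠ 1 := fun e => h1 (S.uniq h.gx h.g11 hi.2 (S.QH hi.1) e)
  have h5 : orderOf i = 4 := orderOf_eq_prime_pow (p := 2) (n := 1) (by rwa [pow_one, pow_two])
    (h.pow_four hi.1)
  have h6 : 4 ∣ Nat.card ↥(centralizer ({g} : Set G) ⊓ (Q ⊔ zpowers x) ⊓
      centralizer ({i} : Set G)) :=
    h5 ▸ orderOf_dvd_card' (mem_inf.2 ⟨⟨hi.2, mem_sup_left hi.1⟩, mem_cent.2 (by group)⟩)
  have h7 : Nat.card ↥(centralizer ({g} : Set G) ⊓ (Q ⊔ zpowers x) ⊓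
      centralizer ({i} : Set G)) ≠ 8 := fun e => by
    have h8 : centralizer ({g} : Set G) ⊓ (Q ⊔ zpowers x) ⊓ centralizer ({i} : Set G) =
        Q ⊓ centralizer ({g} : Set G) := eq_of_le_of_card_ge (fun c hc => ⟨S.mem_R h.gx h.g11
          ⟨sup_le S.QH (zpowers_le.2 S.xH) hc.1.2, hc.1.1⟩ (n := 3) (orderOf_dvd_iff_pow_eq_one.1
            ((orderOf_dvd_card' hc).trans (by rw [e]; norm_num))), hc.1.1⟩)
          (by rw [e, S.card_R h.gx h.g11])
    obtain ⟨φ⟩ := h.equiv_R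
    have h9 : ∀ a : QuaternionGroup 2, (∀ b, b * a = a * b) → a * a = 1 := by decide
    refine h4 (congrArg Subtype.val (φ.injective (a₁ := ⟨i, hi⟩ * ⟨i, hi⟩) (a₂ := 1) ?_))
    rw [map_mul, map_one]
    refine h9 _ fun b => ?_
    obtain ⟨b, rfl⟩ := φ.surjective b
    rw [← map_mul, ← map_mul]
    exact congrArg φ (Subtype.ext (mem_centralizer_singleton_iff.1 (h8.ge b.2).2))
  have h8 := Nat.le_of_dvd (by norm_num) h2
  generalize Nat.card ↥(centralizer ({g} : Set G) ⊓ (Q ⊔ zpowers x) ⊓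
    centralizer ({i} : Set G)) = n at *
  interval_cases n <;> omega

theorem exists_i : ∃ i ∈ Q ⊓ centralizer ({g} : Set G), i ∉ zpowers z ∧
    Reps (centralizer {g}) (· ^ 8 = 1) [1, z, i] := by
  have S := h.toDt.toSp
  have hR := S.card_R h.gx h.g11
  have h0 : z ∈ Q ⊓ centralizer ({g} : Set G) := ⟨S.pre.mem, cent_symm (S.cent_x h.gx)⟩
  have h1 : centralizer ({g} : Set G) ⊓ (Q ⊔ zpowers x) ≤ centralizer {z} :=
    inf_le_right.trans (sup_le S.QH (zpowers_le.2 S.xH))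
  have h2 : Q ⊓ centralizer ({g} : Set G) ≤ centralizer ({g} : Set G) ⊓ (Q ⊔ zpowers x) :=
    le_inf inf_le_right (inf_le_left.trans le_sup_left)
  obtain ⟨L, hL⟩ := exists_reps (centralizer ({g} : Set G) ⊓ (Q ⊔ zpowers x))
    fun y => y ∈ Q ⊓ centralizer ({g} : Set G) ∧ y ∉ zpowers z
  have k3 := hL.cnt_mul (c := 4) (fun y y' hy ⟨k, hk, e⟩ => ⟨e ▸ conj_mem_of_mem_normalizer
    (le_normalizer_inf (h1.trans S.pre.norm) (inf_le_left.trans le_normalizer) hk) hy.1,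
    fun e1 => hy.2 (by
      have := inv_conj_mem_of_mem_normalizer (mem_norm_zp (g := k) (y := z) (by
        rw [mem_cent.1 (h1 hk)]; exact mem_zpowers z)) e1
      rw [← e] at this
      simpa [mul_assoc] using this)⟩) fun y hy => h.card_four (hL.mem y hy).2.1 (hL.mem y hy).2.2
  have k4 := cnt_compl (zpowers_le.2 h0)
  rw [hR, Nat.card_zpowers, S.pre.ord] at k4
  rw [cnt_congr (Q := fun u => u ∈ Q ⊓ centralizer ({g} : Set G) ∧ u ∉ zpowers z)
    (fun g => ⟨fun k => k.2, fun k => ⟨h2 k.1, k⟩⟩), S.card_N3g h.gx h.g11,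
    Nat.eq_sub_of_add_eq k4] at k3
  obtain ⟨i, rfl⟩ := List.length_eq_one_iff.1 (show L.length = 1 by omega)
  obtain ⟨-, k5, k6⟩ := hL.mem i (by simp)
  have k7 : z ^ 2 = 1 := S.pre.ord ▸ pow_orderOf_eq_one z
  have k8 : ∀ y ∈ Q, y ^ 8 = 1 := fun y hy => by
    rw [show 8 = 4 * 2 from rfl, pow_mul, h.pow_four hy, one_pow]
  refine ⟨i, k5, k6, ?_, ?_, fun y hy e => ?_⟩
  · simp only [List.forall_mem_cons, List.not_mem_nil, false_imp_iff, implies_true, and_true]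
    exact ⟨⟨one_mem _, one_pow _⟩, ⟨h0.2, k8 z h0.1⟩, k5.2, k8 i k5.1⟩
  · simp only [List.pairwise_cons, List.mem_cons, List.not_mem_nil, or_false, forall_eq_or_imp,
      forall_eq, false_imp_iff, implies_true, List.Pairwise.nil, and_true]
    exact ⟨⟨not_cj_one fun e => by have := S.pre.ord; rw [e, orderOf_one] at this; omega,
      not_cj_one fun e => k6 (e ▸ one_mem _)⟩, fun e => k6 (S.uniq h.gx h.g11 k5.2 (S.QH k5.1)
        (by rw [← pow_two]; exact e.pow_eq_one k7))⟩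
  obtain ⟨k, hk, e1⟩ := exists_conj_mem (n := 3) (m := 3993) Nat.prime_two inf_le_right hR
    (by rw [h.cg]; norm_num) (by norm_num) hy (j := 3) e
  have k9 : Cj (centralizer {g}) (k * y * k⁻¹) y := ⟨k⁻¹, inv_mem hk, by group⟩
  by_cases e2 : k * y * k⁻¹ ∈ zpowers z
  · by_cases e3 : k * y * k⁻¹ = 1
    · exact ⟨1, by simp, e3 ▸ k9⟩
    · exact ⟨z, by simp, eq_of_two S.pre.ord e2 e3 ▸ k9⟩
  obtain ⟨a, ha, e3⟩ := hL.all _ (h2 e1) ⟨e1, e2⟩
  exact ⟨i, by simp, (List.mem_singleton.1 ha ▸ e3.mono inf_le_left).trans k9⟩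

theorem sec_g : NCl (⊤ ⊓ centralizer {g}) (· ^ (7 * (5 * (27 * 2 ^ 21))) = 1) 7 := by
  have S := h.toDt.toSp
  rw [top_inf_eq]
  obtain ⟨i, h1, h2, h3⟩ := h.exists_i
  have h4 := S.not_nine h.g11
  haveI := Fact.mk Nat.prime_three
  have h5 := NCl.mul (b := 3) (by norm_num) (ms := [3, 3, 1]) h3 (.cons
    (ncl_three (cent_symm h.gx) S.x3 h4 h.not_cj_x).top (.cons
    (ncl_three (mem_inf.2 ⟨cent_symm h.gx, S.xH⟩) S.x3
      (fun e => h4 (e.trans (card_dvd_of_le inf_le_left))) fun e => h.not_cj_x (e.mono inf_le_left))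
    (.cons (ncl_one fun c hc e => by_contra fun e1 =>
      h.not_three h1 h2 hc (orderOf_eq_prime e e1)) .nil)))
  refine h5.congr fun y hy => ⟨fun e => ?_, fun e => ?_⟩
  · exact orderOf_dvd_iff_pow_eq_one.1 ((orderOf_dvd_of_pow_eq_one e).trans (by norm_num))
  · have := pow_gcd_card hy e
    rwa [h.cg, show Nat.gcd (7 * (5 * (27 * 2 ^ 21))) 31944 = 8 * 3 by norm_num] at this

theorem reps11 : Reps (⊤ : Subgroup G) (· ^ 11 ^ 3 = 1) [1, g, w] := by
  have h1 : ∀ a : G, orderOf a = 11 → a ^ 11 ^ 3 = 1 := fun a e =>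
    orderOf_dvd_iff_pow_eq_one.1 (by rw [e]; norm_num)
  refine ⟨?_, ?_, fun y _ e => ?_⟩
  · simp only [List.forall_mem_cons, List.not_mem_nil, false_imp_iff, implies_true, and_true]
    exact ⟨⟨trivial, one_pow _⟩, ⟨trivial, h1 g h.g11⟩, trivial, h1 w h.w11⟩
  · simp only [List.pairwise_cons, List.mem_cons, List.not_mem_nil, or_false, forall_eq_or_imp,
      forall_eq, false_imp_iff, implies_true, List.Pairwise.nil, and_true]
    exact ⟨⟨not_cj_one h.g_ne, not_cj_one h.w_ne⟩,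
      fun e => h.not_mem_zp (mem_zpowers g) h.g_ne e.isConj.symm⟩
  obtain ⟨i, -, h7⟩ := (Nat.dvd_prime_pow (by norm_num : Nat.Prime 11)).1
    (orderOf_dvd_of_pow_eq_one e)
  rcases h.classes (IsPGroup.of_card (n := i) (G := zpowers y) (by rw [Nat.card_zpowers, h7]))
    with e1 | e1 | e1
  · exact ⟨1, by simp, e1 ▸ Cj.refl _ _⟩
  · exact ⟨g, by simp, cj_top.2 e1⟩
  · exact ⟨w, by simp, cj_top.2 e1⟩

theorem big_step {r m t b c : ℕ} (hr : r ∈ bigP) (hm : (r, r, m) ∈ opts) (ht : r - 1 = t * m)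
    (hb : r.Coprime b) (k : NCl (⊤ : Subgroup G) (· ^ b = 1) c) :
    NCl (⊤ : Subgroup G) (· ^ (r * b) = 1) (c + t) :=
  have ⟨_, ha⟩ := h.exists_big hr
  k.step (bigP_prime r hr).1 ha (h.card ▸ (bigP_prime r hr).2.2.1) (fun _ => h.big_cent hr)
    (h.big_norm hr hm ha) ht hb

theorem classes62 (h2 : NCl (⊤ : Subgroup G) (fun a => a ^ (2 ^ 21) = 1) 10) :
    Nat.card (ConjClasses G) = 62 := by
  have S := h.toDt.toSp
  obtain ⟨a1, a2⟩ := S.sec3
  obtain ⟨f, b1, b2⟩ := S.sec5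
  obtain ⟨y, c1, c2, c3⟩ := S.sec7
  have k3 := NCl.mul (by norm_num) a1 (.cons h2.top (.cons a2 .nil))
  have k5 := NCl.mul (by norm_num) b1 (.cons k3.top (.cons b2 .nil))
  have k7 := NCl.mul (by norm_num) c1 (.cons k5.top (.cons c2 (.cons c3 .nil)))
  have k11 := NCl.mul (by norm_num) h.reps11
    (.cons k7.top (.cons h.sec_g (.cons h.sec_w .nil)))
  have k23 := h.big_step (r := 23) (m := 22) (t := 1) (by decide) (by decide) rfl (by norm_num) k11
  have k29 := h.big_step (r := 29) (m := 28) (t := 1) (by decide) (by decide) rfl (by norm_num) k23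
  have k31 := h.big_step (r := 31) (m := 10) (t := 3) (by decide) (by decide) rfl (by norm_num) k29
  have k37 := h.big_step (r := 37) (m := 12) (t := 3) (by decide) (by decide) rfl (by norm_num) k31
  have k43 := h.big_step (r := 43) (m := 14) (t := 3) (by decide) (by decide) rfl (by norm_num) k37
  exact k43.card fun a => orderOf_dvd_iff_pow_eq_one.1
    ((orderOf_dvd_natCard a).trans (by rw [h.card]; norm_num))

end El

end Cfsg.Lib.SporChar.J4D
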