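import Cfsg.Agent.SporChar.J4DA
import Cfsg.Agent.Known.SylowCount

/-! Groups of type `J₄`: the centralizer of an element of order eleven that commutes with `x`. -/

set_option autoImplicit false
set_option maxRecDepth 100000

namespace Cfsg.Lib.SporChar

open Subgroup Equiv Cfsg.Lib.Spor Cfsg.Lib.Spor.MP Cfsg.Lib.SporChar.J4 Cfsg.Lib.Solv
  Cfsg.Lib.Solv.Count J4B J4C J4D MulAction Cfsg.Lib.Local
open scoped Pointwise

variable {G : Type*} [Group G] [Finite G] {z x : G} {Q : Subgroup G} {p ρ : G → Perm GolayPt}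
  {v : Finset GolayPt → G} {κ : M24 →* G}

theorem J4D.eq_of_two {z t : G} (hz : orderOf z = 2) (h : t ∈ zpowers z) (h1 : t ≠ 1) : t = z := by
  obtain ⟨i, hi, e⟩ := exists_pow_of_mem h
  rw [hz] at hi
  interval_cases i
  · exact absurd (e.trans (pow_zero _)) h1
  · exact e.trans (pow_one _)

theorem J4D.ncard_diff {O W : Subgroup G} (h : W ≤ O) :
    {y | y ∈ O ∧ y ∉ W}.ncard + Nat.card W = Nat.card O := by
  rw [← cnt_compl h, ← Nat.card_coe_set_eq]; rfl

/-- A prime power dividing the order of a subgroup gives a subgroup with a central element. -/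
theorem J4D.exists_sub {K : Subgroup G} {q n : ℕ} (hq : q.Prime) (h : q ^ (n + 1) ∣ Nat.card K) :
    ∃ S ≤ K, Nat.card S = q ^ (n + 1) ∧ ∃ y ∈ S, orderOf y = q ∧ S ≤ centralizer ({y} : Set G) := by
  have : Fact q.Prime := ⟨hq⟩
  obtain ⟨S, hS⟩ := Sylow.exists_subgroup_card_pow_prime q h
  have h1 : Nontrivial S := Finite.one_lt_card_iff_nontrivial.1 (by
    rw [hS]; exact Nat.one_lt_pow (by omega) hq.one_lt)
  have h2 := (IsPGroup.of_card hS).center_nontrivial
  obtain ⟨k, hk, e⟩ := ((IsPGroup.of_card hS).to_subgroup (center S)).nontrivial_iff_card.1 h2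
  obtain ⟨y, hy, e1⟩ := exists_order (K := center S) hq (e ▸ dvd_pow_self q hk.ne')
  refine ⟨S.map K.subtype, map_subtype_le _, by rw [card_map_subtype, hS], y, ⟨y, y.2, rfl⟩,
    by rw [Subgroup.orderOf_coe, Subgroup.orderOf_coe, e1], ?_⟩
  rintro _ ⟨s, hs, rfl⟩
  exact mem_centralizer_singleton_iff.2
    (congrArg (fun a : S => ((a : K) : G)) (mem_center_iff.1 hy ⟨s, hs⟩))

theorem J4D.card_norm_zp {a : G} {q : ℕ} (hq : q.Prime) (e : orderOf a = q) : ∃ m, m ∣ q - 1 ∧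
    Nat.card (normalizer (zpowers a : Set G)) = Nat.card (centralizer ({a} : Set G)) * m :=
  ⟨_, Known.SC.relIndex_centralizer_dvd_sub_one hq (zpowers a) (by rw [Nat.card_zpowers, e]), by
    rw [Known.SC.card_normalizer_eq_mul, Known.SC.centralizer_zpowers]⟩

theorem J4D.sq_dvd_cent {a : G} {q : ℕ} (hq : q.Prime) (e : orderOf a = q)
    (h : q ^ 2 ∣ Nat.card G) : q ^ 2 ∣ Nat.card (centralizer ({a} : Set G)) := by
  obtain ⟨m, h1, h2⟩ := card_norm_zp hq e
  by_contra h3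
  refine not_sq_dvd (P := zpowers a) hq (by rw [Nat.card_zpowers, e]) (fun h4 => h3 ?_) h
  refine (Nat.Coprime.pow_left 2 (Nat.Coprime.coprime_dvd_right h1 ?_)).dvd_of_dvd_mul_right (h2 ▸ h4)
  exact (Nat.coprime_self_sub_right hq.one_le).2 (Nat.coprime_one_right q)

theorem J4D.sylow_cong {P : Subgroup G} {q k m : ℕ} (hq : q.Prime) (h1 : Nat.card P = q ^ k)
    (h2 : Nat.card G = q ^ k * m) (h3 : ¬ q ∣ m) :
    ∃ n, n % q = 1 ∧ Nat.card (normalizer (P : Set G)) * n = Nat.card G := by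
  have : Fact q.Prime := ⟨hq⟩
  have h4 : ¬ q ∣ P.index := by
    rw [← P.card_mul_index, h1, Nat.mul_right_inj (pow_pos hq.pos k).ne'] at h2
    rwa [h2]
  exact ⟨_, Eq.trans (card_sylow_modEq_one q G) (Nat.mod_eq_of_lt hq.one_lt),
    Known.SC.card_normalizer_mul_card_sylow ((IsPGroup.of_card h1).toSylow h4)⟩

namespace J4B.Sp

variable (h : Sp z x Q p v ρ κ) {g : G} (hg : g ∈ centralizer ({x} : Set G)) (ho : orderOf g = 11)
include h hg ho

theorem ord_p : orderOf (p g) = 11 := by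
  have : Fact (Nat.Prime 11) := ⟨by norm_num⟩
  refine orderOf_eq_prime (by rw [← h.p_pow (h.cent_x hg), ← ho, pow_orderOf_eq_one, h.p_one])
    fun e => ?_
  have h1 := orderOf_dvd_card' ((h.p_eq_one g (h.cent_x hg)).1 e)
  rw [ho, h.fw.card_N3] at h1
  norm_num at h1

theorem card_R : Nat.card ↥(Q ⊓ centralizer ({g} : Set G)) = 8 := by
  have h1 := card_modEq (by norm_num) ho (h.pre.norm (h.cent_x hg))
  obtain ⟨k, hk, e⟩ := (Nat.dvd_prime_pow Nat.prime_two).1
    (h.cardQ ▸ card_dvd_of_le (inf_le_left : Q ⊓ centralizer ({g} : Set G) ≤ Q))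
  rw [h.cardQ, e] at h1
  have h2 : k ≠ 13 := fun e1 => by
    have h3 := eq_of_le_of_card_ge (inf_le_left : Q ⊓ centralizer ({g} : Set G) ≤ Q)
      (by rw [e, e1, h.cardQ])
    have h4 := orderOf_dvd_of_mem_zpowers (h.pre.cent (show g ∈ _ from fun q hq =>
      mem_centralizer_singleton_iff.1 (h3.ge hq).2))
    rw [ho, h.pre.ord] at h4
    norm_num at h4
  rw [e]
  interval_cases k <;> simp_all

theorem p_mem_zp {c : G} (hc : c ∈ centralizer ({z} : Set G) ⊓ centralizer ({g} : Set G)) :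
    p c ∈ zpowers (p g) :=
  card_cent_eleven (D22_le_M24 (h.p_mem g)) (h.ord_p hg ho) ▸ mem_inf.2 ⟨D22_le_M24 (h.p_mem c),
    mem_cent.2 (by rw [← h.p_conj hc.1 (h.cent_x hg), mem_cent.1 hc.2])⟩

omit ho [Finite G] in
theorem N3_inf : centralizer ({g} : Set G) ⊓ (Q ⊔ zpowers x) =
    Q ⊓ centralizer ({g} : Set G) ⊔ zpowers x := by
  have h1 := zpowers_le.2 (cent_symm hg)
  refine le_antisymm (fun n hn => ?_) (sup_le (le_inf inf_le_right (inf_le_left.trans le_sup_left))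
    (le_inf h1 le_sup_right))
  obtain ⟨q, hq, y, hy, rfl⟩ := (mem_sup_of_le_normalizer (zpowers_le.2 (h.pre.norm h.xH))).1 hn.2
  exact mul_mem (mem_sup_left ⟨hq, (mul_mem_cancel_right (h1 hy)).1 hn.1⟩) (mem_sup_right hy)

theorem card_N3g : Nat.card ↥(centralizer ({g} : Set G) ⊓ (Q ⊔ zpowers x)) = 24 := by
  rw [h.N3_inf hg, card_sup_of_disjoint_of_le_normalizer (le_normalizer_inf
    (zpowers_le.2 (h.pre.norm h.xH)) ((zpowers_le.2 (cent_symm hg)).trans le_normalizer)),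
    h.card_R hg ho, Nat.card_zpowers, h.x3]
  exact inf_eq_bot_of_coprime_card (by rw [h.card_R hg ho, Nat.card_zpowers, h.x3]; norm_num)

theorem card_CH : Nat.card ↥(centralizer ({z} : Set G) ⊓ centralizer ({g} : Set G)) = 264 := by
  have h1 : centralizer ({z} : Set G) ⊓ centralizer ({g} : Set G) ⊓ (Q ⊔ zpowers x) =
      centralizer ({g} : Set G) ⊓ (Q ⊔ zpowers x) := by
    rw [inf_assoc, inf_eq_right]
    exact inf_le_right.trans (sup_le h.QH (zpowers_le.2 h.xH))
  rw [h.fw.card_p inf_le_left, h1, h.card_N3g hg ho, show 264 = 24 * 11 by norm_num,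
    ← h.ord_p hg ho, ← Nat.card_zpowers]
  congr 3
  ext σ
  refine ⟨fun ⟨c, hc, e⟩ => e ▸ h.p_mem_zp hg ho ⟨c.2, hc.2⟩, fun hσ => ?_⟩
  obtain ⟨i, -, rfl⟩ := exists_pow_of_mem hσ
  exact ⟨⟨g ^ i, pow_mem (h.cent_x hg) i⟩, ⟨pow_mem (h.cent_x hg) i,
    pow_mem (mem_cent.2 (by group)) i⟩, h.p_pow (h.cent_x hg) i⟩

theorem p_eq_one_of {c : G} (hc : c ∈ centralizer ({z} : Set G) ⊓ centralizer ({g} : Set G))
    {n : ℕ} (hn : n.Coprime 11) (e : c ^ n = 1) : p c = 1 := by
  have k1 : orderOf (p c) ∣ n := orderOf_dvd_of_pow_eq_one (by rw [← h.p_pow hc.1, e, h.p_one])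
  have k2 := orderOf_dvd_of_mem_zpowers (h.p_mem_zp hg ho hc)
  rw [h.ord_p hg ho] at k2
  exact orderOf_eq_one_iff.1 (Nat.eq_one_of_dvd_coprimes hn k1 k2)

theorem mem_R {c : G} (hc : c ∈ centralizer ({z} : Set G) ⊓ centralizer ({g} : Set G))
    {n : ℕ} (e : c ^ 2 ^ n = 1) : c ∈ Q :=
  h.ab.mem_Q_of_two (n := ⟨c, hc.1⟩) (h.p_eq_one_of hg ho hc (Nat.Coprime.pow_left n (by norm_num)) e)
    (Subtype.ext e)

theorem uniq {t : G} (h1 : t ∈ centralizer ({g} : Set G)) (h2 : t ∈ centralizer ({z} : Set G))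
    (e : t * t = 1) : t ∈ zpowers z := by
  by_contra hn
  have key : ∀ y ∈ centralizer ({z} : Set G), ∀ s, y * s * y⁻¹ = t →
      11 ∣ Nat.card ↥(centralizer ({z} : Set G) ⊓ centralizer ({s} : Set G)) := fun y hy s e1 => by
    rw [← ho, ← Local.orderOf_conj' y]
    exact orderOf_dvd_card' (mem_inf.2 ⟨mul_mem (mul_mem (inv_mem hy) (h.cent_x hg)) hy,
      cent_conj_mem (e1 ▸ cent_symm h1)⟩)
  rcases h.trans_Q ⟨h.mem_R hg ho (n := 1) ⟨h2, h1⟩ (by rw [pow_one, pow_two, e]), e, hn⟩ with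
    ⟨-, y, hy, e1⟩ | ⟨-, y, hy, e1⟩
  · have h3 := (key y hy _ e1).trans (card_dvd_of_le (h.cent_t0.2.trans
      fun k hk => mem_inf.2 (h.mem_Y.1 hk).symm))
    rw [h.fw.card_Y] at h3
    norm_num at h3
  · have h3 := key y hy _ e1
    rw [h.fw.card_cent_s h.xi_s0.1.1.1 (fun e => h.xi_s0.1.1.2.2 (e ▸ mem_zpowers _))
      h.xi_s0.2] at h3
    norm_num at h3

/-- Every non-trivial element of `C_Q(g)` has `z` as a power. -/
theorem z_mem_zp {r : G} (hr : r ∈ Q ⊓ centralizer ({g} : Set G)) (h1 : r ≠ 1) : z ∈ zpowers r := by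
  by_cases e : r * r = 1
  · exact eq_of_two h.pre.ord (h.uniq hg ho hr.2 (h.QH hr.1) e) h1 ▸ mem_zpowers r
  · exact eq_of_two h.pre.ord (h.pre.sq_mem r hr.1) e ▸ mul_mem (mem_zpowers r) (mem_zpowers r)

omit hg in
theorem not_nine : ¬ 9 ∣ Nat.card (centralizer ({g} : Set G)) := fun e => by
  obtain ⟨S, h1, h2, y, hy, h3, h4⟩ := exists_sub (q := 3) (n := 1) (by norm_num) e
  obtain ⟨k, rfl⟩ := isConj_iff.1 (h.one_class h3)
  have h5 := card_dvd_of_le (le_inf h4 h1)
  rw [show g = k * (k⁻¹ * g * k) * k⁻¹ by group, card_cent_conj2, h2] at h5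
  have h6 := h5.trans (card_dvd_of_le (inf_le_inf_right _ h.cent_x))
  rw [h.card_CH (cent_conj_mem (cent_symm (h1 hy))) (by rw [Local.orderOf_conj', ho])] at h6
  norm_num at h6

theorem not_cent_R {c : G} (hc : c ∈ centralizer ({g} : Set G) ⊓ (Q ⊔ zpowers x))
    (e : orderOf c = 3) : ¬ Q ⊓ centralizer ({g} : Set G) ≤ centralizer ({c} : Set G) := fun l1 => by
  obtain ⟨k, hk, e2⟩ := exists_conj_cent (by norm_num) (by rw [h.card_N3g hg ho]; norm_num) hc
    ⟨cent_symm hg, mem_sup_right (mem_zpowers x)⟩ e h.x3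
  have l3 : Q ⊓ centralizer ({g} : Set G) ≤ zpowers z := fun r hr => h.fix r hr.1 (by
    have l4 : k ∈ normalizer ((Q ⊓ centralizer ({g} : Set G) : Subgroup G) : Set G) :=
      le_normalizer_inf (inf_le_right.trans ((sup_le h.QH (zpowers_le.2 h.xH)).trans h.pre.norm))
        (inf_le_left.trans le_normalizer) hk
    have l5 := Solv.mem_conj_smul.2 (l1 (inv_conj_mem_of_mem_normalizer l4 hr))
    rw [cent_of_conj e2] at l5
    exact (mem_centralizer_singleton_iff.1 l5).symm)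
  have l6 := card_le_of_le l3
  rw [h.card_R hg ho, Nat.card_zpowers, h.pre.ord] at l6
  omega

theorem O_inf {O : Subgroup G} (h1 : O ≤ centralizer ({g} : Set G))
    (h2 : centralizer ({g} : Set G) ≤ normalizer (O : Set G)) (h3 : Odd (Nat.card O)) (h4 : g ∈ O) :
    O ⊓ centralizer ({z} : Set G) = zpowers g := by
  have k1 : O ⊓ centralizer ({z} : Set G) ≤ centralizer ({z} : Set G) ⊓ centralizer ({g} : Set G) :=
    le_inf inf_le_right (inf_le_left.trans h1)
  have k2 := card_dvd_of_le k1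
  have k3 := h3.of_dvd_nat (card_dvd_of_le (inf_le_left : O ⊓ centralizer ({z} : Set G) ≤ O))
  have k4 : ¬ 3 ∣ Nat.card ↥(O ⊓ centralizer ({z} : Set G)) := fun e => by
    obtain ⟨c, hc, e1⟩ := exists_order (by norm_num) e
    have l1 := le_centralizer_of_disjoint (H := Q ⊓ centralizer ({g} : Set G))
      (K := O ⊓ centralizer ({z} : Set G))
      (le_normalizer_inf (inf_le_right.trans h2) ((inf_le_left.trans h.QH).trans le_normalizer))
      (le_normalizer_inf (inf_le_right.trans h.pre.norm) ((inf_le_left.trans h1).trans le_normalizer))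
      (inf_eq_bot_of_coprime_card (by
        rw [h.card_R hg ho]; exact (Nat.coprime_two_left.2 k3).pow_left 3))
    exact h.not_cent_R hg ho ⟨h1 hc.1, (h.p_eq_one c hc.2).1
      (h.p_eq_one_of hg ho (k1 hc) (n := 3) (by norm_num) (e1 ▸ pow_orderOf_eq_one c))⟩ e1
      fun r hr => mem_centralizer_singleton_iff.2 (l1 hr c hc).symm
  rw [h.card_CH hg ho, show 264 = 2 ^ 3 * (3 * 11) by norm_num] at k2
  have k5 := ((Nat.prime_three.coprime_iff_not_dvd.2 k4).symm.dvd_of_dvd_mul_left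
    (((Nat.coprime_two_right.2 k3).pow_right 3).dvd_of_dvd_mul_left k2))
  exact (eq_of_le_of_card_ge (zpowers_le.2 (mem_inf.2 ⟨h4, h.cent_x hg⟩))
    (by rw [Nat.card_zpowers, ho]; exact Nat.le_of_dvd (by norm_num) k5)).symm

theorem free {W : Subgroup G} (h1 : W ⊓ centralizer ({z} : Set G) ≤ zpowers g)
    (h2 : Q ⊓ centralizer ({g} : Set G) ≤ normalizer (W : Set G)) :
    Nat.card W % 8 = Nat.card ↥(W ⊓ zpowers g) % 8 := by
  obtain ⟨m, e⟩ := TIW.card_dvd_ncard_of_conj_free (Q ⊓ centralizer ({g} : Set G))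
    {y | y ∈ W ∧ y ∉ W ⊓ zpowers g} (fun r hr y hy => ⟨conj_mem_of_mem_normalizer (h2 hr) hy.1,
      fun k => hy.2 ⟨hy.1, by
        have := inv_conj_mem_of_mem_normalizer (mem_norm_zp (g := r) (y := g) (by
          rw [mem_cent.1 hr.2]; exact mem_zpowers g)) k.2
        simpa [mul_assoc] using this⟩⟩) fun r hr y hy e => by
      by_contra h3
      obtain ⟨i, hi⟩ := h.z_mem_zp hg ho hr h3
      exact hy.2 ⟨hy.1, h1 ⟨hy.1, mem_centralizer_singleton_iff.2
        (hi ▸ ((show Commute r y from e).zpow_left i).eq.symm)⟩⟩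
  rw [← ncard_diff (inf_le_left : W ⊓ zpowers g ≤ W), e, h.card_R hg ho, Nat.mul_add_mod]

end J4B.Sp

theorem J4D.Dt.exists_U (h : Dt z x Q p v ρ κ) {g : G} (hg : g ∈ centralizer ({x} : Set G))
    (ho : orderOf g = 11) : Nat.card (centralizer ({g} : Set G)) = 31944 ∧ ∃ U : Subgroup G,
      Nat.card U = 11 ^ 3 ∧ U ≤ centralizer ({g} : Set G) ∧
      centralizer ({g} : Set G) ≤ normalizer (U : Set G) ∧
      U ⊓ centralizer ({z} : Set G) = zpowers g := by
  obtain ⟨O, h1, h2, h3, h4, h5⟩ := exists_O (cent_symm (h.cent_x hg)) h.pre.ord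
    fun t => h.uniq hg ho
  have h6 := h5 g (mem_cent.2 (by group)) le_rfl (by rw [ho]; decide)
  have h7 := h.O_inf hg ho h1 h2 h3 h6
  have h8 := Solv.card_sup_mul_card_inf_of_le_normalizer (inf_le_left.trans h2 :
    centralizer ({g} : Set G) ⊓ centralizer ({z} : Set G) ≤ _)
  rw [h4, ← inf_assoc, inf_eq_left.2 h1, h7, Nat.card_zpowers, ho, inf_comm, h.card_CH hg ho] at h8
  have h9 : Nat.card (centralizer ({g} : Set G)) = 24 * Nat.card O := by omega
  have k1 : ∀ q, q.Prime → q ∣ Nat.card O → q = 11 := fun q hq e => by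
    have : Fact q.Prime := ⟨hq⟩
    obtain ⟨P, l1, l2, l3, l4⟩ := Coprime.exists_invariant_sylow' (inf_le_right.trans h2 :
      Q ⊓ centralizer ({g} : Set G) ≤ _) (by
        rw [h.card_R hg ho]; exact (Nat.coprime_two_left.2 h3).pow_left 3)
      (Or.inl (isSolvable_of_isPGroup (p := 2) (IsPGroup.of_card (n := 3) (h.card_R hg ho)))) q
    obtain ⟨n, l5⟩ := IsPGroup.iff_card.1 l2
    have l6 : n ≠ 0 := fun e1 => l3 (by
      rwa [← card_mul_relIndex_of_le l1, l5, e1, pow_zero, one_mul] at e)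
    have l7 := h.free hg ho ((inf_le_inf_right _ l1).trans h7.le) l4
    have l8 := h.dvd P
    have l9 := e.trans (card_dvd_of_le h1)
    by_contra l10
    rw [inf_eq_bot_of_coprime_card (by
      rw [l5, Nat.card_zpowers, ho]
      exact ((Nat.coprime_primes hq (by norm_num)).2 l10).pow_left n), card_bot, l5] at l7
    rw [l5] at l8
    have l11 : ¬ q ^ 2 ∣ 86775571046077562880 → q % 8 = 1 := fun e1 => by
      rwa [show n = 1 by
        by_contra e2; exact e1 ((pow_dvd_pow q (by omega)).trans l8), pow_one] at l7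
    rcases prime_dvd hq (e.trans (h.dvd O)) with rfl | rfl | rfl | rfl | rfl | rfl | rfl | rfl | rfl | rfl
    · exact absurd (h3.of_dvd_nat e) (by decide)
    · exact h.not_nine ho (h9 ▸ (show 9 ∣ 24 * 3 by norm_num).trans (Nat.mul_dvd_mul_left 24 e))
    · exact (h.not57 ho).1 l9
    · exact (h.not57 ho).2 l9
    · exact l10 rfl
    all_goals exact absurd (l11 (by norm_num)) (by norm_num)
  have k2 := Nat.eq_prime_pow_of_unique_prime_dvd Nat.card_pos.ne' fun {q} => k1 q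
  generalize (Nat.card O).primeFactorsList.length = n at k2
  have k3 := h.free hg ho h7.le (inf_le_right.trans h2)
  rw [inf_eq_right.2 (zpowers_le.2 h6), Nat.card_zpowers, ho, k2] at k3
  have k4 : n ≤ 3 := by
    by_contra e
    exact absurd ((pow_dvd_pow 11 (show 4 ≤ n by omega)).trans (k2 ▸ h.dvd O)) (by norm_num)
  have k5 : n ≠ 1 := fun e => by
    have := sq_dvd_cent (by norm_num) ho (by rw [h.card]; norm_num)
    rw [h9, k2, e] at this
    norm_num at this
  have k6 : n = 3 := by interval_cases n <;> simp_all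
  rw [k6] at k2
  exact ⟨by rw [h9, k2]; norm_num, O, k2, h1, h2, h7⟩

end Cfsg.Lib.SporChar
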