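import Cfsg.Agent.SporChar.J4DB
import Cfsg.Agent.Fus.EssSmall
import Mathlib.GroupTheory.FixedPointFree

/-! Groups of type `J₄`: the Sylow 11-subgroup and its normalizer. -/

set_option autoImplicit false
set_option maxRecDepth 100000

namespace Cfsg.Lib.SporChar

open Subgroup Equiv Cfsg.Lib.Spor Cfsg.Lib.Spor.MP Cfsg.Lib.SporChar.J4 Cfsg.Lib.Solv
  Cfsg.Lib.Solv.Count J4B J4C J4D MulAction Cfsg.Lib.Local
open scoped Pointwise

variable {G : Type*} [Group G] [Finite G] {z x : G} {Q : Subgroup G} {p ρ : G → Perm GolayPt}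
  {v : Finset GolayPt → G} {κ : M24 →* G}

omit [Finite G] in
theorem J4D.card_stab {Ω : Type*} [MulAction G Ω] (b : Ω) :
    Nat.card (stabilizer G b) * (orbit G b).ncard = Nat.card G := by
  rw [← index_stabilizer, card_mul_index]

/-- Fixed points of an element of prime order on an orbit. -/
theorem J4D.fix_le {Ω : Type*} [MulAction G Ω] {w : G} {q : ℕ} (hq : q.Prime) (ho : orderOf w = q)
    (h2 : ¬ q ^ 2 ∣ Nat.card G) (b : Ω) :
    q * {ω | ω ∈ orbit G b ∧ w • ω = ω}.ncard ≤ Nat.card (normalizer (zpowers w : Set G)) := by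
  rcases Set.eq_empty_or_nonempty {ω | ω ∈ orbit G b ∧ w • ω = ω} with e | ⟨a, h3, h4⟩
  · simp [e]
  rw [← card_stab (G := normalizer (zpowers w : Set G)) a]
  refine Nat.mul_le_mul (Nat.le_of_dvd Nat.card_pos ?_) (Set.ncard_le_ncard ?_ (Set.finite_range _))
  · have := orderOf_dvd_card' (a := (⟨w, le_normalizer (mem_zpowers w)⟩ :
      normalizer (zpowers w : Set G))) (mem_stabilizer_iff.2 h4)
    rwa [← Subgroup.orderOf_coe, ho] at this
  · rintro ω ⟨h5, h6⟩
    obtain ⟨m, rfl⟩ := (orbit_eq_iff.2 h3).ge h5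
    obtain ⟨s, hs, e⟩ := exists_conj_cent (K := stabilizer G a) (a := w) (b := m⁻¹ * w * m) hq
      (fun e => h2 (e.trans (card_subgroup_dvd_card _))) h4
      (by rw [mem_stabilizer_iff, mul_smul, mul_smul, h6, inv_smul_smul]) ho
      (by rw [Local.orderOf_conj', ho])
    refine ⟨⟨m * s, mem_normalizer_iff_conj_smul_eq.2 ?_⟩, ?_⟩
    · rw [conj_mul_smul, e, conj_smul_zpowers]; congr 1; group
    · show (m * s) • a = m • a
      rw [mul_smul, mem_stabilizer_iff.1 hs]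

namespace J4B.Sp

variable (h : Sp z x Q p v ρ κ) {w : G} (hw : w ∈ normalizer (h.V : Set G)) (ho : orderOf w = 11)
include hw ho

omit [Finite G] in
theorem ord_ρ : orderOf (ρ w) = 11 := by
  have : Fact (Nat.Prime 11) := ⟨by norm_num⟩
  refine orderOf_eq_prime (by rw [← h.coc.ρ_pow hw, ← ho, pow_orderOf_eq_one, h.coc.ρ_one])
    fun e => ?_
  have h1 := orderOf_dvd_card' ((h.coc.ρ_eq_one w hw).1 e)
  rw [ho, h.coc.cardV] at h1
  norm_num at h1

theorem card_Vw : Nat.card ↥(h.V ⊓ centralizer ({w} : Set G)) = 2 := by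
  have h1 := card_modEq (by norm_num) ho hw
  obtain ⟨k, hk, e⟩ := (Nat.dvd_prime_pow Nat.prime_two).1
    (h.coc.cardV ▸ card_dvd_of_le (inf_le_left : h.V ⊓ centralizer ({w} : Set G) ≤ h.V))
  rw [h.coc.cardV, e] at h1
  have h2 : k ≠ 11 := fun e1 => by
    have h3 := eq_of_le_of_card_ge (inf_le_left : h.V ⊓ centralizer ({w} : Set G) ≤ h.V)
      (by rw [e, e1, h.coc.cardV])
    have h4 := orderOf_dvd_card' (h.coc.cent_le (show w ∈ _ from fun q hq =>
      mem_centralizer_singleton_iff.1 (h3.ge hq).2))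
    rw [ho, h.coc.cardV] at h4
    norm_num at h4
  rw [e]
  interval_cases k <;> simp_all

theorem card_Mw : Nat.card ↥(normalizer (h.V : Set G) ⊓ centralizer ({w} : Set G)) = 22 := by
  rw [h.coc.card_le _ inf_le_left, inf_right_comm, inf_eq_right.2 le_normalizer, h.card_Vw hw ho,
    show 22 = 2 * 11 by norm_num, ← h.ord_ρ hw ho, ← Nat.card_zpowers]
  congr 3
  ext σ
  rw [h.coc.mem_map_hom inf_le_left]
  refine ⟨fun ⟨c, hc, e⟩ => e ▸ card_cent_eleven (h.coc.ρ_mem w) (h.ord_ρ hw ho) ▸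
    mem_inf.2 ⟨h.coc.ρ_mem c, mem_cent.2 (by rw [← h.coc.ρ_conj hc.1 hw, mem_cent.1 hc.2])⟩,
    fun hσ => ?_⟩
  obtain ⟨i, -, rfl⟩ := exists_pow_of_mem hσ
  exact ⟨w ^ i, ⟨pow_mem hw i, pow_mem (mem_cent.2 (by group)) i⟩, h.coc.ρ_pow hw i⟩

end J4B.Sp

theorem J4D.Dt.card_w (h : Dt z x Q p v ρ κ) {w : G}
    (hd : w ∈ centralizer ({v {none, some 0}} : Set G)) (ho : orderOf w = 11) :
    Nat.card (centralizer ({w} : Set G)) = 242 := by
  have hw := h.cent_duad _ rfl hd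
  have h1 : ¬ 11 ^ 2 ∣ Nat.card (normalizer (h.V : Set G)) := by rw [h.coc.cardN]; norm_num
  have h2 : orderOf (⟨w, hw⟩ : normalizer (h.V : Set G)) = 11 := by rw [← Subgroup.orderOf_coe, ho]
  obtain ⟨a, b, h3⟩ := h.orb
  have h4 := fix_le (by norm_num) h2 h1 b
  obtain ⟨m, h5, h6⟩ := card_norm_zp (by norm_num) h2
  rw [← card_map_subtype (centralizer _), map_cent, h.card_Mw hw ho] at h6
  have h7 := Nat.le_of_dvd (by norm_num) h5
  have h8 := card_stab (G := centralizer ({w} : Set G)) ((1 : G) : G ⧸ normalizer (h.V : Set G))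
  have h9 : stabilizer (centralizer ({w} : Set G)) ((1 : G) : G ⧸ normalizer (h.V : Set G)) =
      (normalizer (h.V : Set G)).subgroupOf _ := by
    ext c
    show (c : G) ∈ stabilizer G ((1 : G) : G ⧸ normalizer (h.V : Set G)) ↔ _
    rw [stabilizer_quotient, mem_subgroupOf]
  rw [h9, card_subgroupOf, h.card_Mw hw ho] at h8
  have k1 : (orbit (centralizer ({w} : Set G)) ((1 : G) : G ⧸ normalizer (h.V : Set G))).ncard ≤
      {ω | ω ∈ orbit (normalizer (h.V : Set G)) b ∧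
        (⟨w, hw⟩ : normalizer (h.V : Set G)) • ω = ω}.ncard + 1 := by
    refine (Set.ncard_le_ncard ?_ (Set.toFinite _)).trans (Set.ncard_insert_le a _)
    rintro _ ⟨c, rfl⟩
    have l1 : (⟨w, hw⟩ : normalizer (h.V : Set G)) •
        c • ((1 : G) : G ⧸ normalizer (h.V : Set G)) = c • ((1 : G) : G ⧸ _) := by
      show w • (c : G) • ((1 : G) : G ⧸ normalizer (h.V : Set G)) = (c : G) • ((1 : G) : G ⧸ _)
      rw [← mul_smul, ← mem_centralizer_singleton_iff.1 c.2, mul_smul,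
        mem_stabilizer_iff.1 ((stabilizer_quotient _).ge hw)]
    rcases h3 (c • ((1 : G) : G ⧸ normalizer (h.V : Set G))) with e | e | e
    · exact Or.inl e
    · exact Or.inr ⟨e, l1⟩
    · refine absurd ?_ h1
      rw [← card_stab (c • ((1 : G) : G ⧸ normalizer (h.V : Set G))), pow_two]
      exact Nat.mul_dvd_mul (h2 ▸ orderOf_dvd_card' (mem_stabilizer_iff.2 l1)) e
  have k2 := sq_dvd_cent (by norm_num) ho (by rw [h.card]; norm_num)
  have k3 : 0 < Nat.card (centralizer ({w} : Set G)) := Nat.card_pos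
  omega

/-- The Sylow 11-subgroup `U` with its central element `g` and a non-central element `w`. -/
structure J4D.El (z x g w : G) (Q U : Subgroup G) (p : G → Perm GolayPt) (v : Finset GolayPt → G)
    (ρ : G → Perm GolayPt) (κ : M24 →* G) : Prop extends Dt z x Q p v ρ κ where
  gx : g ∈ centralizer ({x} : Set G)
  g11 : orderOf g = 11
  cg : Nat.card (centralizer ({g} : Set G)) = 31944
  cardU : Nat.card U = 11 ^ 3
  U_le : U ≤ centralizer ({g} : Set G)
  normU : centralizer ({g} : Set G) ≤ normalizer (U : Set G)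
  U_inf : U ⊓ centralizer ({z} : Set G) = zpowers g
  wU : w ∈ U
  w11 : orderOf w = 11
  wd : ∃ k, k * w * k⁻¹ ∈ centralizer ({v {none, some 0}} : Set G)

omit [Finite G] in
theorem J4D.Dt.not_dvd_index (h : Dt z x Q p v ρ κ) {U : Subgroup G} (e : Nat.card U = 11 ^ 3) :
    ¬ 11 ∣ U.index := fun k => by
  have := U.card_mul_index
  rw [e, h.card] at this
  omega

theorem J4D.Dt.exists_conj_le (h : Dt z x Q p v ρ κ) {U S : Subgroup G} (e : Nat.card U = 11 ^ 3)
    (hS : IsPGroup 11 S) {K : Subgroup G} (h1 : U ≤ K) (h2 : S ≤ K) :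
    ∃ k ∈ K, ∀ s ∈ S, k * s * k⁻¹ ∈ U :=
  have : Fact (Nat.Prime 11) := ⟨by norm_num⟩
  exists_conj_le_sylow ((IsPGroup.of_card e).toSylow (h.not_dvd_index e)) h1 h2 hS

theorem J4D.Dt.exists_el (h : Dt z x Q p v ρ κ) : ∃ g w U, El z x g w Q U p v ρ κ := by
  obtain ⟨g, h1, h2⟩ := exists_order (p := 11) (by norm_num)
    (show _ ∣ Nat.card (centralizer ({x} : Set G)) by rw [h.cardC]; norm_num)
  obtain ⟨w, h3, h4⟩ := exists_order (p := 11) (by norm_num)
    (show _ ∣ Nat.card (centralizer ({v {none, some 0}} : Set G)) by rw [h.card_d]; norm_num)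
  obtain ⟨h5, U, h6, h7, h8, h9⟩ := h.exists_U h1 h2
  obtain ⟨k, -, hk⟩ := h.exists_conj_le h6 (IsPGroup.of_card (n := 1) (G := zpowers w)
    (by rw [Nat.card_zpowers, h4, pow_one])) le_top le_top
  exact ⟨g, _, U, h, h1, h2, h5, h6, h7, h8, h9, hk w (mem_zpowers w),
    by rw [J4C.orderOf_conj', h4], k⁻¹, by simpa [mul_assoc] using h3⟩

namespace J4D.El

variable {g w : G} {U : Subgroup G} (h : El z x g w Q U p v ρ κ)
include h

theorem cw : Nat.card (centralizer ({w} : Set G)) = 242 := by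
  obtain ⟨k, hk⟩ := h.wd
  rw [← h.card_w hk (by rw [J4C.orderOf_conj', h.w11])]
  exact card_cent_of_conj (isConj_iff.2 ⟨k, rfl⟩).symm

omit [Finite G] in
theorem gU : g ∈ U := (h.U_inf.ge (mem_zpowers g)).1

theorem not_comm : ¬ ∀ a b : U, a * b = b * a := fun e => by
  have := card_le_of_le (show U ≤ centralizer ({w} : Set G) from fun u hu =>
    mem_centralizer_singleton_iff.2 (congrArg Subtype.val (e ⟨u, hu⟩ ⟨w, h.wU⟩)))
  rw [h.cw, h.cardU] at this
  omega

theorem extra : IsExtraspecial 11 U :=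
  have : Fact (Nat.Prime 11) := ⟨by norm_num⟩
  Fus.Ess.isExtraspecial_of_card_cube h.cardU h.not_comm

theorem center_eq : U ⊓ centralizer (U : Set G) = zpowers g :=
  (eq_of_le_of_card_ge (zpowers_le.2 (mem_inf.2 ⟨h.gU, mem_centralizer_iff.2 fun u hu =>
    mem_centralizer_singleton_iff.1 (h.U_le hu)⟩)) (by
    rw [← map_subtype_center, card_map_subtype, h.extra.2, Nat.card_zpowers, h.g11])).symm

theorem le_U {S : Subgroup G} (h1 : IsPGroup 11 S) (h2 : S ≤ normalizer (U : Set G)) : S ≤ U := by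
  obtain ⟨k, hk, e⟩ := h.exists_conj_le h.cardU h1 le_normalizer h2
  exact fun s hs => by simpa [mul_assoc] using inv_conj_mem_of_mem_normalizer hk (e s hs)

theorem norm_eq : normalizer (zpowers g : Set G) = normalizer (U : Set G) := by
  refine le_antisymm (fun n hn => mem_normalizer_iff_conj_smul_eq.2 (eq_of_le_of_card_ge
    (h.le_U (isPGroup_conj_smul (IsPGroup.of_card h.cardU) n) ?_) (card_conj_smul _ _).ge)) ?_
  · exact (conj_smul_mono n h.U_le).trans
      ((cent_of_conj (conj_smul_eq_of_mem_normalizer hn)).le.trans h.normU)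
  · rw [← h.center_eq]
    exact le_normalizer_inf le_rfl (normalizer_le_normalizer_centralizer U)

theorem cardN : Nat.card (normalizer (U : Set G)) = 319440 := by
  obtain ⟨m, h1, h2⟩ := card_norm_zp (by norm_num) h.g11
  obtain ⟨n, h3, h4⟩ := sylow_cong (m := 65195770883604480) (by norm_num) h.cardU
    (by rw [h.card]; norm_num) (by norm_num)
  rw [h.norm_eq, h.cg] at h2
  rw [h2, h.card] at h4
  have := Nat.le_of_dvd (by norm_num) h1
  rw [h2]
  interval_cases m <;> omega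

theorem not_mem_zp {a : G} (ha : a ∈ zpowers g) (h1 : a ≠ 1) : ¬ IsConj w a := fun e => by
  have h2 := card_cent_of_conj e
  rw [h.cw, cent_eq_of_mem _ ha, h.cg] at h2
  · omega
  · rw [Known.SC.zpowers_eq_of_card_prime (p := 11) (by norm_num)
      (by rw [Nat.card_zpowers, h.g11]) ha h1]
    exact mem_zpowers g

omit [Finite G] in
theorem w_ne : w ≠ 1 := fun e => by simpa [e] using h.w11

omit [Finite G] in
theorem g_ne : g ≠ 1 := fun e => by simpa [e] using h.g11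

theorem cnt_w : (∀ u ∈ U, u ∉ zpowers g → ∃ n ∈ normalizer (U : Set G), n * w * n⁻¹ = u) ∧
    centralizer ({w} : Set G) ≤ normalizer (U : Set G) := by
  have h1 := cnt_conj_mul (normalizer (U : Set G)) w
  have h2 := cnt_compl (zpowers_le.2 h.gU)
  have h3 := card_le_of_le (inf_le_right : normalizer (U : Set G) ⊓ centralizer ({w} : Set G) ≤ _)
  have h4 : ∀ u, (∃ n ∈ normalizer (U : Set G), n * w * n⁻¹ = u) → u ∈ U ∧ u ∉ zpowers g := by
    rintro _ ⟨n, hn, rfl⟩
    exact ⟨conj_mem_of_mem_normalizer hn h.wU, fun e => h.not_mem_zp e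
      (fun e1 => h.w_ne (conj_eq_one_iff.1 e1)) (isConj_iff.2 ⟨n, rfl⟩)⟩
  have h5 := cnt_le h4
  rw [h.cardN] at h1
  rw [h.cardU, Nat.card_zpowers, h.g11] at h2
  rw [h.cw] at h3
  refine ⟨fun u h6 h7 => eq_of_cnt_le h4 (by nlinarith) ⟨h6, h7⟩,
    inf_eq_right.1 (eq_of_le_of_card_ge inf_le_right (by rw [h.cw]; nlinarith))⟩

theorem conj_g {a : G} (ha : a ∈ zpowers g) (h1 : a ≠ 1) :
    ∃ n ∈ normalizer (U : Set G), n * g * n⁻¹ = a := by
  have h2 := cnt_conj_mul (normalizer (U : Set G)) g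
  have h3 := cnt_compl (bot_le : ⊥ ≤ zpowers g)
  rw [inf_eq_right.2 h.normU, h.cg, h.cardN] at h2
  rw [card_bot, Nat.card_zpowers, h.g11] at h3
  refine eq_of_cnt_le (P := fun u => ∃ n ∈ normalizer (U : Set G), n * g * n⁻¹ = u)
    (Q := fun u => u ∈ zpowers g ∧ u ∉ (⊥ : Subgroup G)) ?_ (by omega) ⟨ha, h1⟩
  rintro _ ⟨n, hn, rfl⟩
  exact ⟨conj_mem_of_mem_normalizer (h.norm_eq.ge hn) (mem_zpowers g),
    fun e => h.g_ne (conj_eq_one_iff.1 e)⟩

theorem classes {a : G} (h1 : IsPGroup 11 (zpowers a)) : a = 1 ∨ IsConj g a ∨ IsConj w a := by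
  obtain ⟨k, -, hk⟩ := h.exists_conj_le h.cardU h1 le_top le_top
  rw [← isConj_cj g k, ← isConj_cj w k, ← conj_eq_one_iff (a := k)]
  by_cases e : k * a * k⁻¹ ∈ zpowers g
  · refine or_iff_not_imp_left.2 fun e1 => ?_
    obtain ⟨n, -, e2⟩ := h.conj_g e e1
    exact Or.inl (isConj_iff.2 ⟨n, e2⟩)
  · obtain ⟨n, -, e2⟩ := h.cnt_w.1 _ (hk a (mem_zpowers a)) e
    exact Or.inr (Or.inr (isConj_iff.2 ⟨n, e2⟩))

theorem exp : Monoid.exponent U = 11 := by
  refine Nat.dvd_antisymm (Monoid.exponent_dvd_of_forall_pow_eq_one fun u => Subtype.ext ?_) ?_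
  · show (u : G) ^ 11 = 1
    rw [← orderOf_dvd_iff_pow_eq_one]
    rcases h.classes ((IsPGroup.of_card h.cardU).to_le (zpowers_le.2 u.2)) with e | e | e
    · simp [e]
    · obtain ⟨k, e⟩ := isConj_iff.1 e
      rw [← e, J4C.orderOf_conj', h.g11]
    · obtain ⟨k, e⟩ := isConj_iff.1 e
      rw [← e, J4C.orderOf_conj', h.w11]
  · have := Monoid.order_dvd_exponent (⟨g, h.gU⟩ : U)
    rwa [← Subgroup.orderOf_coe, h.g11] at this

/-- A non-trivial element of `U` fixed by an involution of the normalizer. -/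
theorem exists_fix {j : G} (hj : j ∈ normalizer (U : Set G)) (h2 : j * j = 1) :
    ∃ u ∈ U, u ≠ 1 ∧ j * u * j⁻¹ = u := by
  by_contra! h3
  refine h.not_comm fun a b => (MonoidHom.FixedPointFree.commute_all_of_involutive
    (φ := U.normalizerMonoidHom ⟨j, hj⟩) (fun u e => ?_) (fun u => ?_) a b).eq
  · by_contra e1
    exact h3 u u.2 (fun e2 => e1 (Subtype.ext e2)) (congrArg Subtype.val e)
  · rw [← MulAut.mul_apply, ← map_mul, show (⟨j, hj⟩ * ⟨j, hj⟩ : normalizer (U : Set G)) = 1 from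
      Subtype.ext h2, map_one, MulAut.one_apply]

theorem conj_d {t : G} (h1 : t ∈ centralizer ({w} : Set G)) (h2 : orderOf t = 2) :
    IsConj (v {none, some 0}) t := by
  obtain ⟨k, hk⟩ := h.wd
  have h3 := h.t_spec (a := none) (b := some 0) (by simp)
  have h4 := orderOf_two (h.coc.v_sq _) h3.2.1
  obtain ⟨c, -, e⟩ := exists_conj_cent Nat.prime_two (by rw [h.cw]; norm_num)
    (cent_conj_mem (cent_symm hk)) h1 (by rw [Local.orderOf_conj', h4]) h2
  rw [conj_smul_zpowers] at e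
  refine isConj_iff.2 ⟨c * k⁻¹, ?_⟩
  rw [← eq_of_two h2 (e.le (mem_zpowers _)) fun e1 => h3.2.1
    (conj_eq_one_iff.1 ((by group : k⁻¹ * v {none, some 0} * k⁻¹⁻¹ = _).trans (conj_eq_one_iff.1 e1)))]
  group

theorem inv_or {j : G} (hj : j ∈ normalizer (U : Set G)) (h2 : j * j = 1) :
    j * g * j⁻¹ = g ∨ j * g * j⁻¹ = g⁻¹ := by
  obtain ⟨i, hi, e⟩ := exists_pow_of_mem (conj_mem_of_mem_normalizer (h.norm_eq.ge hj) (mem_zpowers g))
  have h3 := conj_pow' e 2
  rw [pow_two, h2, one_mul, inv_one, mul_one, eq_comm] at h3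
  nth_rewrite 2 [← pow_one g] at h3
  rw [pow_eq_pow_iff_modEq, h.g11] at h3
  rw [h.g11] at hi
  have h4 : i = 1 ∨ i = 10 := by
    revert h3; interval_cases i <;> simp [Nat.ModEq]
  rcases h4 with rfl | rfl
  · exact Or.inl (e.trans (pow_one g))
  · refine Or.inr (e.trans (eq_inv_of_mul_eq_one_left ?_))
    rw [← pow_succ, ← orderOf_dvd_iff_pow_eq_one, h.g11]

/-- Conjugates of `z` that normalize `U` centralize `g`. -/
theorem cent_of_z {j : G} (hj : j ∈ normalizer (U : Set G)) (h1 : IsConj z j) : j * g * j⁻¹ = g := by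
  obtain ⟨k, rfl⟩ := isConj_iff.1 h1
  have h2 : orderOf (k * z * k⁻¹) = 2 := by rw [J4C.orderOf_conj', h.pre.ord]
  have h3 : k * z * k⁻¹ * (k * z * k⁻¹) = 1 := by rw [← pow_two, ← h2, pow_orderOf_eq_one]
  generalize k * z * k⁻¹ = j at *
  refine (h.inv_or hj h3).resolve_right fun e => ?_
  obtain ⟨u, hu, h4, h5⟩ := h.exists_fix hj h3
  obtain ⟨n, -, rfl⟩ := h.cnt_w.1 u hu fun e1 => by
    obtain ⟨i, rfl⟩ := e1
    rw [← conj_zpow, e, inv_zpow, inv_eq_iff_mul_eq_one, ← pow_two] at h5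
    exact h4 (orderOf_eq_one_iff.1 (Nat.eq_one_of_dvd_coprimes (by norm_num : Nat.Coprime 2 11)
      (orderOf_dvd_of_pow_eq_one h5) (h.g11 ▸ orderOf_dvd_of_mem_zpowers ⟨i, rfl⟩)))
  have h6 := h.conj_d (cent_conj_mem (mem_cent.2 h5)) (by rw [Local.orderOf_conj', h2])
  exact (h.t_spec (a := none) (b := some 0) (by simp)).2.2
    ((h1.trans (isConj_iff.2 ⟨n⁻¹, by rw [inv_inv]⟩)).trans h6.symm)

end J4D.El

end Cfsg.Lib.SporChar
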