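import Cfsg.Agent.SporChar.J4DS5M

/-! The classes of `{2,3}`-elements in an extension of `2^3` by `L₃(2)`. -/

set_option autoImplicit false
set_option maxRecDepth 100000

namespace Cfsg.Lib.SporChar.J4D

open Subgroup Matrix Cfsg.Lib.SporChar.J4C

variable {G : Type*} [Group G]

/-- `J` is an extension of the group `ε(V3)` by the full linear group. -/
structure E3 (J : Subgroup G) (ε : V3 → G) (π : G → M3) : Prop where
  add : ∀ a b, ε (a + b) = ε a * ε b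
  inj : Function.Injective ε
  mem : ∀ a, ε a ∈ J
  act : ∀ k ∈ J, ∀ a, k * ε a * k⁻¹ = ε (π k *ᵥ a)
  surj : ∀ A, D1 A → ∃ k ∈ J, π k = A
  ker : ∀ k ∈ J, π k = 1 → ∃ a, ε a = k

namespace E3

variable {J : Subgroup G} {ε : V3 → G} {π : G → M3} (h : E3 J ε π)
include h

theorem zero : ε 0 = 1 := by
  have := h.add 0 0
  rw [add_zero] at this
  exact left_eq_mul.1 this

theorem inv (a : V3) : (ε a)⁻¹ = ε a := by
  rw [inv_eq_iff_mul_eq_one, ← h.add, (by decide : ∀ a : V3, a + a = 0), h.zero]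

theorem ext {k : G} (hk : k ∈ J) {A : M3} (e : ∀ a, k * ε a * k⁻¹ = ε (A *ᵥ a)) : π k = A :=
  Matrix.toLin'.injective (LinearMap.ext fun a => h.inj ((h.act k hk a).symm.trans (e a)))

theorem mul {k l : G} (hk : k ∈ J) (hl : l ∈ J) : π (k * l) = π k * π l :=
  h.ext (mul_mem hk hl) fun a => by
    rw [← mulVec_mulVec, ← h.act k hk, ← h.act l hl]; group

theorem one : π 1 = 1 := h.ext (one_mem _) fun a => by simp

theorem π_ε (a : V3) : π (ε a) = 1 := h.ext (h.mem a) fun b => by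
  rw [← h.add, add_comm, h.add, one_mulVec, mul_inv_cancel_right]

theorem pow {k : G} (hk : k ∈ J) (n : ℕ) : π (k ^ n) = π k ^ n := by
  induction n with
  | zero => simpa using h.one
  | succ n ih => rw [pow_succ, h.mul (pow_mem hk n) hk, ih, pow_succ]

theorem inv_mul {k : G} (hk : k ∈ J) : π k⁻¹ * π k = 1 := by
  rw [← h.mul (inv_mem hk) hk, inv_mul_cancel, h.one]

theorem d1 {k : G} (hk : k ∈ J) : D1 (π k) := by
  have := congrArg det (h.inv_mul hk)
  rw [det_mul, det_one] at this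
  exact d1_iff.2 ((by decide : ∀ a b : ZMod 2, a * b = 1 → b = 1) _ _ this)

theorem dec {k l : G} (hk : k ∈ J) (hl : l ∈ J) (e : π k = π l) : ∃ a, ε a * l = k := by
  obtain ⟨a, ha⟩ := h.ker (k * l⁻¹) (mul_mem hk (inv_mem hl)) (by
    rw [h.mul hk (inv_mem hl), e, ← h.mul hl (inv_mem hl), mul_inv_cancel, h.one])
  exact ⟨a, by rw [ha, inv_mul_cancel_right]⟩

theorem π_mul (a : V3) {j : G} (hj : j ∈ J) : π (ε a * j) = π j := by
  rw [h.mul (h.mem a) hj, h.π_ε, one_mul]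

theorem conj_ε (u a : V3) {j : G} (hj : j ∈ J) :
    ε u * (ε a * j) * (ε u)⁻¹ = ε (u + a + π j *ᵥ u) * j := by
  rw [h.add, h.add, ← h.act j hj, h.inv]; group

theorem conj_of {s j : G} (hs : s ∈ J) {b : V3} (e : s * j * s⁻¹ = ε b * j) (a : V3) :
    s * (ε a * j) * s⁻¹ = ε (π s *ᵥ a + b) * j := by
  rw [h.add, ← h.act s hs, mul_assoc _ (ε b), ← e]; group

/-- The classes over one class of the linear group. -/
theorem fib {j : G} (hj : j ∈ J) {P : M3 → Prop} (h0 : P (π j)) {l : List M3} (hl : ∀ B ∈ l, D1 B)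
    (h1 : ∀ A, P A → ∃ B ∈ l, B * π j = A * B) {L : List V3}
    (h2 : ∀ a, ∃ b ∈ L, Cj J (ε b * j) (ε a * j))
    (h3 : L.Pairwise fun a b => ∀ k ∈ J, π k * π j = π j * π k → k * (ε a * j) * k⁻¹ ≠ ε b * j) :
    NCl J (fun g => P (π g)) L.length := by
  refine ⟨L.map (ε · * j), List.length_map _, fun g hg => ?_,
    List.pairwise_map.2 (h3.imp fun {a b} e e0 => ?_), fun g hg e => ?_⟩
  · obtain ⟨a, -, rfl⟩ := List.mem_map.1 hg
    exact ⟨mul_mem (h.mem a) hj, by rwa [h.π_mul a hj]⟩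
  · obtain ⟨k, hk, e1⟩ := e0
    refine e k hk ?_ e1
    have := congrArg π (mul_inv_eq_iff_eq_mul.1 e1)
    rwa [h.mul hk (mul_mem (h.mem a) hj), h.mul (mul_mem (h.mem b) hj) hk, h.π_mul a hj,
      h.π_mul b hj] at this
  · obtain ⟨B, hB, e1⟩ := h1 _ e
    obtain ⟨k, hk, rfl⟩ := h.surj B (hl B hB)
    obtain ⟨a, ha⟩ := h.dec (mul_mem (mul_mem (inv_mem hk) hg) hk) hj (by
      rw [h.mul (mul_mem (inv_mem hk) hg) hk, h.mul (inv_mem hk) hg, mul_assoc, ← e1, ← mul_assoc,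
        h.inv_mul hk, one_mul])
    obtain ⟨b, hb, e2⟩ := h2 a
    exact ⟨_, List.mem_map_of_mem hb, e2.trans ⟨k, hk, by rw [ha]; group⟩⟩

theorem fib1 : NCl J (fun g => π g = 1) 2 := by
  refine h.fib (one_mem _) (P := (· = 1)) h.one (l := [1]) (by decide +kernel)
    (fun A e => ⟨1, by simp, by rw [e, h.one]⟩) (L := [0, ![1, 0, 0]]) (fun a => ?_) ?_
  · rcases (by decide +kernel : ∀ a : V3, a = 0 ∨ ∃ B ∈ lP, D1 B ∧ B *ᵥ ![1, 0, 0] = a) a with
      rfl | ⟨B, -, h1, rfl⟩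
    · exact ⟨0, by simp, Cj.refl _ _⟩
    · obtain ⟨k, hk, rfl⟩ := h.surj B h1
      exact ⟨![1, 0, 0], by simp, k, hk, by rw [mul_one, mul_one, h.act k hk]⟩
  · simp only [List.pairwise_cons, List.mem_singleton, forall_eq, List.not_mem_nil, false_imp_iff,
      implies_true, List.Pairwise.nil, and_true]
    intro k _ _ e
    rw [h.zero, mul_one, mul_one, mul_one, mul_inv_cancel, ← h.zero] at e
    exact absurd (h.inj e) (by decide)

theorem fibC {σ : M3} (h0 : D1 σ) {P : M3 → Prop} (h0' : P σ) {l : List M3} (hl : ∀ B ∈ l, D1 B)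
    (h1 : ∀ A, P A → ∃ B ∈ l, B * σ = A * B) (hc : ∀ B, B * σ = σ * B → D1 B → ∃ i < 4, B = σ ^ i)
    (i : Fin 3) (h2 : ∀ a : V3, (σ *ᵥ a) i = a i)
    (h3 : ∀ a : V3, ∃ b ∈ [0, Pi.single i 1], ∃ u, u + b + σ *ᵥ u = a) :
    NCl J (fun g => P (π g)) 2 := by
  obtain ⟨j, hj, rfl⟩ := h.surj σ h0
  refine h.fib hj h0' hl h1 (L := [0, Pi.single i 1]) (fun a => ?_) ?_
  · obtain ⟨b, hb, u, rfl⟩ := h3 a
    exact ⟨b, hb, ε u, h.mem u, h.conj_ε u b hj⟩
  · simp only [List.pairwise_cons, List.mem_singleton, forall_eq, List.not_mem_nil, false_imp_iff,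
      implies_true, List.Pairwise.nil, and_true]
    intro k hk e e1
    obtain ⟨n, -, e2⟩ := hc _ e (h.d1 hk)
    obtain ⟨u, rfl⟩ := h.dec hk (pow_mem hj n) (e2.trans (h.pow hj n).symm)
    rw [show ε u * j ^ n * (ε 0 * j) * (ε u * j ^ n)⁻¹ = ε u * (ε 0 * j) * (ε u)⁻¹ by
      rw [h.zero]; group, h.conj_ε u 0 hj] at e1
    have := congrFun (h.inj (mul_right_cancel e1)) i
    rw [add_zero, Pi.add_apply, h2, Pi.single_eq_same] at this
    exact (by decide : ∀ a : ZMod 2, a + a ≠ 1) _ this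

theorem add' {P P' : M3 → Prop} {m m' : ℕ} (h1 : NCl J (fun g => P (π g)) m)
    (h2 : NCl J (fun g => P' (π g)) m')
    (e : ∀ A C : M3, (∀ n, A ^ n = 1 → C ^ n = 1) → P A → ¬ P' C) :
    NCl J (fun g => P (π g) ∨ P' (π g)) (m + m') :=
  ((h1.congr (P' := fun g => g ∈ J ∧ P (π g)) fun _ hg => (and_iff_right hg).symm).add h2
    fun a _ k1 k2 ⟨k, hk, e1⟩ => e _ _ (fun n e2 => by
      have hk' := inv_mem hk
      rw [← e1, ← h.pow (mul_mem (mul_mem hk k1.1) hk'), conj_pow,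
        h.mul (mul_mem hk (pow_mem k1.1 n)) hk', h.mul hk (pow_mem k1.1 n), h.pow k1.1, e2, mul_one,
        ← h.mul hk hk', mul_inv_cancel, h.one]) k1.2 k2).congr
    fun _ hg => by rw [and_iff_right hg]

variable {R : Subgroup G} (hR : R ≤ J) (hU : ∀ a, ε a ∈ R) (hc : 32 ≤ Nat.card R)
  (hz : ∀ r ∈ R, ∀ s ∈ R, r * s = s * r ∨ r * s * r⁻¹ = ε ![1, 0, 0] * s)
include hR hU hc hz

theorem exists_R {A : M3} (hA : A ∈ lA) : ∃ r ∈ R, π r = A := by
  classical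
  by_contra! h1
  have h2 : ∀ r ∈ R, π r ∈ lA.erase A := fun r hr => by
    refine (List.mem_erase_of_ne (h1 r hr)).2 (mem_lA _ (h.d1 (hR hr)) fun a => ?_)
    refine (hz r hr _ (hU a)).imp (fun e => h.inj ?_) fun e => h.inj ?_
    · rw [← h.act r (hR hr), e, mul_inv_cancel_right]
    · rw [← h.act r (hR hr), e, h.add]
  have h3 : ∀ B : M3, ∃ s, (∃ r ∈ R, π r = B) → s ∈ R ∧ π s = B := fun B => by
    by_cases e : ∃ r ∈ R, π r = B
    · exact e.imp fun _ k _ => k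
    · exact ⟨1, fun k => absurd k e⟩
  choose s hs using h3
  have h4 : ∀ r : R, ∃ a, ε a * s (π r) = r := fun r =>
    h.dec (hR r.2) (hR (hs _ ⟨r, r.2, rfl⟩).1) (hs _ ⟨r, r.2, rfl⟩).2.symm
  choose a ha using h4
  have h5 := Nat.card_le_card_of_injective (β := V3 × (lA.erase A).toFinset)
    (fun r : R => (a r, ⟨π r, List.mem_toFinset.2 (h2 r r.2)⟩)) fun r r' e => Subtype.ext (by
      have e1 : a r = a r' := congrArg Prod.fst e
      have e2 : π r = π r' := congrArg (fun x => x.2.1) e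
      rw [← ha r, ← ha r', e1, e2])
  have h6 := List.toFinset_card_le (lA.erase A)
  rw [List.length_erase_of_mem hA] at h6
  rw [Nat.card_prod, Nat.card_eq_finsetCard, Nat.card_fun, Nat.card_zmod, Nat.card_fin] at h5
  have : lA.length = 4 := rfl
  omega

theorem mem_R {k : G} (hk : k ∈ J) (e : π k ∈ lA) : k ∈ R := by
  obtain ⟨r, hr, e1⟩ := h.exists_R hR hU hc hz e
  obtain ⟨a, rfl⟩ := h.dec hk (hR hr) e1.symm
  exact mul_mem (hU a) hr

theorem fib2 : NCl J (fun g => π g * π g = 1 ∧ π g ≠ 1) 3 := by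
  obtain ⟨j, hj, e⟩ := h.exists_R hR hU hc hz (A := s2) (by simp [lA])
  obtain ⟨s, hs, es⟩ := h.surj t2 (by decide +kernel)
  have hJ := hR hj
  have es' : π s⁻¹ = t2 := by
    have := h.inv_mul hs
    rw [es] at this
    rw [← mul_one (π s⁻¹), ← (by decide +kernel : t2 * t2 = 1), ← mul_assoc, this, one_mul]
  obtain ⟨b, hb⟩ := h.dec (mul_mem (mul_mem hs hJ) (inv_mem hs)) hJ (by
    rw [h.mul (mul_mem hs hJ) (inv_mem hs), h.mul hs hJ, e, es, es']; decide +kernel)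
  have k1 : ∀ r ∈ R, ∀ a, ∃ c ∈ [0, ![1, 0, 0]], r * (ε a * j) * r⁻¹ = ε (c + a) * j :=
    fun r hr a => by
      rcases hz r hr _ (mul_mem (hU a) hj) with e1 | e1
      · exact ⟨0, by simp, by rw [e1, zero_add, mul_inv_cancel_right]⟩
      · exact ⟨![1, 0, 0], by simp, by rw [e1, h.add, mul_assoc]⟩
  have k2 := h.conj_of hs hb.symm
  rw [es] at k2
  have hb1 : b 1 = 0 := by
    obtain ⟨c, hc', e1⟩ := k1 (s * s) (h.mem_R hR hU hc hz (mul_mem hs hs) (by
      rw [h.mul hs hs, es]; decide +kernel)) 0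
    rw [show s * s * (ε 0 * j) * (s * s)⁻¹ = s * (s * (ε 0 * j) * s⁻¹) * s⁻¹ by group, k2, k2] at e1
    exact (by decide +kernel : ∀ b : V3, ∀ c ∈ [0, ![1, 0, 0]],
      t2 *ᵥ (t2 *ᵥ 0 + b) + b = c + 0 → b 1 = 0) b c hc' (h.inj (mul_right_cancel e1))
  refine h.fib hJ (P := fun A => A * A = 1 ∧ A ≠ 1) (by rw [e]; decide +kernel) lP_d1
    (fun A hA => e ▸ cls2 A hA.1 hA.2)
    (L := [0, ![0, 1, 0], ![0, b 2, 1]]) (fun a => ?_) ?_
  · obtain ⟨c, hc', u, k3⟩ := (by decide +kernel : ∀ b : V3, b 1 = 0 → ∀ a : V3,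
      ∃ c ∈ [0, ![0, 1, 0], ![0, b 2, 1]], ∃ u : V3, u + c + s2 *ᵥ u = a ∨
        u + (t2 *ᵥ c + b) + s2 *ᵥ u = a) b hb1 a
    refine ⟨c, hc', ?_⟩
    rcases k3 with rfl | rfl
    · exact ⟨_, h.mem u, e ▸ h.conj_ε u c hJ⟩
    · exact Cj.trans ⟨s, hs, k2 c⟩ ⟨_, h.mem u, e ▸ h.conj_ε u _ hJ⟩
  · refine ((by decide +kernel : ∀ b : V3, b 1 = 0 → List.Pairwise (fun a a' : V3 =>
      ∀ c ∈ [0, ![1, 0, 0]], c + a ≠ a' ∧ t2 *ᵥ (c + a) + b ≠ a')
      [0, ![0, 1, 0], ![0, b 2, 1]]) b hb1).imp fun {a a'} k3 k hk e1 e2 => ?_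
    rw [e] at e1
    rcases cen2 _ e1 (h.d1 hk) with e3 | e3
    · obtain ⟨c, hc', e4⟩ := k1 k (h.mem_R hR hU hc hz hk e3) a
      exact (k3 c hc').1 (h.inj (mul_right_cancel (e4.symm.trans e2)))
    · obtain ⟨c, hc', e4⟩ := k1 (s⁻¹ * k) (h.mem_R hR hU hc hz (mul_mem (inv_mem hs) hk)
        (by rwa [h.mul (inv_mem hs) hk, es'])) a
      refine (k3 c hc').2 (h.inj (mul_right_cancel (b := j) ?_))
      rw [← k2, ← e4, ← e2]; group

theorem ncl {N : ℕ} (h24 : 24 ∣ N) (h7 : N.Coprime 7) : NCl J (· ^ N = 1) 9 := by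
  have h4 := h.fibC (σ := s4) (by decide +kernel) (P := fun A => A * A * (A * A) = 1 ∧ A * A ≠ 1)
    (by decide +kernel) l4_d1 (fun A e => cls4 A e.1 e.2) cen4 2
    (by decide +kernel) (by decide +kernel)
  have h3 := h.fibC (σ := s3) (by decide +kernel) (P := fun A => A * A * A = 1 ∧ A ≠ 1)
    (by decide +kernel) l3_d1 (fun A e => cls3 A e.1 e.2) cen3 0
    (by decide +kernel) (by decide +kernel)
  have k1 := h.add' (P := (· = 1)) (P' := fun A => A * A = 1 ∧ A ≠ 1) h.fib1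
    (h.fib2 hR hU hc hz) fun A C e e1 e2 =>
    e2.2 (by simpa using e 1 (by simpa using e1))
  have k2 := h.add' (P := fun A => A = 1 ∨ A * A = 1 ∧ A ≠ 1)
    (P' := fun A => A * A * (A * A) = 1 ∧ A * A ≠ 1) k1 h4 fun A C e e1 e2 =>
    e2.2 (by
      rw [← pow_two]
      exact e 2 (by rcases e1 with e1 | e1 <;> simp [pow_two, e1]))
  have k3 := h.add' (P := fun A => (A = 1 ∨ A * A = 1 ∧ A ≠ 1) ∨ A * A * (A * A) = 1 ∧ A * A ≠ 1)
    (P' := fun A => A * A * A = 1 ∧ A ≠ 1) k2 h3 fun A C e e1 e2 => e2.2 (by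
      have e3 := e 4 (by
        rw [show A ^ 4 = A * A * (A * A) by simp only [pow_succ, pow_zero, one_mul, mul_assoc]]
        rcases e1 with (e1 | e1) | e1 <;> simp [e1])
      rwa [show C ^ 4 = C * C * C * C by simp only [pow_succ, pow_zero, one_mul], e2.1,
        one_mul] at e3)
  refine k3.congr fun g hg => ⟨fun e => ?_, fun e => ?_⟩
  · obtain ⟨a, ha⟩ := h.ker (g ^ 12) (pow_mem hg 12) (by
      rw [h.pow hg]
      generalize π g = A at e
      have e1 : A ^ 12 = (A * A * (A * A)) ^ 3 := by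
        simp only [pow_succ, pow_zero, one_mul, mul_assoc]
      have e2 : A ^ 12 = (A * A * A) ^ 4 := by simp only [pow_succ, pow_zero, one_mul, mul_assoc]
      rcases e with ((e | e) | e) | e
      · rw [e, one_pow]
      · rw [e1, e.1]; simp
      · rw [e1, e.1, one_pow]
      · rw [e2, e.1, one_pow])
    obtain ⟨n, rfl⟩ := h24
    rw [show 24 * n = 12 * (2 * n) by ring, pow_mul, pow_mul, ← ha, pow_two,
      ← h.add, (by decide : ∀ a : V3, a + a = 0), h.zero, one_pow]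
  · have e1 := congrArg π e
    have e2 := pow12 _ (h.d1 hg)
    rw [h.pow hg, h.one] at e1
    generalize π g = A at e1 e2
    rcases e2 with e2 | e2 | e2
    · by_cases e3 : A * A = 1
      · exact Or.inl (Or.inl (or_iff_not_imp_left.2 fun e4 => ⟨e3, e4⟩))
      · exact Or.inl (Or.inr ⟨e2, e3⟩)
    · by_cases e3 : A = 1
      · exact Or.inl (Or.inl (Or.inl e3))
      · exact Or.inr ⟨e2, e3⟩
    · have e3 : A ^ 7 = 1 := by
        rw [← e2.2]; simp only [pow_succ, pow_zero, one_mul, mul_assoc]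
      have := pow_gcd_eq_one.2 ⟨e1, e3⟩
      rw [h7, pow_one] at this
      exact absurd this e2.1

end E3

end Cfsg.Lib.SporChar.J4D
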